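import Mathlib
import Cfsg.Agent.Lib.SmallSimple.Count
import Cfsg.Agent.Lib.SmallSimple.Basic
import Cfsg.Agent.Lib.Perm.PrimeDegree
import Cfsg.Agent.Lib.Perm.PrimeThree
import Cfsg.Agent.Lib.Perm.PrimeIndex

/-! Permutation groups of prime degree whose Sylow normalizer has order `2p`: counting fixed points. -/

set_option autoImplicit false
set_option linter.unusedSectionVars false
set_option linter.unusedVariables false

namespace Cfsg.Agent.Lib.BT.PermP

open MulAction Subgroup

section Moments

variable {Γ : Type*} [Group Γ] [Fintype Γ] {α : Type*} [Fintype α] [MulAction Γ α]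

/-- Fixed embeddings are the embeddings into the fixed points. -/
theorem card_fixedBy_embedding (k : ℕ) (g : Γ) :
    Nat.card (fixedBy (Fin k ↪ α) g) = (Nat.card (fixedBy α g)).descFactorial k := by
  classical
  have e : fixedBy (Fin k ↪ α) g ≃ (Fin k ↪ fixedBy α g) :=
    { toFun := fun x => ⟨fun i => ⟨x.1 i, by
          have h : g • x.1 = x.1 := x.2
          have h2 := DFunLike.congr_fun h i
          exact h2⟩, fun i j hij => x.1.injective (congrArg Subtype.val hij)⟩
      invFun := fun y => ⟨⟨fun i => (y i).1, fun i j hij => y.injective (Subtype.ext hij)⟩, by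
          show g • _ = _
          ext i
          exact (y i).2⟩
      left_inv := fun x => by
        apply Subtype.ext
        ext i
        rfl
      right_inv := fun y => by
        ext i
        rfl }
  rw [Nat.card_congr e, Nat.card_eq_fintype_card, Fintype.card_embedding_eq, Fintype.card_fin,
    Nat.card_eq_fintype_card]

/-- The factorial moments of a multiply transitive action. -/
theorem sum_descFactorial {k : ℕ} (h : IsMultiplyPretransitive Γ α k) (hk : k ≤ Fintype.card α) :
    ∑ g : Γ, (Nat.card (fixedBy α g)).descFactorial k = Nat.card Γ := by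
  classical
  have hne : Nonempty (Fin k ↪ α) := by
    apply Function.Embedding.nonempty_of_card_le
    simpa using hk
  haveI : IsPretransitive Γ (Fin k ↪ α) := h
  have hb := sum_card_fixedBy_eq_card_orbits_mul_card_group Γ (Fin k ↪ α)
  have hor : Fintype.card (orbitRel.Quotient Γ (Fin k ↪ α)) = 1 := by
    rw [Fintype.card_eq_one_iff]
    obtain ⟨x⟩ := hne
    refine ⟨Quotient.mk'' x, fun y => ?_⟩
    induction y using Quotient.inductionOn' with
    | h y =>
      apply Quotient.sound'
      rw [orbitRel_apply]
      exact exists_smul_eq Γ x y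
  rw [hor, one_mul] at hb
  rw [Nat.card_eq_fintype_card (α := Γ), ← hb]
  refine Finset.sum_congr rfl fun g _ => ?_
  rw [← card_fixedBy_embedding, Nat.card_eq_fintype_card]

end Moments

/-- The polynomial. -/
theorem poly_desc (f p : ℕ) :
    ((f.descFactorial 3 : ℕ) : ℤ) - p * (f.descFactorial 2 : ℕ) + 2 * p * (f.descFactorial 1 : ℕ) - 2 * p =
      ((f : ℤ) - 1) * ((f : ℤ) - 2) * ((f : ℤ) - p) := by
  rcases f with _ | _ | _ | f
  · simp [Nat.descFactorial]
  · simp [Nat.descFactorial]
  · simp [Nat.descFactorial]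
    ring
  · simp only [Nat.descFactorial, Nat.add_sub_cancel, Nat.succ_eq_add_one]
    have h1 : f + 1 + 1 + 1 - 2 = f + 1 := by omega
    have h2 : f + 1 + 1 + 1 - 1 = f + 2 := by omega
    have h3 : f + 1 + 1 + 1 - 0 = f + 3 := by omega
    simp only [Nat.sub_zero, h1, h2, h3]
    push_cast
    ring

theorem poly_nonpos (f p : ℕ) (hp : 0 < p) (h : f ≤ p) : ((f : ℤ) - 1) * ((f : ℤ) - 2) * ((f : ℤ) - p) ≤ 0 := by
  have h1' : (f : ℤ) ≤ p := by exact_mod_cast h
  have hp' : (0 : ℤ) < p := by exact_mod_cast hp
  rcases f with _ | _ | _ | k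
  · push_cast
    nlinarith
  · push_cast; simp
  · push_cast; simp
  · push_cast at h1' ⊢
    have h2 : (0 : ℤ) ≤ ((k : ℤ) + 1 + 1 + 1 - 1) * ((k : ℤ) + 1 + 1 + 1 - 2) := by
      apply mul_nonneg <;> linarith [(Int.natCast_nonneg k)]
    exact mul_nonpos_of_nonneg_of_nonpos h2 (by linarith)

variable {α : Type*} [Fintype α] [DecidableEq α] {p : ℕ} [Fact p.Prime]

/-- An element of order `p` on `p` points has no fixed points. -/
theorem no_fixed_of_order (hα : Fintype.card α = p) (c : Equiv.Perm α) (hc : orderOf c = p) (a : α) : c a ≠ a := by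
  have hp : p.Prime := Fact.out
  haveI : NeZero p := ⟨hp.ne_zero⟩
  haveI : Fact (1 < p) := ⟨hp.one_lt⟩
  obtain ⟨e, he⟩ := Cfsg.Agent.Lib.Perm.exists_cycle_numbering hα c hc
  obtain ⟨j, rfl⟩ := e.surjective a
  rw [he]
  intro h
  have h2 := e.injective h
  have h3 : (1 : ZMod p) = 0 := by linear_combination h2
  exact one_ne_zero h3

theorem card_sylow_of (G : Type*) [Group G] [Finite G] {P : Sylow p G} (hP : Nat.card (P : Subgroup G) = p) (Q : Sylow p G) :
    Nat.card (Q : Subgroup G) = p := by
  rw [Sylow.card_eq_multiplicity Q, ← Sylow.card_eq_multiplicity P]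
  exact hP

/-- The main count: only the identity fixes three points. -/
theorem fix_three (hα : Fintype.card α = p) (G : Subgroup (Equiv.Perm α))
    (h3 : IsMultiplyPretransitive G α 3) (P : Sylow p G) (hPc : Nat.card (P : Subgroup G) = p)
    (hN : Nat.card (normalizer ((P : Subgroup G) : Set G)) = 2 * p) (hp3 : 3 ≤ p) :
    ∀ g : G, 3 ≤ Nat.card (fixedBy α g) → g = 1 := by
  classical
  have hp : p.Prime := Fact.out
  letI : Fintype G := Fintype.ofFinite _
  set f : G → ℕ := fun g => Nat.card (fixedBy α g) with hf
  have hfle : ∀ g, f g ≤ p := by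
    intro g
    rw [← hα, ← Nat.card_eq_fintype_card]
    exact Nat.card_le_card_of_injective _ Subtype.val_injective
  have m3 := sum_descFactorial (Γ := G) (α := α) h3 (by omega)
  have h2t : IsMultiplyPretransitive G α 2 := by
    haveI := h3
    exact isMultiplyPretransitive_of_le (m := 2) (n := 3) (by omega) (by rw [Nat.card_eq_fintype_card]; omega)
  have h1t : IsMultiplyPretransitive G α 1 := by
    haveI := h3
    exact isMultiplyPretransitive_of_le (m := 1) (n := 3) (by omega) (by rw [Nat.card_eq_fintype_card]; omega)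
  have m2 := sum_descFactorial (Γ := G) (α := α) h2t (by omega)
  have m1 := sum_descFactorial (Γ := G) (α := α) h1t (by omega)
  set w : G → ℤ := fun g => ((f g : ℤ) - 1) * ((f g : ℤ) - 2) * ((f g : ℤ) - p) with hw
  set NN := Nat.card G with hNN
  have hsum : ∑ g : G, w g = (NN : ℤ) * (1 - p) := by
    have h1 : ∀ g : G, w g = (((f g).descFactorial 3 : ℕ) : ℤ) - p * ((f g).descFactorial 2 : ℕ) + 2 * p * ((f g).descFactorial 1 : ℕ) - 2 * p := fun g =>
      (poly_desc (f g) p).symm
    simp only [h1]
    rw [Finset.sum_sub_distrib, Finset.sum_add_distrib, Finset.sum_sub_distrib, ← Finset.mul_sum, ← Finset.mul_sum]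
    have e3 : ∑ g : G, (((f g).descFactorial 3 : ℕ) : ℤ) = NN := by
      rw [← m3]; push_cast; rfl
    have e2 : ∑ g : G, (((f g).descFactorial 2 : ℕ) : ℤ) = NN := by
      rw [← m2]; push_cast; rfl
    have e1 : ∑ g : G, (((f g).descFactorial 1 : ℕ) : ℤ) = NN := by
      rw [← m1]; push_cast; rfl
    rw [e3, e2, e1, Finset.sum_const, Finset.card_univ, ← Nat.card_eq_fintype_card, nsmul_eq_mul]
    ring
  -- the elements of order `p`
  set S : Finset G := Finset.univ.filter (fun g => orderOf g = p) with hS
  have hScard : S.card = Nat.card (Sylow p G) * (p - 1) := by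
    have h1 := Cfsg.Agent.Lib.SmallSimple.card_orderOf_eq_prime (G := G) (p := p) (fun Q => card_sylow_of G hPc Q)
    rw [← h1, Nat.card_eq_fintype_card, Fintype.card_subtype]
  have hSw : ∀ g ∈ S, w g = -(2 * p) := by
    intro g hg
    have ho : orderOf g = p := (Finset.mem_filter.mp hg).2
    have ho' : orderOf (g : Equiv.Perm α) = p := by
      rw [← ho]
      exact Subgroup.orderOf_coe g
    have h0 : f g = 0 := by
      simp only [hf]
      rw [Nat.card_eq_zero]
      left
      rw [isEmpty_subtype]
      intro a ha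
      exact no_fixed_of_order hα (g : Equiv.Perm α) ho' a ha
    simp only [hw, h0]
    push_cast
    ring
  have hn : 2 * p * Nat.card (Sylow p G) = NN := by
    have := Cfsg.Agent.Lib.SmallSimple.card_normalizer_mul_card_sylow (G := G) p P
    have e0 : Nat.card (normalizer ((P : Set G))) = 2 * p := hN
    rw [e0] at this
    exact this
  have hsplit := Finset.sum_filter_add_sum_filter_not (Finset.univ : Finset G) (fun g => orderOf g = p) w
  have hS1 : ∑ g ∈ Finset.univ.filter (fun g : G => orderOf g = p), w g = -(2 * p) * S.card := by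
    rw [Finset.sum_congr rfl hSw, Finset.sum_const, nsmul_eq_mul]
    ring
  have hzero : ∑ g ∈ Finset.univ.filter (fun g : G => ¬ orderOf g = p), w g = 0 := by
    rw [hS1, hsum, hScard] at hsplit
    have h1p : 1 ≤ p := hp.one_lt.le
    have h5 : ((Nat.card (Sylow p G) * (p - 1) : ℕ) : ℤ) = (Nat.card (Sylow p G) : ℤ) * ((p : ℤ) - 1) := by
      push_cast [Nat.cast_sub h1p]
      rfl
    rw [h5] at hsplit
    have h6 : (NN : ℤ) = 2 * p * Nat.card (Sylow p G) := by
      rw [← hn]; push_cast; ring
    rw [h6] at hsplit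
    linear_combination hsplit
  have hnonpos : ∀ g ∈ Finset.univ.filter (fun g : G => ¬ orderOf g = p), w g ≤ 0 := by
    intro g _
    exact poly_nonpos (f g) p hp.pos (hfle g)
  have hall := (Finset.sum_eq_zero_iff_of_nonpos hnonpos).mp hzero
  intro g hg
  have hg3 : 3 ≤ f g := hg
  have hgS : ¬ orderOf g = p := by
    intro ho
    have h1 := hSw g (Finset.mem_filter.mpr ⟨Finset.mem_univ _, ho⟩)
    have ho' : orderOf (g : Equiv.Perm α) = p := by
      rw [← ho]
      exact Subgroup.orderOf_coe g
    have h0 : f g = 0 := by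
      simp only [hf]
      rw [Nat.card_eq_zero]
      left
      rw [isEmpty_subtype]
      intro a ha
      exact no_fixed_of_order hα (g : Equiv.Perm α) ho' a ha
    omega
  have h0 := hall g (Finset.mem_filter.mpr ⟨Finset.mem_univ _, hgS⟩)
  have hfp : f g = p := by
    simp only [hw] at h0
    rcases mul_eq_zero.mp h0 with h1 | h1
    · rcases mul_eq_zero.mp h1 with h2 | h2
      · have : (f g : ℤ) = 1 := by linarith
        have : f g = 1 := by exact_mod_cast this
        omega
      · have : (f g : ℤ) = 2 := by linarith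
        have : f g = 2 := by exact_mod_cast this
        omega
    · have : (f g : ℤ) = p := by linarith
      exact_mod_cast this
  -- all points are fixed
  apply Subtype.ext
  apply Equiv.ext
  intro a
  have hall2 : (fixedBy α g) = Set.univ := by
    apply Set.eq_of_subset_of_ncard_le (Set.subset_univ _)
    rw [← Nat.card_coe_set_eq (fixedBy α g)]
    show _ ≤ f g
    rw [hfp, Set.ncard_univ, Nat.card_eq_fintype_card, hα]
  have h4 : a ∈ fixedBy α g := by rw [hall2]; trivial
  exact h4

end Cfsg.Agent.Lib.BT.PermP
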