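import Cfsg.Agent.Lib.BT.TwoE
import Cfsg.Agent.Lib.BT.Reduce
import Cfsg.Agent.Lib.BT.PermP

/-! Primitive groups in which a Sylow normalizer has order `2p`: simplicity and the self-centralizing Sylow subgroup. -/

set_option autoImplicit false
set_option linter.unusedSectionVars false
set_option linter.unusedVariables false

namespace Cfsg.Agent.Lib.BT

open Cfsg Cfsg.Agent.Lib.Char Cfsg.Agent.Lib.Blocks Cfsg.Agent.Lib.Small.BD Subgroup MulAction
open scoped ComplexConjugate

universe u

section Prim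

variable {Γ : Type u} [Group Γ] [Fintype Γ] {α : Type*} [Fintype α] [MulAction Γ α] [FaithfulSMul Γ α] [IsPreprimitive Γ α]

/-- A nontrivial normal subgroup of a primitive group is transitive. -/
theorem card_dvd_of_normal (K : Subgroup Γ) [K.Normal] (hK : K ≠ ⊥) : Fintype.card α ∣ Nat.card K := by
  classical
  obtain ⟨⟨k, hk⟩, hk1⟩ := Subgroup.ne_bot_iff_exists_ne_one.mp hK
  have hk1' : k ≠ 1 := fun e0 => hk1 (Subtype.ext e0)
  obtain ⟨a, ha⟩ : ∃ a : α, k • a ≠ a := by
    by_contra hcon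
    push Not at hcon
    exact hk1' (FaithfulSMul.eq_of_smul_eq_smul (fun a => by rw [hcon a, one_smul]))
  have hfix : fixedPoints K α ≠ Set.univ := by
    intro h0
    have h1 : a ∈ fixedPoints K α := by rw [h0]; trivial
    exact ha (h1 ⟨k, hk⟩)
  haveI : IsPretransitive K α := IsQuasiPreprimitive.isPretransitive_of_normal hfix
  have h1 := MulAction.index_stabilizer K a
  rw [MulAction.orbit_eq_univ, Set.ncard_univ, Nat.card_eq_fintype_card] at h1
  rw [← h1]
  exact Subgroup.index_dvd_card _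

variable {p : ℕ} [hp : Fact p.Prime]

/-- The group is simple. -/
theorem simple_of (hα₁ : p ∣ Fintype.card α) (hα₂ : p < Fintype.card α) (P : Sylow p Γ) (hPc : Nat.card (P : Subgroup Γ) = p)
    (hN : Nat.card (normalizer ((P : Subgroup Γ) : Set Γ)) = 2 * p) : IsSimpleGroup Γ := by
  classical
  have hpr := hp.out
  haveI : Nontrivial Γ := by
    rw [← Finite.one_lt_card_iff_nontrivial]
    have h1 : Nat.card (P : Subgroup Γ) ≤ Nat.card Γ := Subgroup.card_le_card_group _
    rw [hPc] at h1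
    exact lt_of_lt_of_le hpr.one_lt h1
  refine ⟨fun K hK => ?_⟩
  by_contra hcon
  push Not at hcon
  obtain ⟨hbot, htop⟩ := hcon
  have hd := card_dvd_of_normal (α := α) K hbot
  have hpK : p ∣ Nat.card K := hα₁.trans hd
  -- `P` lies in `K`
  obtain ⟨x, hx⟩ := exists_prime_orderOf_dvd_card' p hpK
  have hx' : orderOf (x : Γ) = p := by rw [← hx]; exact Subgroup.orderOf_coe x
  obtain ⟨S, hS⟩ := Cfsg.Agent.Lib.SmallSimple.exists_sylow_of_orderOf hx'
  have hSc : Nat.card (S : Subgroup Γ) = p := PermP.card_sylow_of Γ hPc S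
  have hSK : (S : Subgroup Γ) ≤ K := by
    have h1 := Cfsg.Agent.Lib.SmallSimple.eq_zpowers_of_card hSc hS (by rw [hx'])
    rw [h1]
    intro y hy
    obtain ⟨k, rfl⟩ := hy
    exact zpow_mem x.2 k
  have hPK : (P : Subgroup Γ) ≤ K := by
    obtain ⟨a, ha⟩ := MulAction.exists_smul_eq Γ S P
    intro y hy
    rw [← ha, mem_smul_sylow] at hy
    have h1 := hSK hy
    have h2 := hK.conj_mem _ h1 a
    have h3 : a * (a⁻¹ * y * a) * a⁻¹ = y := by group
    rwa [h3] at h2
  have hF := P.normalizer_sup_eq_top' hPK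
  have hNK : ¬ normalizer ((P : Subgroup Γ) : Set Γ) ≤ K := by
    intro hle
    apply htop
    have h1 : normalizer ((P : Subgroup Γ) : Set Γ) ⊔ K = K := sup_of_le_right hle
    rw [← h1]
    exact hF
  -- the normalizer in `K`
  have hLP : ∀ y ∈ K, y ∈ normalizer ((P : Subgroup Γ) : Set Γ) → y ∈ (P : Subgroup Γ) := by
    set L := normalizer ((P : Subgroup Γ) : Set Γ) ⊓ K with hL
    have h1 : (P : Subgroup Γ) ≤ L := le_inf Subgroup.le_normalizer hPK
    have h2 : L ≤ normalizer ((P : Subgroup Γ) : Set Γ) := inf_le_left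
    have h3 : Nat.card L ∣ 2 * p := by rw [← hN]; exact Subgroup.card_dvd_of_le h2
    have h4 : p ∣ Nat.card L := by
      have := Subgroup.card_dvd_of_le h1
      rwa [hPc] at this
    obtain ⟨j, hj⟩ := h4
    have h5 : j ∣ 2 := by
      rw [hj, mul_comm 2 p] at h3
      exact Nat.dvd_of_mul_dvd_mul_left hpr.pos h3
    have h6 : j = 1 ∨ j = 2 := (Nat.dvd_prime Nat.prime_two).mp h5
    rcases h6 with h7 | h7
    · have h8 : (P : Subgroup Γ) = L := by
        apply Subgroup.eq_of_le_of_card_ge h1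
        rw [hPc, hj, h7, mul_one]
      intro y hy hy2
      rw [h8]
      exact ⟨hy2, hy⟩
    · exfalso
      have h8 : L = normalizer ((P : Subgroup Γ) : Set Γ) := by
        apply Subgroup.eq_of_le_of_card_ge h2
        rw [hN, hj, h7, mul_comm]
      apply hNK
      rw [← h8]
      exact inf_le_right
  -- transfer
  let P' : Sylow p K := P.subtype hPK
  have hP'mem : ∀ y : K, y ∈ (P' : Subgroup K) ↔ (y : Γ) ∈ (P : Subgroup Γ) := by
    intro y
    show y ∈ ((P.subtype hPK : Sylow p K) : Subgroup K) ↔ _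
    rw [Sylow.coe_subtype, Subgroup.mem_subgroupOf]
  have hP' : normalizer ((P' : Subgroup K) : Set K) ≤ centralizer ((P' : Subgroup K) : Set K) := by
    intro y hy
    have h1 : (y : Γ) ∈ normalizer ((P : Subgroup Γ) : Set Γ) := by
      rw [mem_normalizer_iff]
      intro h
      constructor
      · intro hh
        have h2 := (mem_normalizer_iff.mp hy ⟨h, hPK hh⟩).mp ((hP'mem _).mpr hh)
        exact (hP'mem _).mp h2
      · intro hh
        have h3 : (y : Γ) * h * (y : Γ)⁻¹ ∈ K := hPK hh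
        have h4 : h ∈ K := by
          have h5 := K.mul_mem (K.mul_mem (K.inv_mem y.2) h3) y.2
          have h6 : (y : Γ)⁻¹ * ((y : Γ) * h * (y : Γ)⁻¹) * (y : Γ) = h := by group
          rwa [h6] at h5
        have h2 := (mem_normalizer_iff.mp hy ⟨h, h4⟩).mpr ((hP'mem _).mpr hh)
        exact (hP'mem _).mp h2
    have h2 := hLP y y.2 h1
    rw [mem_centralizer_iff]
    intro w hw
    apply Subtype.ext
    exact comm_of_prime (p := p) (P : Subgroup Γ) hPc w ((hP'mem _).mp hw) y h2
  let φ := MonoidHom.transferSylow P' hP'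
  have hcompl := MonoidHom.ker_transferSylow_isComplement' P' hP'
  have hnd : ¬ p ∣ Nat.card φ.ker := MonoidHom.not_dvd_card_ker_transferSylow P' hP'
  let M₀ : Subgroup Γ := φ.ker.map K.subtype
  have hM₀card : Nat.card M₀ = Nat.card φ.ker := Subgroup.card_map_of_injective K.subtype_injective
  have hP'c : Nat.card (P' : Subgroup K) = p := by
    show Nat.card ((P.subtype hPK : Sylow p K) : Subgroup K) = p
    rw [Sylow.coe_subtype]
    exact (Nat.card_congr (Subgroup.subgroupOfEquivOfLe hPK).toEquiv).trans hPc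
  have hnorm : M₀.Normal := by
    constructor
    intro y hy g
    obtain ⟨m, hm, rfl⟩ := hy
    have h1 : g * (m : Γ) * g⁻¹ ∈ K := hK.conj_mem _ m.2 g
    refine ⟨⟨_, h1⟩, ?_, rfl⟩
    have ho : orderOf (⟨_, h1⟩ : K) = orderOf m := by
      have h2 : orderOf (g * (m : Γ) * g⁻¹) = orderOf (m : Γ) := by
        have h0 : g * (m : Γ) * g⁻¹ = MulAut.conj g (m : Γ) := rfl
        rw [h0]
        exact MulEquiv.orderOf_eq _ _
      have h3 := Subgroup.orderOf_coe (⟨_, h1⟩ : K)
      have h4 := Subgroup.orderOf_coe m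
      simp only at h3
      rw [← h3, h2, h4]
    have h3 : orderOf (φ ⟨_, h1⟩) ∣ orderOf (⟨_, h1⟩ : K) := orderOf_map_dvd φ _
    have h4 : orderOf (φ ⟨_, h1⟩) ∣ p := by
      have h4a := orderOf_dvd_natCard (φ ⟨_, h1⟩)
      rwa [hP'c] at h4a
    have h5 : orderOf m ∣ Nat.card φ.ker := by
      have h6 := orderOf_dvd_natCard (⟨m, hm⟩ : φ.ker)
      rwa [Subgroup.orderOf_mk] at h6
    have h7 : orderOf (φ ⟨_, h1⟩) = 1 := by
      rcases (Nat.dvd_prime hpr).mp h4 with h8 | h8
      · exact h8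
      · exfalso
        rw [h8, ho] at h3
        exact hnd (h3.trans h5)
    exact orderOf_eq_one_iff.mp h7
  by_cases hM₀ : M₀ = ⊥
  · have h1 : Nat.card φ.ker = 1 := by
      rw [← hM₀card, hM₀]
      simp
    have h2 := hcompl.card_mul
    rw [h1, one_mul, hP'c] at h2
    rw [← h2] at hd
    have := Nat.le_of_dvd hpr.pos hd
    omega
  · have h1 := card_dvd_of_normal (α := α) M₀ hM₀
    rw [hM₀card] at h1
    exact hnd (hα₁.trans h1)

end Prim

end Cfsg.Agent.Lib.BT
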