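import Cfsg.Agent.Lib.BT.Deg2pA

/-! The self-centralizing Sylow subgroup in a simple group where the Sylow normalizer has order `2p`;
commuting elements with exactly two fixed points. -/

set_option autoImplicit false
set_option linter.unusedSectionVars false
set_option linter.unusedVariables false

namespace Cfsg.Agent.Lib.BT

open Cfsg Cfsg.Agent.Lib.Char Cfsg.Agent.Lib.Blocks Cfsg.Agent.Lib.Small.BD Subgroup MulAction
open scoped ComplexConjugate

universe u

section SCtwo

variable {Γ : Type u} [Group Γ] [Fintype Γ] {p : ℕ} [hp : Fact p.Prime]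

theorem exists_SC_two [IsSimpleGroup Γ] (hp5 : 5 ≤ p) (P : Sylow p Γ) (hPc : Nat.card (P : Subgroup Γ) = p)
    (hN : Nat.card (normalizer ((P : Subgroup Γ) : Set Γ)) = 2 * p) :
    ∃ m t, SC P 2 m t := by
  classical
  have hpr := hp.out
  have hpG : p ∣ Nat.card Γ := by
    have h1 := Subgroup.card_subgroup_dvd_card (P : Subgroup Γ)
    rwa [hPc] at h1
  have hnp : ¬ IsPGroup p Γ := by
    intro hpg
    have h1 : (⊤ : Subgroup Γ) = P := P.is_maximal' (hpg.to_subgroup ⊤) le_top
    rw [← h1, Subgroup.normalizer_eq_top_iff.mpr (inferInstance : (⊤ : Subgroup Γ).Normal), Subgroup.card_top] at hN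
    rw [← h1, Subgroup.card_top] at hPc
    omega
  have hcyc : ¬ IsCyclic Γ := by
    intro hc
    have hcomm : ∀ a b : Γ, a * b = b * a := fun a b => hc.commutative.is_comm.comm a b
    have hnorm : (P : Subgroup Γ).Normal := ⟨fun x hx g => by
      rw [hcomm g x, mul_assoc, mul_inv_cancel, mul_one]
      exact hx⟩
    rcases hnorm.eq_bot_or_eq_top with h1 | h1
    · rw [h1, Subgroup.card_bot] at hPc
      omega
    · rw [h1] at hN hPc
      rw [Subgroup.normalizer_eq_top_iff.mpr (inferInstance : (⊤ : Subgroup Γ).Normal)] at hN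
      rw [hPc] at hN
      omega
  have hperf := perfect_of_simple hcyc
  have hPC : (P : Subgroup Γ) ≤ centralizer ((P : Subgroup Γ) : Set Γ) := by
    intro x hx
    rw [mem_centralizer_iff]
    intro y hy
    exact comm_of_prime (p := p) (P : Subgroup Γ) hPc y hy x hx
  have hCN : centralizer ((P : Subgroup Γ) : Set Γ) ≤ normalizer ((P : Subgroup Γ) : Set Γ) :=
    Subgroup.centralizer_le_normalizer _
  have hnl := SmallSimple.normalizer_not_le_centralizer hpG hnp P
  have hCcard : Nat.card (centralizer ((P : Subgroup Γ) : Set Γ)) = p := by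
    have h1 : Nat.card (centralizer ((P : Subgroup Γ) : Set Γ)) ∣ 2 * p := by
      rw [← hN]
      exact Subgroup.card_dvd_of_le hCN
    have h2 : p ∣ Nat.card (centralizer ((P : Subgroup Γ) : Set Γ)) := by
      have := Subgroup.card_dvd_of_le hPC
      rwa [hPc] at this
    obtain ⟨j, hj⟩ := h2
    have h5 : j ∣ 2 := by
      rw [hj, mul_comm 2 p] at h1
      exact Nat.dvd_of_mul_dvd_mul_left hpr.pos h1
    rcases (Nat.dvd_prime Nat.prime_two).mp h5 with h7 | h7
    · rw [hj, h7, mul_one]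
    · exfalso
      apply hnl
      have h8 : centralizer ((P : Subgroup Γ) : Set Γ) = normalizer ((P : Subgroup Γ) : Set Γ) := by
        apply Subgroup.eq_of_le_of_card_ge hCN
        rw [hN, hj, h7, mul_comm]
      exact h8.ge
  have hCP : centralizer ((P : Subgroup Γ) : Set Γ) = P := by
    symm
    apply Subgroup.eq_of_le_of_card_ge hPC
    rw [hCcard, hPc]
  have hrel : (centralizer ((P : Subgroup Γ) : Set Γ)).relIndex (normalizer ((P : Subgroup Γ) : Set Γ)) = 2 := by
    have h1 := Subgroup.card_mul_index ((centralizer ((P : Subgroup Γ) : Set Γ)).subgroupOf (normalizer ((P : Subgroup Γ) : Set Γ)))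
    have h2 : Nat.card ((centralizer ((P : Subgroup Γ) : Set Γ)).subgroupOf (normalizer ((P : Subgroup Γ) : Set Γ))) = p := by
      exact (Nat.card_congr (Subgroup.subgroupOfEquivOfLe hCN).toEquiv).trans hCcard
    rw [h2, hN, mul_comm 2 p] at h1
    exact Nat.eq_of_mul_eq_mul_left hpr.pos h1
  have hcent : ∀ y ∈ (P : Subgroup Γ), y ≠ 1 → centralizer ({y} : Set Γ) = P := by
    intro y hy hy1
    have ho : orderOf y = p := SmallSimple.orderOf_eq_of_mem_sylow hPc hy hy1
    have hz := SmallSimple.eq_zpowers_of_card hPc hy ho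
    apply le_antisymm
    · rw [← hCP]
      intro x hx
      rw [mem_centralizer_singleton_iff] at hx
      rw [hz, mem_centralizer_iff]
      rintro w ⟨k, rfl⟩
      have hcomm : Commute y x := hx.symm
      exact ((hcomm.zpow_left k).symm.eq ▸ rfl)
    · intro x hx
      rw [mem_centralizer_singleton_iff]
      exact comm_of_prime (p := p) (P : Subgroup Γ) hPc x hx y hy
  have hmod : Nat.card (Sylow p Γ) ≡ 1 [MOD p] := card_sylow_modEq_one p Γ
  obtain ⟨m, hv⟩ : ∃ m : ℕ, Nat.card (Sylow p Γ) = 1 + m * p := by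
    have h1 : (p : ℤ) ∣ (Nat.card (Sylow p Γ) : ℤ) - 1 := by
      have h3 := Nat.modEq_iff_dvd.mp hmod.symm
      push_cast at h3
      exact h3
    have h2 : 1 ≤ Nat.card (Sylow p Γ) := Nat.card_pos
    obtain ⟨k, hk⟩ := h1
    have hk0 : 0 ≤ k := by
      by_contra hneg
      have : k ≤ -1 := by omega
      have h4 : (p : ℤ) * k ≤ (p : ℤ) * (-1) := mul_le_mul_of_nonneg_left this (by positivity)
      have h5 : (1 : ℤ) ≤ (Nat.card (Sylow p Γ) : ℤ) := by exact_mod_cast h2
      have h6 : (5 : ℤ) ≤ p := by exact_mod_cast hp5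
      linarith
    refine ⟨k.toNat, ?_⟩
    have h7 : ((k.toNat : ℕ) : ℤ) = k := Int.toNat_of_nonneg hk0
    have h8 : ((Nat.card (Sylow p Γ) : ℕ) : ℤ) = ((1 + k.toNat * p : ℕ) : ℤ) := by
      push_cast
      rw [h7]
      linarith
    exact_mod_cast h8
  have hodd : p % 2 = 1 := by
    rcases Nat.Prime.eq_two_or_odd hpr with h0 | h0
    · omega
    · exact h0
  refine ⟨m, (p - 1) / 2, ⟨hPc, hcent, hrel, le_rfl, by omega, by omega, hv, hperf⟩⟩

end SCtwo

section Comm

/-- A finite abelian group in which every nonidentity element has exactly two fixed points, and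
without global fixed points, has order at most four. -/
theorem card_le_four {A : Type*} [Group A] [Finite A] {α : Type*} [Finite α] [MulAction A α]
    (hcomm : ∀ x y : A, x * y = y * x) (h2 : ∀ σ : A, σ ≠ 1 → Nat.card (fixedBy α σ) = 2)
    (hmov : ∀ a : α, ∃ x : A, x • a ≠ a) : Nat.card A ≤ 4 := by
  classical
  by_cases htriv : ∀ x : A, x = 1
  · have : Nat.card A = 1 := by
      rw [Nat.card_eq_one_iff_unique]
      exact ⟨⟨fun a b => by rw [htriv a, htriv b]⟩, ⟨1⟩⟩
    omega
  push Not at htriv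
  obtain ⟨τ₁, hτ₁⟩ := htriv
  -- the orbit of a fixed point lies in the fixed points
  have hsub : ∀ (σ : A) (a : α), σ • a = a → ∀ x : A, σ • (x • a) = x • a := by
    intro σ a ha x
    rw [← mul_smul, hcomm σ x, mul_smul, ha]
  have hidx : ∀ (σ : A) (a : α), σ ≠ 1 → σ • a = a → (stabilizer A a).index ≤ 2 := by
    intro σ a hσ ha
    rw [MulAction.index_stabilizer]
    have h3 : orbit A a ⊆ fixedBy α σ := by
      rintro _ ⟨x, rfl⟩
      exact hsub σ a ha x
    have h4 := Set.ncard_le_ncard h3 (Set.toFinite _)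
    have h5 := h2 σ hσ
    rw [Nat.card_coe_set_eq] at h5
    omega
  have hfix : ∀ σ : A, σ ≠ 1 → ∃ a : α, σ • a = a := by
    intro σ hσ
    have h3 := h2 σ hσ
    have h4 : 0 < Nat.card (fixedBy α σ) := by omega
    obtain ⟨⟨a, ha⟩⟩ := (Nat.card_pos_iff.mp h4).1
    exact ⟨a, ha⟩
  obtain ⟨a, ha⟩ := hfix τ₁ hτ₁
  obtain ⟨τ₂, hτ₂⟩ := hmov a
  have hτ₂1 : τ₂ ≠ 1 := by
    rintro rfl
    exact hτ₂ (one_smul _ _)
  obtain ⟨c, hc⟩ := hfix τ₂ hτ₂1
  have hca : a ≠ c := by
    rintro rfl
    exact hτ₂ hc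
  have hcb : τ₂ • a ≠ c := by
    intro h0
    apply hτ₂
    rw [← h0] at hc
    exact smul_left_cancel _ hc
  have h1 := hidx τ₁ a hτ₁ ha
  have hc2 := hidx τ₂ c hτ₂1 hc
  have hbot : stabilizer A a ⊓ stabilizer A c = ⊥ := by
    rw [eq_bot_iff]
    intro σ hσ
    rw [Subgroup.mem_bot]
    by_contra hσ1
    obtain ⟨h3, h4⟩ := hσ
    have h3' : σ • a = a := h3
    have h4' : σ • c = c := h4
    have h5 := h2 σ hσ1
    rw [Nat.card_coe_set_eq] at h5
    have h6 : 2 < (fixedBy α σ).ncard := by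
      rw [Set.two_lt_ncard_iff (Set.toFinite _)]
      exact ⟨a, τ₂ • a, c, h3', hsub σ a h3' τ₂, h4', Ne.symm hτ₂, hca, hcb⟩
    omega
  have h3 : (stabilizer A a ⊓ stabilizer A c).index ≤ (stabilizer A a).index * (stabilizer A c).index := Subgroup.index_inf_le
  rw [hbot, Subgroup.index_bot] at h3
  calc Nat.card A ≤ _ := h3
    _ ≤ 2 * 2 := Nat.mul_le_mul h1 hc2
    _ = 4 := rfl

end Comm

end Cfsg.Agent.Lib.BT
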