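import Cfsg.Agent.Lib.BT.Deg2pB
import Cfsg.Agent.Lib.Char.PermChar

/-! The permutation character in degree `2p`: the character of degree `p - 1`, and the fixed points of the involutions. -/

set_option autoImplicit false
set_option linter.unusedSectionVars false
set_option linter.unusedVariables false

namespace Cfsg.Agent.Lib.BT

open Cfsg Cfsg.Agent.Lib.Char Cfsg.Agent.Lib.Blocks Cfsg.Agent.Lib.Small.BD Subgroup MulAction
open scoped ComplexConjugate

universe u

variable {G : Type u} [Group G] [Fintype G] {p : ℕ} [hp : Fact p.Prime]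
variable {P : Sylow p G} {e m t : ℕ}

/-- Relations on the regular elements pass to multiplicities. -/
theorem mm_rel {π : G → ℂ} {mm : IrrCharacter G → ℕ} (hd : Dec π mm) (hπ : ∀ g : G, p ∣ orderOf g → π g = 0) (D : Dat P e t)
    {θ : IrrCharacter G} (hθ : θ ∈ D.Y) :
    D.ε * (mm θ : ℤ) = mm (oneIrr G) + ∑ χ ∈ D.A, (mm χ : ℤ) - ∑ χ ∈ D.B, (mm χ : ℤ) := by
  have hc : (Nat.card G : ℂ) ≠ 0 := by exact_mod_cast Nat.card_pos.ne'
  have hI : ∀ χ : IrrCharacter G, ∑ g : G, π g * conj ((χ : G → ℂ) g) = (Nat.card G : ℂ) * (mm χ : ℂ) := by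
    intro χ
    have h1 := hd.inner χ
    rw [classInner] at h1
    rw [← h1]
    field_simp
  have key : ∀ g : G, (D.ε : ℂ) * (π g * conj ((θ : G → ℂ) g)) = π g * conj (((oneIrr G : IrrCharacter G) : G → ℂ) g) +
      ∑ χ ∈ D.A, π g * conj ((χ : G → ℂ) g) - ∑ χ ∈ D.B, π g * conj ((χ : G → ℂ) g) := by
    intro g
    by_cases hg : p ∣ orderOf g
    · simp [hπ g hg]
    · have h1 := D.rel θ hθ g hg
      have h2 := congrArg (fun z => π g * conj z) h1
      simp only [map_mul, map_sub, map_add, map_sum, map_intCast] at h2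
      have h3 : ((oneIrr G : IrrCharacter G) : G → ℂ) g = 1 := rfl
      rw [h3]
      simp only [map_one] at h2 ⊢
      rw [← Finset.mul_sum, ← Finset.mul_sum]
      linear_combination h2
  have h4 : ∑ g : G, (D.ε : ℂ) * (π g * conj ((θ : G → ℂ) g)) = ∑ g : G, (π g * conj (((oneIrr G : IrrCharacter G) : G → ℂ) g) +
      ∑ χ ∈ D.A, π g * conj ((χ : G → ℂ) g) - ∑ χ ∈ D.B, π g * conj ((χ : G → ℂ) g)) := Finset.sum_congr rfl (fun g _ => key g)
  rw [← Finset.mul_sum, hI, Finset.sum_sub_distrib, Finset.sum_add_distrib, hI, Finset.sum_comm, Finset.sum_comm (s := Finset.univ) (t := D.B)] at h4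
  simp only [hI] at h4
  rw [← Finset.mul_sum, ← Finset.mul_sum] at h4
  have h5 : (((D.ε * (mm θ : ℤ) : ℤ)) : ℂ) = (((mm (oneIrr G) : ℤ) + ∑ χ ∈ D.A, (mm χ : ℤ) - ∑ χ ∈ D.B, (mm χ : ℤ) : ℤ) : ℂ) := by
    push_cast
    apply mul_left_cancel₀ hc
    linear_combination h4
  exact_mod_cast h5

/-- The form of the relation at the identity. -/
theorem deg_rel (D : Dat P e t) {θ : IrrCharacter G} (hθ : θ ∈ D.Y) :
    D.ε * (charDegree (θ : G → ℂ) : ℤ) = 1 + ∑ χ ∈ D.A, (charDegree (χ : G → ℂ) : ℤ) - ∑ χ ∈ D.B, (charDegree (χ : G → ℂ) : ℤ) := by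
  have h1 := D.rel θ hθ 1 (by simpa using hp.out.ne_one)
  rw [apply_one_eq_charDegree (IsIrrCharacter.isCharacter θ.2)] at h1
  have h2 : ∀ χ : IrrCharacter G, (χ : G → ℂ) 1 = (charDegree (χ : G → ℂ) : ℂ) := fun χ => apply_one_eq_charDegree (IsIrrCharacter.isCharacter χ.2)
  simp only [h2] at h1
  have h5 : (((D.ε * (charDegree (θ : G → ℂ) : ℤ) : ℤ)) : ℂ) = ((1 + ∑ χ ∈ D.A, (charDegree (χ : G → ℂ) : ℤ) - ∑ χ ∈ D.B, (charDegree (χ : G → ℂ) : ℤ) : ℤ) : ℂ) := by
    push_cast
    exact h1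
  exact_mod_cast h5

variable {α : Type*} [Fintype α] [MulAction G α]

/-- Two orbits on ordered pairs give double transitivity. -/
theorem two_trans_of_card [IsPretransitive G α] (hnt : 2 ≤ Fintype.card α)
    (h2 : Nat.card (orbitRel.Quotient G (α × α)) = 2) : IsMultiplyPretransitive G α 2 := by
  classical
  haveI : Fintype (orbitRel.Quotient G (α × α)) := Fintype.ofFinite _
  rw [Nat.card_eq_fintype_card] at h2
  rw [MulAction.is_two_pretransitive_iff]
  intro a b c d hab hcd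
  by_contra hcon
  have hlt : 2 < Fintype.card (orbitRel.Quotient G (α × α)) := by
    rw [Fintype.two_lt_card_iff]
    refine ⟨Quotient.mk'' (a, a), Quotient.mk'' (a, b), Quotient.mk'' (c, d), ?_, ?_, ?_⟩
    · intro h0
      have h3 : ((a, a) : α × α) ∈ orbit G ((a, b) : α × α) := Quotient.exact' h0
      obtain ⟨g, hg⟩ := h3
      have h4 : g • a = a := congrArg Prod.fst hg
      have h5 : g • b = a := congrArg Prod.snd hg
      exact hab (smul_left_cancel g (h4.trans h5.symm))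
    · intro h0
      have h3 : ((a, a) : α × α) ∈ orbit G ((c, d) : α × α) := Quotient.exact' h0
      obtain ⟨g, hg⟩ := h3
      have h4 : g • c = a := congrArg Prod.fst hg
      have h5 : g • d = a := congrArg Prod.snd hg
      exact hcd (smul_left_cancel g (h4.trans h5.symm))
    · intro h0
      have h3 : ((a, b) : α × α) ∈ orbit G ((c, d) : α × α) := Quotient.exact' h0
      obtain ⟨g, hg⟩ := h3
      have h4 : g • c = a := congrArg Prod.fst hg
      have h5 : g • d = b := congrArg Prod.snd hg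
      apply hcon
      refine ⟨g⁻¹, ?_, ?_⟩
      · rw [← h4, inv_smul_smul]
      · rw [← h5, inv_smul_smul]
  omega


/-- The character of degree `p - 1`. -/
theorem exists_two_of_perm [IsPretransitive G α] [Fintype (P : Subgroup G)] (h : SC P 2 m t) (D : Dat P 2 t)
    (hα : Fintype.card α = 2 * p) (hπ : ∀ g : G, p ∣ orderOf g → ∀ a : α, g • a ≠ a)
    (hnot2 : ¬ IsMultiplyPretransitive G α 2) {mm : IrrCharacter G → ℕ}
    (hd : Dec (fun g : G => (Nat.card (fixedBy α g) : ℂ)) mm) :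
    ∃ χ₁, Two h D χ₁ ∧ ∀ θ ∈ D.Y, mm θ = 0 := by
  classical
  have hpr := hp.out
  have hte := h.te
  have htg := h.t_ge
  have hp5 : 5 ≤ p := by omega
  have hπ0 : ∀ g : G, p ∣ orderOf g → (Nat.card (fixedBy α g) : ℂ) = 0 := by
    intro g hg
    have h1 : Nat.card (fixedBy α g) = 0 := by
      rw [Nat.card_eq_zero]
      left
      exact ⟨fun a => hπ g hg a.1 a.2⟩
    rw [h1]
    simp
  have hπ1 : (Nat.card (fixedBy α (1 : G)) : ℂ) = 2 * p := by
    have h1 : Nat.card (fixedBy α (1 : G)) = 2 * p := by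
      rw [← hα, ← Nat.card_eq_fintype_card]
      apply Nat.card_congr
      refine (Equiv.subtypeUnivEquiv ?_)
      intro a
      exact one_smul _ _
    rw [h1]
    push_cast
    rfl
  have hsum : ∑ y : (P : Subgroup G), (fun g : G => (Nat.card (fixedBy α g) : ℂ)) y = ((2 : ℕ) : ℂ) * (Nat.card (P : Subgroup G) : ℂ) := by
    have h1 := h.sum_P_sub (fun g : G => (Nat.card (fixedBy α g) : ℂ)) 0 (by
      intro y hy hy1
      have h2 : orderOf y = p := h.orderOf_of_mem P hy hy1
      exact hπ0 y (by rw [h2]))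
    simp only at h1 ⊢
    rw [hπ1] at h1
    rw [h.card_P]
    push_cast
    linear_combination h1
  have hT := hd.T_sum (P : Subgroup G) hsum
  rw [D.sum_decomp, T_oneIrr] at hT
  have hone : mm (oneIrr G) = 1 := by
    have h1 := hd.inner (oneIrr G)
    have h2 : classInner (fun g : G => (Nat.card (fixedBy α g) : ℂ)) ((oneIrr G : IrrCharacter G) : G → ℂ) = (Nat.card (orbitRel.Quotient G α) : ℂ) :=
      classInner_permChar_one
    haveI : Nonempty α := by
      rw [← Fintype.card_pos_iff, hα]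
      omega
    have h3 : Nat.card (orbitRel.Quotient G α) = 1 := by
      rw [Nat.card_eq_one_iff_unique]
      refine ⟨⟨fun a b => ?_⟩, ⟨Quotient.mk'' (Classical.arbitrary α)⟩⟩
      induction a using Quotient.inductionOn' with
      | h a =>
        induction b using Quotient.inductionOn' with
        | h b =>
          apply Quotient.sound'
          rw [orbitRel_apply, orbit_eq_univ]
          trivial
    rw [h2, h3] at h1
    exact_mod_cast h1.symm
  rw [hone] at hT
  have hcard := D.card_AB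
  have hYc := D.card_Y
  have hε := D.ε_sign
  have hYT : ∀ θ ∈ D.Y, (T (P : Subgroup G) θ : ℤ) * p = charDegree (θ : G → ℂ) - D.ε * (2 : ℕ) := fun θ hθ => h.Y_T D hθ
  have hdpos : ∀ χ : IrrCharacter G, (0 : ℤ) < charDegree (χ : G → ℂ) := fun χ => by exact_mod_cast Nat.pos_of_ne_zero (h.deg_ne_zero χ)
  have hP5 : (5 : ℤ) ≤ p := by exact_mod_cast hp5
  have hAB : (D.A.card = 1 ∧ D.B.card = 0) ∨ (D.A.card = 0 ∧ D.B.card = 1) := by omega
  rcases hAB with ⟨hA1, hB0⟩ | ⟨hA0, hB1⟩
  · exfalso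
    obtain ⟨χ₁, hA⟩ := Finset.card_eq_one.mp hA1
    have hB : D.B = ∅ := Finset.card_eq_zero.mp hB0
    have hχ₁ : χ₁ ∈ D.A := by rw [hA]; exact Finset.mem_singleton_self _
    have hTge := h.A_T_ge D hχ₁
    rw [hA, hB, Finset.sum_singleton, Finset.sum_empty] at hT
    have hm0 : mm χ₁ = 0 := by
      by_contra hne
      have : 1 * 2 ≤ mm χ₁ * T (P : Subgroup G) χ₁ := Nat.mul_le_mul (Nat.pos_of_ne_zero hne) hTge
      omega
    have hmm : ∀ θ ∈ D.Y, D.ε * (mm θ : ℤ) = 1 := by
      intro θ hθ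
      have h1 := mm_rel hd hπ0 D hθ
      rw [hA, hB, hone, Finset.sum_singleton, Finset.sum_empty, hm0] at h1
      simpa using h1
    obtain ⟨θ₀, hθ₀⟩ : ∃ θ, θ ∈ D.Y := Finset.card_pos.mp (by omega)
    have hε1 : D.ε = 1 := by
      rcases hε with h1 | h1
      · exact h1
      · exfalso
        have h2 := hmm θ₀ hθ₀
        rw [h1] at h2
        have h3 : (0 : ℤ) ≤ mm θ₀ := by positivity
        omega
    have hm1 : ∀ θ ∈ D.Y, mm θ = 1 := by
      intro θ hθ
      have h2 := hmm θ hθ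
      rw [hε1, one_mul] at h2
      exact_mod_cast h2
    obtain ⟨θ, hθ, hT0⟩ : ∃ θ ∈ D.Y, T (P : Subgroup G) θ = 0 := by
      by_contra hcon
      push Not at hcon
      have h1 : ∑ θ ∈ D.Y, mm θ * T (P : Subgroup G) θ ≥ D.Y.card • 1 := by
        apply Finset.card_nsmul_le_sum
        intro θ hθ
        rw [hm1 θ hθ, one_mul]
        exact Nat.pos_of_ne_zero (hcon θ hθ)
      simp only [smul_eq_mul, mul_one] at h1
      omega
    have h1 := hYT θ hθ
    rw [hT0, hε1] at h1
    have h2 := deg_rel D hθ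
    rw [hA, hB, hε1, Finset.sum_singleton, Finset.sum_empty] at h2
    push_cast at h1
    have h3 : (charDegree (χ₁ : G → ℂ) : ℤ) = 1 := by linarith
    have h4 : charDegree (χ₁ : G → ℂ) = 1 := by exact_mod_cast h3
    rw [h.eq_one_of_deg h4] at hχ₁
    exact D.oA hχ₁
  · obtain ⟨χ₁, hB⟩ := Finset.card_eq_one.mp hB1
    have hA : D.A = ∅ := Finset.card_eq_zero.mp hA0
    have hχ₁ : χ₁ ∈ D.B := by rw [hB]; exact Finset.mem_singleton_self _
    have hne1 : χ₁ ≠ oneIrr G := by
      rintro rfl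
      exact D.oB hχ₁
    rw [hA, hB, Finset.sum_singleton, Finset.sum_empty] at hT
    have hd2 : (2 : ℤ) ≤ charDegree (χ₁ : G → ℂ) := by
      have h1 := hdpos χ₁
      have h2 : charDegree (χ₁ : G → ℂ) ≠ 1 := fun h3 => hne1 (h.eq_one_of_deg h3)
      have h3 : (charDegree (χ₁ : G → ℂ) : ℤ) ≠ 1 := by exact_mod_cast h2
      omega
    obtain ⟨θ₀, hθ₀⟩ : ∃ θ, θ ∈ D.Y := Finset.card_pos.mp (by omega)
    have hrd : ∀ θ ∈ D.Y, D.ε * (charDegree (θ : G → ℂ) : ℤ) = 1 - charDegree (χ₁ : G → ℂ) := by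
      intro θ hθ
      have h2 := deg_rel D hθ
      rw [hA, hB, Finset.sum_singleton, Finset.sum_empty] at h2
      rw [h2]
      ring
    have hε1 : D.ε = -1 := by
      rcases hε with h1 | h1
      · exfalso
        have h2 := hrd θ₀ hθ₀
        rw [h1] at h2
        have h3 := hdpos θ₀
        omega
      · exact h1
    have hmm : ∀ θ ∈ D.Y, (mm θ : ℤ) = mm χ₁ - 1 := by
      intro θ hθ
      have h1 := mm_rel hd hπ0 D hθ
      rw [hA, hB, hone, Finset.sum_singleton, Finset.sum_empty, hε1] at h1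
      push_cast at h1
      linarith
    have hTθ : ∀ θ ∈ D.Y, 1 ≤ T (P : Subgroup G) θ := by
      intro θ hθ
      by_contra hlt
      have h0 : T (P : Subgroup G) θ = 0 := by omega
      have h1 := hYT θ hθ
      rw [h0, hε1] at h1
      have h3 := hdpos θ
      push_cast at h1
      linarith
    have hm0 : mm θ₀ = 0 := by
      by_contra hne
      have hge : ∀ θ ∈ D.Y, 1 ≤ mm θ := by
        intro θ hθ
        have h1 := hmm θ hθ
        have h2 := hmm θ₀ hθ₀
        have h3 : (1 : ℤ) ≤ mm θ₀ := by exact_mod_cast Nat.pos_of_ne_zero hne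
        have h4 : (1 : ℤ) ≤ mm θ := by linarith
        exact_mod_cast h4
      have h1 : ∑ θ ∈ D.Y, mm θ * T (P : Subgroup G) θ ≥ D.Y.card • 1 := by
        apply Finset.card_nsmul_le_sum
        intro θ hθ
        exact Nat.mul_le_mul (hge θ hθ) (hTθ θ hθ)
      simp only [smul_eq_mul, mul_one] at h1
      omega
    have hmχ : mm χ₁ = 1 := by
      have h1 := hmm θ₀ hθ₀
      rw [hm0] at h1
      push_cast at h1
      have h2 : (mm χ₁ : ℤ) = 1 := by linarith
      exact_mod_cast h2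
    have hYz : ∀ θ ∈ D.Y, mm θ = 0 := by
      intro θ hθ
      have h1 := hmm θ hθ
      rw [hmχ] at h1
      push_cast at h1
      have h2 : (mm θ : ℤ) = 0 := by linarith
      exact_mod_cast h2
    have hY0 : ∑ θ ∈ D.Y, mm θ * T (P : Subgroup G) θ = 0 := by
      apply Finset.sum_eq_zero
      intro θ hθ
      rw [hYz θ hθ, zero_mul]
    rw [hY0, hmχ, one_mul] at hT
    by_cases hT0 : T (P : Subgroup G) χ₁ = 0
    · refine ⟨χ₁, ⟨hχ₁, ?_⟩, hYz⟩
      have h1 := h.B_T D hχ₁
      rw [hT0] at h1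
      push_cast at h1
      have h2 : (charDegree (χ₁ : G → ℂ) : ℤ) = p - 1 := by linarith
      have h3 : 1 ≤ p := by omega
      zify [h3]
      exact h2
    · exfalso
      apply hnot2
      have hZ0 : ∀ ξ ∈ D.Z, mm ξ = 0 := by
        intro ξ hξ
        by_contra hne
        have h1 := h.Z_T_ge D hξ
        have h2 : mm ξ * T (P : Subgroup G) ξ ≤ ∑ ξ ∈ D.Z, mm ξ * T (P : Subgroup G) ξ :=
          Finset.single_le_sum (f := fun ξ => mm ξ * T (P : Subgroup G) ξ) (fun _ _ => Nat.zero_le _) hξ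
        have h3 : 1 * 1 ≤ mm ξ * T (P : Subgroup G) ξ := Nat.mul_le_mul (Nat.pos_of_ne_zero hne) h1
        omega
      apply two_trans_of_card (by rw [hα]; omega)
      have h1 := hd.inner_dec hd
      rw [classInner_permChar_self, D.sum_decomp, hA, hB, hone, Finset.sum_singleton, Finset.sum_empty, hmχ,
        Finset.sum_eq_zero (fun θ hθ => by rw [hYz θ hθ, zero_mul] : ∀ θ ∈ D.Y, mm θ * mm θ = 0),
        Finset.sum_eq_zero (fun θ hθ => by rw [hZ0 θ hθ, zero_mul] : ∀ θ ∈ D.Z, mm θ * mm θ = 0)] at h1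
      exact_mod_cast h1

/-- The involutions have two fixed points. -/
theorem Two.fix_invol {h : SC P 2 m t} {D : Dat P 2 t} {χ₁ : IrrCharacter G} (H : Two h D χ₁) [Fintype (P : Subgroup G)]
    (hf : ∀ g : G, (χ₁ : G → ℂ) g = (χ₁ : G → ℂ) 1 → g = 1)
    (hα : Fintype.card α = 2 * p) (hπ : ∀ g : G, p ∣ orderOf g → ∀ a : α, g • a ≠ a) {mm : IrrCharacter G → ℕ}
    (hd : Dec (fun g : G => (Nat.card (fixedBy α g) : ℂ)) mm) (hY : ∀ θ ∈ D.Y, mm θ = 0) {τ : G} (h1 : τ * τ = 1) (h2 : τ ≠ 1) :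
    Nat.card (fixedBy α τ) = 2 := by
  classical
  have hp5 := H.p_ge
  have hcl : IsClassFunction G (fun g : G => (Nat.card (fixedBy α g) : ℂ)) := IsCharacter.isClassFunction isCharacter_permChar
  have hf0 : ∀ g : G, p ∣ orderOf g → Nat.card (fixedBy α g) = 0 := by
    intro g hg
    rw [Nat.card_eq_zero]
    left
    exact ⟨fun a => hπ g hg a.1 a.2⟩
  have hf1 : Nat.card (fixedBy α (1 : G)) = 2 * p := by
    rw [← hα, ← Nat.card_eq_fintype_card]
    apply Nat.card_congr
    refine (Equiv.subtypeUnivEquiv ?_)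
    intro a
    exact one_smul _ _
  have hconj : ∀ g : G, g * g = 1 → g ≠ 1 → Nat.card (fixedBy α g) = Nat.card (fixedBy α τ) := by
    intro g hg hg1
    obtain ⟨c, hc⟩ := isConj_iff.mp (H.invol_conj hf h1 h2 hg hg1)
    have h3 := hcl τ c
    simp only at h3
    rw [hc] at h3
    exact_mod_cast h3
  obtain ⟨θ, hθ⟩ := H.exists_Y
  have hzero : ∑ g : G, (Nat.card (fixedBy α g) : ℂ) * conj ((θ : G → ℂ) g) = 0 := by
    have h3 := hd.inner θ
    rw [classInner, hY θ hθ] at h3
    have hc : (Nat.card G : ℂ)⁻¹ ≠ 0 := inv_ne_zero (by exact_mod_cast Nat.card_pos.ne')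
    simpa [hc] using h3
  have hint : ∑ g : G, (Nat.card (fixedBy α g) : ℤ) * (H.c g - 1) = 0 := by
    have h3 : ((∑ g : G, (Nat.card (fixedBy α g) : ℤ) * (H.c g - 1) : ℤ) : ℂ) = 0 := by
      rw [← hzero]
      push_cast
      refine Finset.sum_congr rfl fun g _ => ?_
      by_cases hg : p ∣ orderOf g
      · rw [hf0 g hg]
        simp
      · rw [H.Y_val hθ hg]
        simp
    exact_mod_cast h3
  have hcase : ∀ g : G, (Nat.card (fixedBy α g) : ℤ) * (H.c g - 1) =
      (if g = 1 then (2 * p * ((p : ℤ) - 2)) else 0) - (if g ∈ H.D0 then (Nat.card (fixedBy α τ) : ℤ) else 0) := by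
    intro g
    by_cases hg1 : g = 1
    · subst hg1
      have h3 : (1 : G) ∉ H.D0 := fun h4 => ((H.mem_D0).mp h4).2.1 rfl
      rw [if_pos rfl, if_neg h3, hf1, H.c_one]
      push_cast
      ring
    · rw [if_neg hg1]
      by_cases hg : p ∣ orderOf g
      · have h3 : g ∉ H.D0 := fun h4 => ((H.mem_D0).mp h4).1 hg
        rw [if_neg h3, hf0 g hg]
        simp
      · by_cases hc0 : H.c g = 0
        · have h3 : g ∈ H.D0 := (H.mem_D0).mpr ⟨hg, hg1, hc0⟩
          rw [if_pos h3, hc0, hconj g (H.sq_of_zero hf hg hg1 hc0) hg1]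
          ring
        · have h3 : g ∉ H.D0 := fun h4 => hc0 ((H.mem_D0).mp h4).2.2
          rw [if_neg h3]
          have h4 : H.c g = 1 := (H.c01 hf hg hg1).resolve_left hc0
          rw [h4]
          ring
  rw [Finset.sum_congr rfl (fun g _ => hcase g), Finset.sum_sub_distrib, Finset.sum_ite_eq', if_pos (Finset.mem_univ _),
    Finset.sum_ite_mem, Finset.univ_inter, Finset.sum_const, nsmul_eq_mul, H.card_D0 hf] at hint
  have hP : (5 : ℤ) ≤ p := by exact_mod_cast hp5
  have h5 : ((p : ℤ) * ((p : ℤ) - 2)) * ((Nat.card (fixedBy α τ) : ℤ) - 2) = 0 := by linear_combination -hint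
  have h6 : (p : ℤ) * ((p : ℤ) - 2) ≠ 0 := by
    apply mul_ne_zero <;> omega
  have h7 := (mul_eq_zero.mp h5).resolve_left h6
  omega

end Cfsg.Agent.Lib.BT
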