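import Cfsg.Agent.Lib.DefOne.Final
import Cfsg.Agent.Lib.DefOne.Count
import Cfsg.Agent.Lib.SmallSimple.Count
import Cfsg.Agent.Lib.SmallSimple.Basic
import Cfsg.Agent.Lib.Char.RootVal

/-! Faithful characters of degree `p - 2`: the restriction to the centralizer of a Sylow subgroup of order `p`. -/

set_option autoImplicit false
set_option linter.unusedSectionVars false
set_option linter.unusedVariables false

namespace Cfsg.Agent.Lib.BT.PM2

open Cfsg Cfsg.Agent.Lib.Char Cfsg.Agent.Lib.Blocks Cfsg.Agent.Lib.DefOne Finset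
open scoped ComplexConjugate

universe u

attribute [local instance] fintypeOfSubgroup

variable {G : Type u} [Group G] [Fintype G] {p : ℕ} [hp : Fact p.Prime] {P : Sylow p G}

local notation "𝐐" => ((P : Subgroup G))
local notation "𝐂" => (Subgroup.centralizer (((P : Subgroup G)) : Set G))
local notation "𝐍" => (Subgroup.normalizer (((P : Subgroup G)) : Set G))

/-- The restriction of a character to the centralizer, expanded. -/
theorem res_expand (hP : Nat.card 𝐐 = p) [Fintype (𝐐 →* ℂˣ)] (χ : IrrCharacter G) (c : 𝐂) :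
    (χ : G → ℂ) c = ∑ t : {θ : IrrCharacter 𝐂 // PT θ}, ∑ a : 𝐐 →* ℂˣ,
      mu (χ : G → ℂ) (tw hP a t.1 : 𝐂 → ℂ) * (tw hP a t.1 : 𝐂 → ℂ) c := by
  have h1 := classFunction_eq_sum (fun c : 𝐂 => (χ : G → ℂ) c)
    (IsCharacter.isClassFunction (isCharacter_resFun 𝐂 (IsIrrCharacter.isCharacter χ.2)))
  have h2 := congrFun h1 c
  simp only [Finset.sum_apply, Pi.smul_apply, smul_eq_mul] at h2
  rw [h2]
  change ∑ ξ : IrrCharacter 𝐂, mu (χ : G → ℂ) (ξ : 𝐂 → ℂ) * (ξ : 𝐂 → ℂ) c = _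
  rw [sum_irr_cent hP]

/-- An element of the normalizer outside the centralizer inverts `P`, if the index is two. -/
theorem conj_inv_of_index_two (hP : Nat.card 𝐐 = p) (hodd : p ≠ 2) (h2 : Nat.card 𝐍 = 2 * Nat.card 𝐂) (n : 𝐍) (hn : (n : G) ∉ 𝐂) (u : 𝐐) :
    conjQ 𝐐 n u = u⁻¹ := by
  classical
  have hpp := hp.out
  have hCN : 𝐂 ≤ 𝐍 := centralizer_le_normalizer_coe _
  have hidx : (𝐂.subgroupOf 𝐍).index = 2 := by
    have h1 := Subgroup.card_mul_index (𝐂.subgroupOf 𝐍)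
    rw [Nat.card_congr (Subgroup.subgroupOfEquivOfLe hCN).toEquiv, h2, mul_comm 2] at h1
    exact Nat.eq_of_mul_eq_mul_left Nat.card_pos h1
  have hsq : ((n * n : 𝐍) : G) ∈ 𝐂 := Subgroup.mem_subgroupOf.mp (Subgroup.mul_self_mem_of_index_two hidx n)
  have hcomm : ∀ a b : 𝐐, a * b = b * a := hcomm_Q hP
  have hσσ : ∀ v : 𝐐, conjQ 𝐐 n (conjQ 𝐐 n v) = v := by
    intro v
    apply Subtype.ext
    simp only [coe_conjQ]
    have h3 := Subgroup.mem_centralizer_iff.mp hsq v v.2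
    simp only [Subgroup.coe_mul] at h3
    calc (n : G) * ((n : G) * (v : G) * (n : G)⁻¹) * (n : G)⁻¹ = ((n : G) * (n : G)) * (v : G) * ((n : G) * (n : G))⁻¹ := by group
      _ = (v : G) * ((n : G) * (n : G)) * ((n : G) * (n : G))⁻¹ := by rw [← h3]
      _ = v := by group
  set w : 𝐐 := u * conjQ 𝐐 n u with hw
  have hfix : conjQ 𝐐 n w = w := by
    rw [hw, map_mul, hσσ, hcomm]
  have hw1 : w = 1 := by
    by_contra hne
    apply hn
    have hw1' : (w : G) ≠ 1 := fun e => hne (Subtype.ext e)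
    have ho : orderOf (w : G) = p := SmallSimple.orderOf_eq_of_mem_sylow hP w.2 hw1'
    have hz := SmallSimple.eq_zpowers_of_card hP w.2 ho
    rw [Subgroup.mem_centralizer_iff]
    intro x hx
    have hx' : x ∈ (Subgroup.zpowers (w : G)) := by
      rw [← hz]
      exact hx
    obtain ⟨k, rfl⟩ := hx'
    have h5 : (n : G) * (w : G) * (n : G)⁻¹ = w := congrArg Subtype.val hfix
    have h6 : Commute (n : G) (w : G) := by
      show (n : G) * (w : G) = (w : G) * (n : G)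
      calc (n : G) * (w : G) = ((n : G) * (w : G) * (n : G)⁻¹) * (n : G) := by group
        _ = _ := by rw [h5]
    exact (h6.zpow_right k).symm.eq
  have h7 := hw1
  rw [hw] at h7
  exact (eq_inv_of_mul_eq_one_right h7)

theorem twist_eq_inv (hP : Nat.card 𝐐 = p) (hodd : p ≠ 2) (h2 : Nat.card 𝐍 = 2 * Nat.card 𝐂) (n : 𝐍) (hn : (n : G) ∉ 𝐂) (a : 𝐐 →* ℂˣ) :
    twist 𝐐 n a = a⁻¹ := by
  ext u
  have hn' : ((n⁻¹ : 𝐍) : G) ∉ 𝐂 := by
    intro h
    apply hn
    have := Subgroup.inv_mem _ h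
    simpa using this
  rw [twist_apply, conj_inv_of_index_two hP hodd h2 n⁻¹ hn' u, map_inv]
  rfl

theorem twist_of_mem (n : 𝐍) (hn : (n : G) ∈ 𝐂) (a : 𝐐 →* ℂˣ) : twist 𝐐 n a = a := by
  ext u
  rw [twist_apply]
  have h1 : conjQ 𝐐 n⁻¹ u = u := by
    apply Subtype.ext
    simp only [coe_conjQ]
    have h2 := Subgroup.mem_centralizer_iff.mp hn u u.2
    simp only [Subgroup.coe_inv, inv_inv]
    calc (n : G)⁻¹ * (u : G) * (n : G) = (n : G)⁻¹ * ((u : G) * (n : G)) := by group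
      _ = (n : G)⁻¹ * ((n : G) * (u : G)) := by rw [h2]
      _ = u := by group
  rw [h1]

/-- The sum of all characters of `P` at a nonidentity element. -/
theorem sum_dual_zero (hP : Nat.card 𝐐 = p) [Fintype (𝐐 →* ℂˣ)] (a₁ : 𝐐 →* ℂˣ) (ha₁ : a₁ ≠ 1) (y : 𝐐) (hy : y ≠ 1) :
    ∑ a : 𝐐 →* ℂˣ, ((a y : ℂˣ) : ℂ) = 0 := by
  classical
  have hne : ((a₁ y : ℂˣ) : ℂ) ≠ 1 := by
    intro h0
    apply ha₁
    have h1 : a₁ y = 1 := Units.ext h0
    ext u
    have hy' : (y : G) ≠ 1 := fun e => hy (Subtype.ext e)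
    have ho := SmallSimple.orderOf_eq_of_mem_sylow hP y.2 hy'
    have hz := SmallSimple.eq_zpowers_of_card hP y.2 ho
    have hu : (u : G) ∈ Subgroup.zpowers (y : G) := by
      rw [← hz]
      exact u.2
    obtain ⟨k, hk⟩ := hu
    have h2 : u = y ^ k := Subtype.ext (by simpa using hk.symm)
    rw [h2, map_zpow, h1]
    simp
  have h3 : ((a₁ y : ℂˣ) : ℂ) * ∑ a : 𝐐 →* ℂˣ, ((a y : ℂˣ) : ℂ) = ∑ a : 𝐐 →* ℂˣ, ((a y : ℂˣ) : ℂ) := by
    rw [mul_sum]
    refine Fintype.sum_equiv (Equiv.mulLeft a₁) _ _ fun a => ?_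
    simp
  have h4 : (((a₁ y : ℂˣ) : ℂ) - 1) * ∑ a : 𝐐 →* ℂˣ, ((a y : ℂˣ) : ℂ) = 0 := by
    rw [sub_mul, h3, one_mul, sub_self]
  exact (mul_eq_zero.mp h4).resolve_left (sub_ne_zero.mpr hne)

/-- Vanishing of the twists forces `P` into the kernel. -/
theorem eq_one_of_mu_zero (hP : Nat.card 𝐐 = p) [Fintype (𝐐 →* ℂˣ)] (χ : IrrCharacter G)
    (h0 : ∀ (t : {θ : IrrCharacter 𝐂 // PT θ}) (a : 𝐐 →* ℂˣ), a ≠ 1 → mu (χ : G → ℂ) (tw hP a t.1 : 𝐂 → ℂ) = 0) (y : 𝐐) :
    (χ : G → ℂ) y = (χ : G → ℂ) 1 := by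
  classical
  have h1 := res_expand hP χ ⟨y, le_cent hP y.2⟩
  have h2 := res_expand hP χ 1
  have h3 : ((1 : 𝐂) : G) = 1 := rfl
  rw [h3] at h2
  change (χ : G → ℂ) y = _ at h1
  rw [h1, h2]
  refine sum_congr rfl fun t _ => ?_
  rw [Finset.sum_eq_single (1 : 𝐐 →* ℂˣ) (fun a _ ha => by rw [h0 t a ha, zero_mul]) (by simp),
    Finset.sum_eq_single (1 : 𝐐 →* ℂˣ) (fun a _ ha => by rw [h0 t a ha, zero_mul]) (by simp), tw_one]
  rw [t.2 ⟨y, le_cent hP y.2⟩ y.2]

/-- If only one `P`-trivial character occurs, the restriction is a sum over its twists. -/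
theorem res_single (hP : Nat.card 𝐐 = p) [Fintype (𝐐 →* ℂˣ)] (χ : IrrCharacter G) {θ : IrrCharacter 𝐂} (hθ : PT θ)
    (hoff : ∀ t : {θ : IrrCharacter 𝐂 // PT θ}, t.1 ≠ θ → ∀ a : 𝐐 →* ℂˣ, mu (χ : G → ℂ) (tw hP a t.1 : 𝐂 → ℂ) = 0) (c : 𝐂) :
    (χ : G → ℂ) c = ∑ a : 𝐐 →* ℂˣ, mu (χ : G → ℂ) (tw hP a θ : 𝐂 → ℂ) * (tw hP a θ : 𝐂 → ℂ) c := by
  classical
  rw [res_expand hP χ c]
  refine Finset.sum_eq_single (⟨θ, hθ⟩ : {θ : IrrCharacter 𝐂 // PT θ}) (fun t _ ht => ?_) (by simp)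
  refine sum_eq_zero fun a _ => ?_
  rw [hoff t (fun h => ht (Subtype.ext h)) a, zero_mul]

open scoped Classical in
/-- The degree formula in terms of the orbit of `θ`. -/
theorem deg_formula {M : Ideal AlgInt} (hM : IsPModular p M) (hP : Nat.card 𝐐 = p) [Fintype (𝐐 →* ℂˣ)]
    {B : Set (IrrCharacter G)} (hB : IsPBlock M B) (hPB : IsDefectGroup p M B 𝐐)
    {θ : IrrCharacter 𝐂} (hθ : PT θ) (hind : IsInducedBlock M 𝐂 (blockOf M (θ : 𝐂 → ℂ)) B)
    {χ : IrrCharacter G} (hχ : χ ∈ B) {e f' r : ℕ} (hTe : Nat.card (stabT θ) = e * Nat.card 𝐂)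
    (hf : Nat.card 𝐍 = (e * f') * Nat.card 𝐂)
    {rep : Fin r → (𝐐 →* ℂˣ)} {idx : (𝐐 →* ℂˣ) → Fin r}
    (hrep : ∀ i, rep i ≠ 1) (hidx : ∀ i, idx (rep i) = i)
    (hiff : ∀ ψ ψ', ψ ≠ 1 → ((ψ' ≠ 1 ∧ idx ψ' = idx ψ) ↔ ∃ n ∈ stabT θ, twist 𝐐 n ψ = ψ'))
    (horb : ∀ i, (Finset.univ.filter (fun ψ : 𝐐 →* ℂˣ => ψ ≠ 1 ∧ idx ψ = i)).card * Nat.card 𝐂 = Nat.card (stabT θ))
    (m : IrrCharacter 𝐂 → ℕ) (hm : ∀ ξ : IrrCharacter 𝐂, mu (χ : G → ℂ) (ξ : 𝐂 → ℂ) = m ξ) :
    (χ : G → ℂ) 1 = (p : ℂ) * (((∑ t : {θ : IrrCharacter 𝐂 // PT θ}, if (∃ n : 𝐍, cjI n θ = t.1) then 0 else charDegree (t.1 : 𝐂 → ℂ) * m t.1 : ℕ) : ℂ) +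
        ((f' * charDegree (θ : 𝐂 → ℂ) * m θ : ℕ) : ℂ)) +
      ((e * f' * charDegree (θ : 𝐂 → ℂ) : ℕ) : ℂ) * ∑ i, classInner (vv hP (rep i) θ) (χ : G → ℂ) := by
  have hdeg : ∀ t : IrrCharacter 𝐂, (t : 𝐂 → ℂ) 1 = charDegree (t : 𝐂 → ℂ) := fun t =>
    apply_one_eq_charDegree (IsIrrCharacter.isCharacter t.2)
  have hC0 : (Nat.card 𝐂 : ℂ) ≠ 0 := by exact_mod_cast (Nat.card_pos (α := 𝐂)).ne'
  have he0 : (e : ℂ) ≠ 0 := by
    have h1 : Nat.card (stabT θ) ≠ 0 := (Nat.card_pos (α := stabT θ)).ne'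
    rw [hTe] at h1
    exact_mod_cast left_ne_zero_of_mul h1
  have h1 := degree_formula_aux hM hP hB hPB hθ hind hχ
  rw [Aval_eq_sum_rep hP χ hTe hrep hidx hiff (fun i => by convert horb i)] at h1
  have h2 := sum_orbit hθ (fun t => if (∃ n : 𝐍, cjI n θ = t.1) then (t.1 : 𝐂 → ℂ) 1 * mu (χ : G → ℂ) (t.1 : 𝐂 → ℂ) else 0)
    (fun n t => by
      have h3 : (∃ n' : 𝐍, cjI n' θ = cjI n t.1) ↔ (∃ n' : 𝐍, cjI n' θ = t.1) := by
        constructor
        · rintro ⟨n', hn'⟩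
          refine ⟨n⁻¹ * n', ?_⟩
          rw [cjI_mul, hn', cjI_inv_cjI]
        · rintro ⟨n', hn'⟩
          refine ⟨n * n', ?_⟩
          rw [cjI_mul, hn']
      simp only [h3, cjI_one_val, mu_cjI])
    (fun t ht => by simp only [if_neg ht])
  have h2' : (Nat.card (stabT θ) : ℂ) * ∑ t : {θ : IrrCharacter 𝐂 // PT θ}, (if (∃ n : 𝐍, cjI n θ = t.1) then (t.1 : 𝐂 → ℂ) 1 * mu (χ : G → ℂ) (t.1 : 𝐂 → ℂ) else 0) =
      (Nat.card 𝐍 : ℂ) * ((θ : 𝐂 → ℂ) 1 * mu (χ : G → ℂ) (θ : 𝐂 → ℂ)) := by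
    have h4 : ∃ n : 𝐍, cjI n θ = θ := ⟨1, cjI_one θ⟩
    have h3 := h2
    rw [if_pos h4] at h3
    exact h3
  have hsplit : ∑ t : {θ : IrrCharacter 𝐂 // PT θ}, (t.1 : 𝐂 → ℂ) 1 * mu (χ : G → ℂ) (t.1 : 𝐂 → ℂ) =
      ((∑ t : {θ : IrrCharacter 𝐂 // PT θ}, if (∃ n : 𝐍, cjI n θ = t.1) then 0 else charDegree (t.1 : 𝐂 → ℂ) * m t.1 : ℕ) : ℂ) +
      ∑ t : {θ : IrrCharacter 𝐂 // PT θ}, (if (∃ n : 𝐍, cjI n θ = t.1) then (t.1 : 𝐂 → ℂ) 1 * mu (χ : G → ℂ) (t.1 : 𝐂 → ℂ) else 0) := by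
    push_cast
    rw [← sum_add_distrib]
    refine sum_congr rfl fun t _ => ?_
    by_cases ht : ∃ n : 𝐍, cjI n θ = t.1
    · rw [if_pos ht, if_pos ht]
      push_cast
      rw [zero_add]
    · rw [if_neg ht, if_neg ht, hm, hdeg]
      push_cast
      rw [add_zero]
  have hcardT : (Nat.card (stabT θ) : ℂ) = e * Nat.card 𝐂 := by rw [hTe]; push_cast; ring
  have hcardN : (Nat.card 𝐍 : ℂ) = (e * f') * Nat.card 𝐂 := by rw [hf]; push_cast; ring
  rw [hsplit, hcardT, hcardN, hdeg θ] at h1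
  rw [hcardT, hcardN, hdeg θ, hm θ] at h2'
  have h5 : (e : ℂ) * Nat.card 𝐂 ≠ 0 := mul_ne_zero he0 hC0
  apply mul_left_cancel₀ h5
  push_cast at h1 h2' ⊢
  linear_combination h1 + (p : ℂ) * h2'

theorem arith_neg {p R F k c : ℕ} (hp : 2 ≤ p) (hF : 1 ≤ F) (hc : c < p)
    (h : p - 2 + c * F = p * (R + F * (k + 1))) : R = 0 ∧ k = 0 ∧ (p - c) * F = p - 2 := by
  obtain ⟨s, rfl⟩ : ∃ s, p = s + 2 := ⟨p - 2, by omega⟩
  obtain ⟨q, hq⟩ : ∃ q, s + 2 = c + q := ⟨s + 2 - c, by omega⟩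
  have hq1 : s + 2 - c = q := by omega
  rw [hq1]
  simp only [Nat.add_sub_cancel] at h ⊢
  have h1 : s + c * F = (s + 2) * R + (s + 2) * (F * k) + (c * F + q * F) := by
    rw [h]
    have : (s + 2) * F = (c + q) * F := by rw [hq]
    have h2 : (c + q) * F = c * F + q * F := by ring
    rw [← h2, ← this]
    ring
  have h3 : s = (s + 2) * R + (s + 2) * (F * k) + q * F := by omega
  have hR : R = 0 := by
    by_contra hne
    have h4 : (s + 2) * 1 ≤ (s + 2) * R := Nat.mul_le_mul_left _ (Nat.pos_of_ne_zero hne)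
    omega
  have hk : k = 0 := by
    by_contra hne
    have h4 : 1 ≤ F * k := Nat.mul_pos hF (Nat.pos_of_ne_zero hne)
    have h5 : (s + 2) * 1 ≤ (s + 2) * (F * k) := Nat.mul_le_mul_left _ h4
    omega
  subst hR hk
  simp only [mul_zero, zero_add] at h3
  exact ⟨rfl, rfl, h3.symm⟩

/-- The block analysis for a faithful character of degree `p - 2`. -/
theorem partI (hP : Nat.card 𝐐 = p) (hp5 : 5 < p) (hnn : ¬ 𝐐.Normal) (χ : IrrCharacter G)
    (hfaith : ∀ g, (χ : G → ℂ) g = (χ : G → ℂ) 1 → g = 1) (hdeg : charDegree (χ : G → ℂ) = p - 2) :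
    ∃ a : 𝐐 →* ℂˣ, a ≠ 1 ∧ (∀ y : 𝐐, y ≠ 1 → (χ : G → ℂ) y = -(((a y : ℂˣ) : ℂ) + (((a y)⁻¹ : ℂˣ) : ℂ))) ∧
      (∀ c ∈ 𝐂, ¬ p ∣ orderOf c → c ∈ Subgroup.center G) ∧ Nat.card 𝐍 = 2 * Nat.card 𝐂 := by
  classical
  have hpp : p.Prime := hp.out
  obtain ⟨M, hM⟩ := exists_isPModular hpp
  have := isPrime_of_modular hM
  letI := fintypeDual (P := P) hP
  have hχp : ¬ p ∣ charDegree (χ : G → ℂ) := by
    rw [hdeg]
    intro h
    have := Nat.le_of_dvd (by omega) h
    omega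
  have hB : IsPBlock M (blockOf M (χ : G → ℂ)) := isPBlock_blockOf χ
  have hPB : IsDefectGroup p M (blockOf M (χ : G → ℂ)) 𝐐 := isDefectGroup_of_pos hM hP hB ((not_dvd_iff_pos hM hP χ).mp hχp)
  obtain ⟨θ, e, f, hθ, hind, hTe, hf⟩ := exists_block_data hM hP hB hPB
  have hs := frobSetup_of_card hM P hP
  have hQ : Nat.card 𝐐 ≠ 1 := by
    rw [hP]
    exact hpp.one_lt.ne'
  obtain ⟨r, rep, idx, hrep, hidx, hiff, horb, hcard⟩ := exists_orbit_dataT hs.comm hs.frob (stabT θ)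
    (fun n hn => toN_mem_stabT (⟨n, hn⟩ : 𝐂) θ) hQ
  have hC0 : 0 < Nat.card 𝐂 := Nat.card_pos
  have hre : r * e = p - 1 := by
    rw [hTe, hP, ← mul_assoc] at hcard
    exact Nat.eq_of_mul_eq_mul_right hC0 hcard
  have hr : 1 ≤ r := by
    rcases Nat.eq_zero_or_pos r with h | h
    · rw [h, zero_mul] at hre
      omega
    · exact h
  obtain ⟨f', rfl⟩ : e ∣ f := by
    have h1 : Nat.card (stabT θ) ∣ Nat.card 𝐍 := Subgroup.card_subgroup_dvd_card _
    rw [hTe, hf] at h1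
    exact Nat.dvd_of_mul_dvd_mul_right hC0 h1
  obtain ⟨X, μ, δ, ε, hinj, hdis, hXc, hBeq, hδ, hε, hv, -⟩ := defOne_structure hM hP hB hPB hθ hind hTe hf hr hrep hidx hiff
    (fun i => by convert horb i) (fun Y hY => rank_bound hM hP hB hθ hind hTe Y hY)
  choose m hm using fun ξ : IrrCharacter 𝐂 => exists_mu_nat χ ξ
  have hχB : χ ∈ blockOf M (χ : G → ℂ) := self_mem_blockOf χ
  have hone : (χ : G → ℂ) 1 = ((p - 2 : ℕ) : ℂ) := by
    rw [apply_one_eq_charDegree (IsIrrCharacter.isCharacter χ.2), hdeg]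
  have hmain := deg_formula hM hP hB hPB hθ hind hχB hTe hf hrep hidx hiff (fun i => by convert horb i) m hm
  rw [hone] at hmain
  generalize hR : (∑ t : {θ : IrrCharacter 𝐂 // PT θ}, if (∃ n : 𝐍, cjI n θ = t.1) then 0 else charDegree (t.1 : 𝐂 → ℂ) * m t.1 : ℕ) = R at hmain
  have hd1 : 1 ≤ charDegree (θ : 𝐂 → ℂ) := charDegree_pos θ.2
  generalize hd : charDegree (θ : 𝐂 → ℂ) = d at hmain hd1
  have hθone : (θ : 𝐂 → ℂ) 1 = d := by
    rw [apply_one_eq_charDegree (IsIrrCharacter.isCharacter θ.2), hd]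
  have hNpos : 0 < Nat.card 𝐍 := Nat.card_pos
  have hf'1 : 1 ≤ f' := by
    rcases Nat.eq_zero_or_pos f' with h | h
    · rw [h] at hf
      simp at hf
    · exact h
  have he1 : 1 ≤ e := by
    rcases Nat.eq_zero_or_pos e with h | h
    · rw [h] at hf
      simp at hf
    · exact h
  have hF1 : 1 ≤ f' * d := Nat.mul_pos hf'1 hd1
  have hle : r * e = p - 1 := hre
  -- the multiplicities on the twists of `θ`
  have hmu_a : ∀ a : 𝐐 →* ℂˣ, a ≠ 1 → ((m (tw hP a θ) : ℕ) : ℂ) = m θ + classInner (vv hP (rep (idx a)) θ) (χ : G → ℂ) := by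
    intro a ha
    obtain ⟨n, hn, hna⟩ := (hiff (rep (idx a)) a (hrep _)).mp ⟨ha, by rw [hidx]⟩
    have h1 := vv_inner hP a θ χ
    rw [hm, hm] at h1
    rw [← vv_stab hP hn (rep (idx a)), hna, h1]
    ring
  have hoff : ∀ t : {θ : IrrCharacter 𝐂 // PT θ}, (¬ ∃ n : 𝐍, cjI n θ = t.1) → ∀ a, m (tw hP a t.1) = m t.1 := by
    intro t ht a
    have h1 := inner_other hM hP hB hPB hθ hind hχB t.2 a ht
    rw [vv_inner, sub_eq_zero, hm, hm] at h1
    exact_mod_cast h1
  have horb2 : ∀ (n : 𝐍) (a : 𝐐 →* ℂˣ), m (tw hP a (cjI n θ)) = m (tw hP (twist 𝐐 n⁻¹ a) θ) := by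
    intro n a
    have h1 : cjI n (tw hP (twist 𝐐 n⁻¹ a) θ) = tw hP a (cjI n θ) := by
      rw [cjI_tw, twist_twist_inv]
    have h2 := mu_cjI χ n (tw hP (twist 𝐐 n⁻¹ a) θ)
    rw [h1, hm, hm] at h2
    exact_mod_cast h2
  have hRzero : R = 0 → ∀ t : {θ : IrrCharacter 𝐂 // PT θ}, (¬ ∃ n : 𝐍, cjI n θ = t.1) → m t.1 = 0 := by
    intro h t ht
    rw [← hR] at h
    have h1 := (Finset.sum_eq_zero_iff.mp h) t (mem_univ t)
    rw [if_neg ht] at h1
    exact (Nat.mul_eq_zero.mp h1).resolve_left (charDegree_pos t.1.2).ne'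
  have hkill : R = 0 → (∀ a : 𝐐 →* ℂˣ, a ≠ 1 → m (tw hP a θ) = 0) → False := by
    intro h0 ha
    have h1 : ∀ (t : {θ : IrrCharacter 𝐂 // PT θ}) (a : 𝐐 →* ℂˣ), a ≠ 1 → mu (χ : G → ℂ) (tw hP a t.1 : 𝐂 → ℂ) = 0 := by
      intro t a ha1
      rw [hm]
      norm_cast
      by_cases ht : ∃ n : 𝐍, cjI n θ = t.1
      · obtain ⟨n, hn⟩ := ht
        rw [← hn, horb2]
        exact ha _ (twist_ne_one 𝐐 ha1 _)
      · rw [hoff t ht, hRzero h0 t ht]
    have h2 := eq_one_of_mu_zero hP χ h1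
    haveI : Nontrivial 𝐐 := Finite.one_lt_card_iff_nontrivial.mp (by rw [hP]; exact hpp.one_lt)
    obtain ⟨u, hu⟩ := exists_ne (1 : 𝐐)
    exact hu (Subtype.ext (hfaith _ (h2 u)))
  have hoff2 : R = 0 → (∀ n : 𝐍, cjI n θ = θ) → ∀ t : {θ : IrrCharacter 𝐂 // PT θ}, t.1 ≠ θ → ∀ a : 𝐐 →* ℂˣ, mu (χ : G → ℂ) (tw hP a t.1 : 𝐂 → ℂ) = 0 := by
    intro h0 hn t ht a
    have h1 : ¬ ∃ n : 𝐍, cjI n θ = t.1 := by
      rintro ⟨n, hn'⟩
      exact ht (by rw [← hn', hn])
    rw [hm, hoff t h1, hRzero h0 t h1]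
    simp
  have hχmem : χ ∈ (X : Set (IrrCharacter G)) ∪ Set.range μ := hBeq ▸ hχB
  rcases hχmem with hX | ⟨j, hj⟩
  · -- `χ` is not exceptional: impossible
    exfalso
    have hinn : ∀ i, classInner (vv hP (rep i) θ) (χ : G → ℂ) = δ χ := fun i => inner_X hdis hv hX i
    rw [sum_congr rfl (fun i _ => hinn i), sum_const, card_univ, Fintype.card_fin, nsmul_eq_mul] at hmain
    rcases hδ χ hX with h1 | h1
    · rw [h1] at hmain
      have h2 : p - 2 = p * (R + f' * d * m θ) + e * f' * d * r := by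
        have : ((p - 2 : ℕ) : ℂ) = ((p * (R + f' * d * m θ) + e * f' * d * r : ℕ) : ℂ) := by
          rw [hmain]
          push_cast
          ring
        exact_mod_cast this
      have h3 : e * f' * d * r = (r * e) * (f' * d) := by ring
      rw [h3, hre] at h2
      have h5 : (p - 1) * 1 ≤ (p - 1) * (f' * d) := Nat.mul_le_mul_left _ hF1
      omega
    · rw [h1] at hmain
      have h2 : p - 2 + (e * r) * (f' * d) = p * (R + f' * d * m θ) := by
        have : ((p - 2 + (e * r) * (f' * d) : ℕ) : ℂ) = ((p * (R + f' * d * m θ) : ℕ) : ℂ) := by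
          push_cast at hmain ⊢
          rw [hmain]
          ring
        exact_mod_cast this
      have hmb : ∀ a : 𝐐 →* ℂˣ, a ≠ 1 → m (tw hP a θ) + 1 = m θ := by
        intro a ha
        have h3 := hmu_a a ha
        rw [hinn, h1] at h3
        have h4 : ((m (tw hP a θ) + 1 : ℕ) : ℂ) = m θ := by
          push_cast
          rw [h3]
          ring
        exact_mod_cast h4
      have hmθ := hmb (rep ⟨0, hr⟩) (hrep _)
      obtain ⟨k, hk⟩ : ∃ k, m θ = k + 1 := ⟨_, hmθ.symm⟩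
      rw [hk, mul_comm e r, hre] at h2
      obtain ⟨h3, h4, -⟩ := arith_neg (c := p - 1) hpp.two_le hF1 (by omega) h2
      refine hkill h3 fun a ha => ?_
      have := hmb a ha
      omega
  · -- the exceptional case
    have hinn : ∀ i, classInner (vv hP (rep i) θ) (χ : G → ℂ) = if i = j then (ε : ℂ) else 0 := fun i => by
      rw [← hj]
      exact inner_μ hinj hdis hv i j
    rw [sum_congr rfl (fun i _ => hinn i), Finset.sum_ite_eq' univ j, if_pos (mem_univ j)] at hmain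
    have hmu_b : ∀ a : 𝐐 →* ℂˣ, a ≠ 1 → ((m (tw hP a θ) : ℕ) : ℂ) = m θ + if idx a = j then (ε : ℂ) else 0 := fun a ha => by
      rw [hmu_a a ha, hinn]
    rcases hε with h1 | h1
    · -- positive sign: `P` is central
      exfalso
      rw [h1] at hmain hmu_b
      have h2 : p - 2 = p * (R + f' * d * m θ) + e * (f' * d) := by
        have : ((p - 2 : ℕ) : ℂ) = ((p * (R + f' * d * m θ) + e * (f' * d) : ℕ) : ℂ) := by
          rw [hmain]
          push_cast
          ring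
        exact_mod_cast this
      have h3 : R + f' * d * m θ = 0 := by
        by_contra hne
        have h4 : p * 1 ≤ p * (R + f' * d * m θ) := Nat.mul_le_mul_left _ (Nat.pos_of_ne_zero hne)
        omega
      have h4 : R = 0 := by omega
      have h5 : m θ = 0 := by
        have h6 : f' * d * m θ = 0 := by omega
        exact (Nat.mul_eq_zero.mp h6).resolve_left (by omega)
      rw [h3, mul_zero, zero_add] at h2
      have hCN : 𝐂 ≤ 𝐍 := centralizer_le_normalizer_coe _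
      have hdvd : e * f' ∣ p - 1 := by
        have h6 := SmallSimple.relIndex_centralizer_normalizer_dvd P
        haveI : IsCyclic 𝐐 := isCyclic_of_prime_card hP
        rw [IsCyclic.card_mulAut, hP, Nat.totient_prime hpp] at h6
        have h7 : (𝐂.subgroupOf 𝐍).index = e * f' := by
          have h8 := Subgroup.card_mul_index (𝐂.subgroupOf 𝐍)
          rw [Nat.card_congr (Subgroup.subgroupOfEquivOfLe hCN).toEquiv, hf, mul_comm (e * f')] at h8
          exact Nat.eq_of_mul_eq_mul_left Nat.card_pos h8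
        rw [← h7]
        exact h6
      have hdvd2 : e * f' ∣ p - 2 := ⟨d, by rw [h2]; ring⟩
      have hef : e * f' = 1 := by
        have h6 : e * f' ∣ (p - 1) - (p - 2) := Nat.dvd_sub hdvd hdvd2
        have h7 : (p - 1) - (p - 2) = 1 := by omega
        rw [h7] at h6
        exact Nat.dvd_one.mp h6
      have hcardN : Nat.card 𝐍 = Nat.card 𝐂 := by rw [hf, hef, one_mul]
      have hNC : ∀ n : 𝐍, (n : G) ∈ 𝐂 := by
        have h6 : 𝐂 = 𝐍 := Subgroup.eq_of_le_of_card_ge hCN hcardN.le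
        intro n
        rw [h6]
        exact n.2
      have hstab : ∀ n : 𝐍, cjI n θ = θ := fun n => cjI_toN (⟨(n : G), hNC n⟩ : 𝐂) θ
      have hval : ∀ y : 𝐐, (χ : G → ℂ) y = ((rep j y : ℂˣ) : ℂ) * d := by
        intro y
        have h6 := res_single hP χ hθ (hoff2 h4 hstab) ⟨y, le_cent hP y.2⟩
        change (χ : G → ℂ) y = _ at h6
        rw [h6]
        rw [Finset.sum_eq_single (rep j)]
        · rw [hm]
          have h7 := hmu_b (rep j) (hrep j)
          rw [hidx, if_pos rfl, h5] at h7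
          rw [h7, PT.tw_mem hP hθ (rep j) y.2, hθone]
          simp
        · intro a _ ha
          rw [hm]
          by_cases ha1 : a = 1
          · rw [ha1, tw_one, h5]
            simp
          · rw [hmu_b a ha1, h5, if_neg]
            · simp
            · intro h8
              obtain ⟨n, _, hn⟩ := (hiff (rep j) a (hrep j)).mp ⟨ha1, by rw [h8, hidx]⟩
              rw [twist_of_mem n (hNC n)] at hn
              exact ha hn.symm
        · simp
      have hcent : ∀ y : 𝐐, (y : G) ∈ Subgroup.center G := by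
        intro y
        apply RV.mem_center_of_norm_eq χ.2 hfaith
        rw [hval y, hone, norm_mul, Complex.norm_natCast, Complex.norm_natCast]
        have h6 : d = p - 2 := by
          have : e = 1 ∧ f' = 1 := by
            exact ⟨Nat.dvd_one.mp ⟨f', hef.symm⟩, Nat.dvd_one.mp ⟨e, by rw [mul_comm]; exact hef.symm⟩⟩
          rw [h2, this.1, this.2]
          ring
        rw [h6]
        have h7 : ((rep j y : ℂˣ) : ℂ) ^ p = 1 := by
          have h8 : y ^ p = 1 := by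
            apply Subtype.ext
            exact pow_p_of_mem hP y.2
          have h9 : (rep j y) ^ p = 1 := by rw [← map_pow, h8, map_one]
          rw [← Units.val_pow_eq_pow_val, h9, Units.val_one]
        rw [Complex.norm_eq_one_of_pow_eq_one h7 hpp.ne_zero, one_mul]
      apply hnn
      constructor
      intro y hy g
      have h6 := hcent ⟨y, hy⟩
      have h7 : g * y = y * g := (Subgroup.mem_center_iff.mp h6 g)
      rw [h7, mul_inv_cancel_right]
      exact hy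
    · -- negative sign
      rw [h1] at hmain hmu_b
      have hsimp : ((-1 : ℤ) : ℂ) = -1 := by simp
      rw [hsimp] at hmain hmu_b
      have h2 : p - 2 + e * (f' * d) = p * (R + f' * d * m θ) := by
        have : ((p - 2 + e * (f' * d) : ℕ) : ℂ) = ((p * (R + f' * d * m θ) : ℕ) : ℂ) := by
          push_cast at hmain ⊢
          rw [hmain]
          ring
        exact_mod_cast this
      have hmb : ∀ a : 𝐐 →* ℂˣ, a ≠ 1 → idx a = j → m (tw hP a θ) + 1 = m θ := by
        intro a ha haj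
        have h3 := hmu_b a ha
        rw [if_pos haj] at h3
        have h4 : ((m (tw hP a θ) + 1 : ℕ) : ℂ) = m θ := by
          push_cast
          rw [h3]
          ring
        exact_mod_cast h4
      have hmc : ∀ a : 𝐐 →* ℂˣ, a ≠ 1 → idx a ≠ j → m (tw hP a θ) = m θ := by
        intro a ha haj
        have h3 := hmu_b a ha
        rw [if_neg haj, add_zero] at h3
        exact_mod_cast h3
      have hmθ := hmb (rep j) (hrep j) (hidx j)
      obtain ⟨k, hk⟩ : ∃ k, m θ = k + 1 := ⟨_, hmθ.symm⟩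
      have hep : e < p := by
        have h3 : 1 * e ≤ r * e := Nat.mul_le_mul_right _ hr
        omega
      rw [hk] at h2
      obtain ⟨h3, h4, h5⟩ := arith_neg (c := e) hpp.two_le hF1 hep h2
      have hmθ1 : m θ = 1 := by omega
      by_cases hr1 : r = 1
      · exfalso
        subst hr1
        refine hkill h3 fun a ha => ?_
        have := hmb a ha (Subsingleton.elim _ _)
        omega
      · have hr2 : 2 ≤ r := by omega
        have h2e : 2 * e ≤ p - 1 := by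
          rw [← hre]
          exact Nat.mul_le_mul_right _ hr2
        have hF : f' * d = 1 := by
          by_contra hne
          have h6 : 2 ≤ f' * d := by omega
          have h7 : (p - e) * 2 ≤ (p - e) * (f' * d) := Nat.mul_le_mul_left _ h6
          omega
        have he2 : e = 2 := by
          rw [hF, mul_one] at h5
          omega
        have hf'one : f' = 1 := Nat.dvd_one.mp ⟨d, hF.symm⟩
        have hd1' : d = 1 := Nat.dvd_one.mp ⟨f', by rw [mul_comm]; exact hF.symm⟩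
        subst hf'one hd1' he2
        have hN2 : Nat.card 𝐍 = 2 * Nat.card 𝐂 := by rw [hf]
        have hTtop : stabT θ = ⊤ := by
          apply Subgroup.eq_top_of_card_eq
          rw [hTe, hN2]
        have hstab : ∀ n : 𝐍, cjI n θ = θ := fun n => mem_stabT.mp (hTtop ▸ Subgroup.mem_top n)
        have hCN : 𝐂 ≤ 𝐍 := centralizer_le_normalizer_coe _
        obtain ⟨n₀, hn₀⟩ : ∃ n₀ : 𝐍, (n₀ : G) ∉ 𝐂 := by
          by_contra hne
          push Not at hne
          have h6 : 𝐍 ≤ 𝐂 := fun n hn => hne ⟨n, hn⟩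
          have h7 := Subgroup.card_le_of_le h6
          omega
        have hodd : p ≠ 2 := by omega
        have hS : (univ.filter (fun a : 𝐐 →* ℂˣ => a ≠ 1 ∧ idx a = j)) = {rep j, (rep j)⁻¹} := by
          ext a
          simp only [mem_filter, mem_univ, true_and, mem_insert, mem_singleton]
          constructor
          · rintro ⟨ha1, ha2⟩
            obtain ⟨n, _, hn⟩ := (hiff (rep j) a (hrep j)).mp ⟨ha1, by rw [ha2, hidx]⟩
            by_cases hnC : (n : G) ∈ 𝐂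
            · rw [twist_of_mem n hnC] at hn
              exact Or.inl hn.symm
            · rw [twist_eq_inv hP hodd hN2 n hnC] at hn
              exact Or.inr hn.symm
          · rintro (rfl | rfl)
            · exact ⟨hrep j, hidx j⟩
            · have h6 := (hiff (rep j) (rep j)⁻¹ (hrep j)).mpr ⟨n₀, by rw [hTtop]; exact Subgroup.mem_top _, twist_eq_inv hP hodd hN2 n₀ hn₀ _⟩
              rw [hidx] at h6
              exact h6
        have hne2 : rep j ≠ (rep j)⁻¹ := by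
          intro h6
          have h7 : rep j ^ 2 = 1 := by
            apply MonoidHom.ext
            intro u
            have h8 : rep j u = (rep j u)⁻¹ := congrArg (fun a : 𝐐 →* ℂˣ => a u) h6
            show (rep j u) ^ 2 = 1
            rw [pow_two]
            nth_rewrite 1 [h8]
            exact inv_mul_cancel _
          refine pow_ne_one_dual hP (k := 2) ?_ (hrep j) h7
          exact (Nat.coprime_primes Nat.prime_two hpp).mpr hodd.symm
        have hmval : ∀ a : 𝐐 →* ℂˣ, mu (χ : G → ℂ) (tw hP a θ : 𝐂 → ℂ) = if (a ≠ 1 ∧ idx a = j) then 0 else 1 := by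
          intro a
          rw [hm]
          by_cases ha : a = 1
          · rw [if_neg (fun h => h.1 ha), ha, tw_one, hmθ1]
            simp
          · by_cases haj : idx a = j
            · rw [if_pos ⟨ha, haj⟩]
              have := hmb a ha haj
              have h6 : m (tw hP a θ) = 0 := by omega
              rw [h6]
              simp
            · rw [if_neg (fun h => haj h.2), hmc a ha haj, hmθ1]
              simp
        have hres := res_single hP χ hθ (hoff2 h3 hstab)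
        refine ⟨rep j, hrep j, ?_, ?_, hN2⟩
        · intro y hy
          have h6 := hres ⟨y, le_cent hP y.2⟩
          change (χ : G → ℂ) y = _ at h6
          rw [h6]
          have h7 : ∀ a : 𝐐 →* ℂˣ, mu (χ : G → ℂ) (tw hP a θ : 𝐂 → ℂ) * (tw hP a θ : 𝐂 → ℂ) ⟨y, le_cent hP y.2⟩ =
              ((a y : ℂˣ) : ℂ) - (if (a ≠ 1 ∧ idx a = j) then ((a y : ℂˣ) : ℂ) else 0) := by
            intro a
            rw [hmval, PT.tw_mem hP hθ a y.2, hθone]
            by_cases h8 : a ≠ 1 ∧ idx a = j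
            · simp [h8]
            · rw [if_neg h8, if_neg h8]
              simp
          rw [sum_congr rfl (fun a _ => h7 a), sum_sub_distrib, sum_dual_zero hP (rep j) (hrep j) y hy, ← Finset.sum_filter, hS,
            Finset.sum_pair hne2]
          simp
        · intro c hc hcr
          have hcr' : ¬ p ∣ orderOf (⟨c, hc⟩ : 𝐂) := by
            rw [← Subgroup.orderOf_coe]
            exact hcr
          have h6 := hres ⟨c, hc⟩
          change (χ : G → ℂ) c = _ at h6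
          have h7 := hres 1
          change (χ : G → ℂ) 1 = _ at h7
          have h8 : ∀ a : 𝐐 →* ℂˣ, (tw hP a θ : 𝐂 → ℂ) 1 = 1 := by
            intro a
            rw [tw_coe, map_one, hθone]
            simp
          simp only [h8, mul_one] at h7
          have h9 : ∀ a : 𝐐 →* ℂˣ, (tw hP a θ : 𝐂 → ℂ) ⟨c, hc⟩ = (θ : 𝐂 → ℂ) ⟨c, hc⟩ := fun a => tw_reg hP a θ hcr'
          simp only [h9] at h6
          rw [← Finset.sum_mul, ← h7] at h6
          obtain ⟨lam, hlam⟩ := IsCharacter.exists_monoidHom (IsIrrCharacter.isCharacter θ.2) (by rw [hθone]; simp)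
          have h10 : ‖(θ : 𝐂 → ℂ) ⟨c, hc⟩‖ = 1 := by
            rw [hlam]
            have h11 : (lam ⟨c, hc⟩) ^ Nat.card 𝐂 = 1 := by
              rw [← map_pow, pow_card_eq_one', map_one]
            have h12 : ((lam ⟨c, hc⟩ : ℂˣ) : ℂ) ^ Nat.card 𝐂 = 1 := by
              rw [← Units.val_pow_eq_pow_val, h11, Units.val_one]
            exact Complex.norm_eq_one_of_pow_eq_one h12 Nat.card_pos.ne'
          apply RV.mem_center_of_norm_eq χ.2 hfaith
          rw [h6, norm_mul, h10, mul_one]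

end Cfsg.Agent.Lib.BT.PM2
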