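import Cfsg.Agent.Lib.BT.PM2A
import Cfsg.Agent.Lib.BT.Setup
import Cfsg.Agent.Lib.Char.FTBound

/-! Faithful characters of degree `p - 2`: the core data and sums over the `p`-singular elements. -/

set_option autoImplicit false
set_option linter.unusedSectionVars false
set_option linter.unusedVariables false

namespace Cfsg.Agent.Lib.BT.PM2

open Cfsg Cfsg.Agent.Lib.Char Cfsg.Agent.Lib.Blocks Cfsg.Agent.Lib.DefOne Finset
open scoped ComplexConjugate

universe u

attribute [local instance] fintypeOfSubgroup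

variable {G : Type u} [Group G] [Fintype G] {p : ℕ} [hp : Fact p.Prime] {P : Sylow p G}

local notation "𝐐" => ((P : Subgroup G))
local notation "𝐂" => (Subgroup.centralizer (((P : Subgroup G)) : Set G))
local notation "𝐍" => (Subgroup.normalizer (((P : Subgroup G)) : Set G))

/-- The data coming out of the block analysis. -/
structure Core (ζ : G → ℂ) (a : 𝐐 →* ℂˣ) : Prop where
  card_P : Nat.card 𝐐 = p
  big : 5 < p
  irr : IsIrrCharacter G ζ
  faith : ∀ g, ζ g = ζ 1 → g = 1
  deg : ζ 1 = ((p - 2 : ℕ) : ℂ)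
  a_ne : a ≠ 1
  val : ∀ y : 𝐐, y ≠ 1 → ζ y = -(((a y : ℂˣ) : ℂ) + (((a y)⁻¹ : ℂˣ) : ℂ))
  cent : ∀ c ∈ 𝐂, ¬ p ∣ orderOf c → c ∈ Subgroup.center G
  idx : Nat.card 𝐍 = 2 * Nat.card 𝐂

namespace Core

variable {ζ : G → ℂ} {a : ((P : Subgroup G)) →* ℂˣ} (h : Core ζ a)

include h

theorem p_ge : 7 ≤ p := by
  have h1 := h.big
  have hpp : p.Prime := hp.out
  by_contra hne
  have h2 : p = 6 := by omega
  rw [h2] at hpp
  norm_num at hpp

theorem odd_p : p ≠ 2 := by
  have := h.big
  omega

theorem norm_a (y : 𝐐) : ‖((a y : ℂˣ) : ℂ)‖ = 1 := by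
  have h1 : y ^ p = 1 := Subtype.ext (pow_p_of_mem h.card_P y.2)
  have h2 : (a y) ^ p = 1 := by rw [← map_pow, h1, map_one]
  have h3 : ((a y : ℂˣ) : ℂ) ^ p = 1 := by rw [← Units.val_pow_eq_pow_val, h2, Units.val_one]
  exact Complex.norm_eq_one_of_pow_eq_one h3 hp.out.ne_zero

theorem norm_a_inv (y : 𝐐) : ‖(((a y)⁻¹ : ℂˣ) : ℂ)‖ = 1 := by
  rw [Units.val_inv_eq_inv_val, norm_inv, h.norm_a y, inv_one]

theorem inv_eq_conj (y : 𝐐) : (((a y)⁻¹ : ℂˣ) : ℂ) = conj ((a y : ℂˣ) : ℂ) := by
  rw [Units.val_inv_eq_inv_val]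
  exact Complex.inv_eq_conj (h.norm_a y)

theorem mem_center_eq_one {y : G} (hy : y ∈ 𝐐) (hc : y ∈ Subgroup.center G) : y = 1 := by
  by_contra hne
  have h1 := FT.norm_of_mem_center h.irr hc
  have h2 := h.val ⟨y, hy⟩ (fun e => hne (congrArg Subtype.val e))
  change ζ y = _ at h2
  rw [h.deg, Complex.norm_natCast, h2, norm_neg] at h1
  have h3 := norm_add_le ((a ⟨y, hy⟩ : ℂˣ) : ℂ) (((a ⟨y, hy⟩)⁻¹ : ℂˣ) : ℂ)
  rw [h.norm_a, h.norm_a_inv, h1] at h3
  have h4 := h.big
  have h5 : ((p - 2 : ℕ) : ℝ) ≤ ((2 : ℕ) : ℝ) := by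
    push_cast
    push_cast at h3
    linarith
  have h6 : p - 2 ≤ 2 := by exact_mod_cast h5
  omega

theorem card_sylow (S : Sylow p G) : Nat.card (S : Subgroup G) = p := by
  rw [S.card_eq_multiplicity, ← P.card_eq_multiplicity]
  exact h.card_P

theorem not_dvd_orderOf_center {c : G} (hc : c ∈ Subgroup.center G) : ¬ p ∣ orderOf c := by
  classical
  rintro ⟨k, hk⟩
  have hopos : 0 < orderOf c := orderOf_pos c
  have hk0 : k ≠ 0 := by
    rintro rfl
    omega
  have h1 : orderOf (c ^ k) = p := by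
    rw [orderOf_pow_of_dvd hk0 ⟨p, by rw [hk, mul_comm]⟩, hk]
    exact Nat.mul_div_cancel _ (Nat.pos_of_ne_zero hk0)
  have h2 : IsPGroup p (Subgroup.zpowers (c ^ k)) := by
    apply isPGroup_zpowers (p := p)
    exact ⟨1, by simpa using h1⟩
  obtain ⟨S, hS⟩ := IsPGroup.exists_le_sylow h2
  obtain ⟨x, rfl⟩ := MulAction.exists_smul_eq G P S
  have h3 : c ^ k ∈ ((x • P : Sylow p G) : Subgroup G) := hS (Subgroup.mem_zpowers _)
  rw [mem_smul_sylow] at h3
  have h4 : c ^ k ∈ Subgroup.center G := Subgroup.pow_mem _ hc k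
  have h5 : x⁻¹ * c ^ k * x = c ^ k := by
    rw [(Subgroup.mem_center_iff.mp h4 x⁻¹)]
    group
  rw [h5] at h3
  have h6 := h.mem_center_eq_one h3 h4
  rw [h6, orderOf_one] at h1
  exact hp.out.ne_one h1.symm

theorem not_dvd_card_center : ¬ p ∣ Nat.card (Subgroup.center G) := by
  intro hd
  haveI : Fact p.Prime := hp
  obtain ⟨c, hc⟩ := exists_prime_orderOf_dvd_card' p hd
  apply h.not_dvd_orderOf_center c.2
  rw [Subgroup.orderOf_coe, hc]

theorem coprime_center : Nat.Coprime (Nat.card (Subgroup.center G)) p :=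
  ((Nat.Prime.coprime_iff_not_dvd hp.out).mpr h.not_dvd_card_center).symm

theorem cent_S (S : Sylow p G) {c : G} (hc : c ∈ Subgroup.centralizer (((S : Subgroup G)) : Set G)) (hr : ¬ p ∣ orderOf c) :
    c ∈ Subgroup.center G := by
  obtain ⟨x, rfl⟩ := MulAction.exists_smul_eq G P S
  have h1 : x⁻¹ * c * x ∈ 𝐂 := by
    rw [Subgroup.mem_centralizer_iff]
    intro u hu
    have h2 : x * u * x⁻¹ ∈ ((x • P : Sylow p G) : Subgroup G) := by
      rw [mem_smul_sylow]
      have h9 : x⁻¹ * (x * u * x⁻¹) * x = u := by group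
      rw [h9]
      exact hu
    have h3 := Subgroup.mem_centralizer_iff.mp hc _ h2
    calc u * (x⁻¹ * c * x) = x⁻¹ * ((x * u * x⁻¹) * c) * x := by group
      _ = x⁻¹ * (c * (x * u * x⁻¹)) * x := by rw [h3]
      _ = _ := by group
  have h2 : orderOf (x⁻¹ * c * x) = orderOf c := by
    have h3 : x⁻¹ * c * x = MulAut.conj x⁻¹ c := by simp
    rw [h3, MulEquiv.orderOf_eq]
  have h4 := h.cent _ h1 (by rw [h2]; exact hr)
  have h5 : c = x * (x⁻¹ * c * x) * x⁻¹ := by group
  rw [h5]
  exact (Subgroup.Normal.conj_mem inferInstance) _ h4 x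

theorem card_centralizer : Nat.card 𝐂 = p * Nat.card (Subgroup.center G) := by
  classical
  have hPZ : ∀ z : G, z ∈ 𝐐 → z ∈ Subgroup.center G → z = 1 := fun z => h.mem_center_eq_one
  let f : 𝐐 × Subgroup.center G → 𝐂 := fun x => ⟨(x.1 : G) * x.2, by
    rw [Subgroup.mem_centralizer_iff]
    intro u hu
    have h1 : (x.1 : G) * u = u * x.1 := Small.BD.comm_of_prime (p := p) 𝐐 h.card_P _ x.1.2 _ hu
    have h2 : u * (x.2 : G) = x.2 * u := (Subgroup.mem_center_iff.mp x.2.2 u)
    calc u * ((x.1 : G) * x.2) = (u * x.1) * x.2 := by group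
      _ = ((x.1 : G) * u) * x.2 := by rw [h1]
      _ = (x.1 : G) * (u * x.2) := by group
      _ = (x.1 : G) * (x.2 * u) := by rw [h2]
      _ = _ := by group⟩
  have hf : Function.Bijective f := by
    constructor
    · rintro ⟨u, c⟩ ⟨u', c'⟩ he
      have h1 : (u : G) * c = u' * c' := congrArg Subtype.val he
      have h2 : (u' : G)⁻¹ * u = c' * (c : G)⁻¹ := by
        calc (u' : G)⁻¹ * u = (u' : G)⁻¹ * (u * c) * (c : G)⁻¹ := by group
          _ = (u' : G)⁻¹ * (u' * c') * (c : G)⁻¹ := by rw [h1]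
          _ = _ := by group
      have h3 : (u' : G)⁻¹ * u ∈ 𝐐 := 𝐐.mul_mem (𝐐.inv_mem u'.2) u.2
      have h4 : (u' : G)⁻¹ * u ∈ Subgroup.center G := by
        rw [h2]
        exact (Subgroup.center G).mul_mem c'.2 ((Subgroup.center G).inv_mem c.2)
      have h5 := hPZ _ h3 h4
      have h6 : (u : G) = u' := (inv_mul_eq_one.mp h5).symm
      have h7 : (c : G) = c' := by
        rw [h5] at h2
        exact (mul_inv_eq_one.mp h2.symm).symm
      exact Prod.ext (Subtype.ext h6) (Subtype.ext h7)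
    · intro c
      obtain ⟨u, y, hc, hu, hy⟩ := exists_decomp h.card_P c
      have hy' : ¬ p ∣ orderOf (y : G) := by
        rw [Subgroup.orderOf_coe]
        exact hy
      exact ⟨(⟨u, hu⟩, ⟨y, h.cent y y.2 hy'⟩), Subtype.ext (by rw [hc]; rfl)⟩
  rw [← Nat.card_congr (Equiv.ofBijective f hf), Nat.card_prod, h.card_P]

theorem card_G : Nat.card G = Nat.card (Sylow p G) * (2 * (p * Nat.card (Subgroup.center G))) := by
  rw [← h.card_centralizer, ← h.idx, P.card_eq_index_normalizer, mul_comm]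
  exact (Subgroup.card_mul_index _).symm

theorem sylow_pos : 0 < Nat.card (Sylow p G) := Nat.card_pos

theorem center_pos : 0 < Nat.card (Subgroup.center G) := Nat.card_pos

/-- The sum of a class function, insensitive to the center, over the `p`-singular elements. -/
theorem sum_sing (F : G → ℂ) (hF : IsClassFunction G F) (hZ : ∀ g, ∀ c ∈ Subgroup.center G, F (g * c) = F g) :
    ∑ g ∈ univ.filter (fun g : G => p ∣ orderOf g), F g =
      (Nat.card (Sylow p G) : ℂ) * (Nat.card (Subgroup.center G) : ℂ) * (∑ y : 𝐐, F y - F 1) := by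
  classical
  letI : Fintype (Sylow p G) := Fintype.ofFinite _
  have hpp : p.Prime := hp.out
  have hord : ∀ (S : Sylow p G) (y : (S : Subgroup G)), y ≠ 1 → orderOf (y : G) = p := fun S y hy =>
    SmallSimple.orderOf_eq_of_mem_sylow (h.card_sylow S) y.2 (fun e => hy (Subtype.ext e))
  have hcop : ∀ c : Subgroup.center G, Nat.Coprime p (orderOf (c : G)) := fun c =>
    (Nat.Prime.coprime_iff_not_dvd hpp).mpr (h.not_dvd_orderOf_center c.2)
  have hcomm : ∀ (y : G) (c : Subgroup.center G), Commute y c := fun y c =>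
    (Subgroup.mem_center_iff.mp c.2 y)
  let Φ : (Σ S : Sylow p G, {y : (S : Subgroup G) // y ≠ 1} × Subgroup.center G) → {g : G // p ∣ orderOf g} :=
    fun x => ⟨(x.2.1.1 : G) * x.2.2, by
      rw [(hcomm _ x.2.2).orderOf_mul_eq_mul_orderOf_of_coprime (by rw [hord _ _ x.2.1.2]; exact hcop _), hord _ _ x.2.1.2]
      exact dvd_mul_right _ _⟩
  have hΦ : Function.Bijective Φ := by
    constructor
    · rintro ⟨S, ⟨y, hy⟩, c⟩ ⟨S', ⟨y', hy'⟩, c'⟩ he
      have h1 : (y : G) * c = y' * c' := congrArg Subtype.val he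
      set d := Nat.card (Subgroup.center G) with hd
      have hc1 : ((c : G)) ^ d = 1 := by
        have := pow_card_eq_one' (x := c)
        exact congrArg Subtype.val this
      have hc2 : ((c' : G)) ^ d = 1 := by
        have := pow_card_eq_one' (x := c')
        exact congrArg Subtype.val this
      have h2 : (y : G) ^ d = (y' : G) ^ d := by
        have h3 := congrArg (· ^ d) h1
        simp only [(hcomm _ _).mul_pow, hc1, hc2, mul_one] at h3
        exact h3
      obtain ⟨k, hk⟩ := Nat.exists_mul_mod_eq_one_of_coprime' h.coprime_center hpp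
      have hyy : ∀ (w : G), w ^ p = 1 → (w ^ d) ^ k = w := by
        intro w hw
        rw [← pow_mul]
        have h4 : d * k ≡ 1 [MOD p] := hk
        have h5 := pow_eq_pow_of_modEq h4 hw
        rwa [pow_one] at h5
      have hy1 : (y : G) ^ p = 1 := by
        have h9 := pow_orderOf_eq_one (y : G)
        rwa [hord S y hy] at h9
      have hy2 : (y' : G) ^ p = 1 := by
        have h9 := pow_orderOf_eq_one (y' : G)
        rwa [hord S' y' hy'] at h9
      have h6 : (y : G) = y' := by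
        rw [← hyy _ hy1, h2, hyy _ hy2]
      have h7 : (c : G) = c' := by
        rw [h6] at h1
        exact mul_left_cancel h1
      have hy1' : (y : G) ≠ 1 := fun e => hy (Subtype.ext e)
      have h8 : S = S' := by
        apply Sylow.ext
        have h9 := SmallSimple.eq_zpowers_of_card (h.card_sylow S) y.2 (hord S y hy)
        have h10 := SmallSimple.eq_zpowers_of_card (h.card_sylow S') y'.2 (hord S' y' hy')
        rw [h9, h10, h6]
      subst h8
      have h11 : y = y' := Subtype.ext h6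
      have h12 : c = c' := Subtype.ext h7
      subst h11 h12
      rfl
    · rintro ⟨g, k, hk⟩
      have hopos : 0 < orderOf g := orderOf_pos g
      have hk0 : k ≠ 0 := by
        rintro rfl
        omega
      have h1 : orderOf (g ^ k) = p := by
        rw [orderOf_pow_of_dvd hk0 ⟨p, by rw [hk, mul_comm]⟩, hk]
        exact Nat.mul_div_cancel _ (Nat.pos_of_ne_zero hk0)
      have h2 : IsPGroup p (Subgroup.zpowers (g ^ k)) := by
        apply isPGroup_zpowers (p := p)
        exact ⟨1, by simpa using h1⟩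
      obtain ⟨S, hS⟩ := IsPGroup.exists_le_sylow h2
      have h3 : g ^ k ∈ (S : Subgroup G) := hS (Subgroup.mem_zpowers _)
      have hSz := SmallSimple.eq_zpowers_of_card (h.card_sylow S) h3 h1
      have hgC : g ∈ Subgroup.centralizer (((S : Subgroup G)) : Set G) := by
        rw [Subgroup.mem_centralizer_iff]
        intro s hs
        have hs' : s ∈ Subgroup.zpowers (g ^ k) := by
          rw [← hSz]
          exact hs
        obtain ⟨m, rfl⟩ := hs'
        exact ((Commute.refl g).pow_left k).zpow_left m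
      obtain ⟨u, v, huv, hu, hv⟩ := exists_decomp (h.card_sylow S) ⟨g, hgC⟩
      have hv' : ¬ p ∣ orderOf (v : G) := by
        rw [Subgroup.orderOf_coe]
        exact hv
      have hvZ := h.cent_S S v.2 hv'
      have hguv : g = (u : G) * v := congrArg Subtype.val huv
      have hu1 : (⟨u, hu⟩ : (S : Subgroup G)) ≠ 1 := by
        intro e
        have h4 : (u : G) = 1 := congrArg Subtype.val e
        rw [h4, one_mul] at hguv
        apply hv'
        rw [← hguv, hk]
        exact dvd_mul_right _ _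
      exact ⟨⟨S, ⟨⟨u, hu⟩, hu1⟩, ⟨v, hvZ⟩⟩, Subtype.ext hguv.symm⟩
  have h1 : ∑ g ∈ univ.filter (fun g : G => p ∣ orderOf g), F g = ∑ g : {g : G // p ∣ orderOf g}, F g := by
    rw [Finset.sum_subtype (p := fun g : G => p ∣ orderOf g) (univ.filter (fun g : G => p ∣ orderOf g)) (by simp)]
  rw [h1, ← Fintype.sum_bijective Φ hΦ (fun x => F (Φ x)) _ (fun _ => rfl), Fintype.sum_sigma]
  have hkey : ∀ S : Sylow p G, ∑ x : {y : (S : Subgroup G) // y ≠ 1} × Subgroup.center G, F (Φ ⟨S, x⟩) =
      (Nat.card (Subgroup.center G) : ℂ) * (∑ y : 𝐐, F y - F 1) := by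
    intro S
    rw [Fintype.sum_prod_type]
    have h2 : ∀ y : {y : (S : Subgroup G) // y ≠ 1}, ∑ c : Subgroup.center G, F (Φ ⟨S, (y, c)⟩) =
        (Nat.card (Subgroup.center G) : ℂ) * F (y.1 : G) := by
      intro y
      have h3 : ∀ c : Subgroup.center G, F (Φ ⟨S, (y, c)⟩) = F (y.1 : G) := fun c => hZ _ _ c.2
      rw [sum_congr rfl (fun c _ => h3 c), sum_const, card_univ, nsmul_eq_mul, Nat.card_eq_fintype_card]
    rw [sum_congr rfl (fun y _ => h2 y), ← mul_sum]
    congr 1
    rw [← SC.sum_sylow_eq S F hF]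
    have h3 : ∑ y : {y : (S : Subgroup G) // y ≠ 1}, F (y.1 : G) = ∑ y ∈ (univ : Finset (S : Subgroup G)).erase 1, F (y : G) := by
      symm
      apply Finset.sum_subtype
      simp
    rw [h3, Finset.sum_erase_eq_sub (mem_univ _)]
    rfl
  rw [sum_congr rfl (fun S _ => hkey S), sum_const, card_univ, nsmul_eq_mul, Nat.card_eq_fintype_card (α := Sylow p G)]
  ring

end Core

end Cfsg.Agent.Lib.BT.PM2
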