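import Cfsg.Agent.Lib.BT.PM2B

/-! Faithful characters of degree `p - 2`: sums over `P`, and `G = G' Z`. -/

set_option autoImplicit false
set_option linter.unusedSectionVars false
set_option linter.unusedVariables false

namespace Cfsg.Agent.Lib.BT.PM2

open Cfsg Cfsg.Agent.Lib.Char Cfsg.Agent.Lib.Blocks Cfsg.Agent.Lib.DefOne Finset
open scoped ComplexConjugate

universe u

attribute [local instance] fintypeOfSubgroup

variable {G : Type u} [Group G] [Fintype G] {p : ℕ} [hp : Fact p.Prime] {P : Sylow p G}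

local notation "𝐐" => ((P : Subgroup G))
local notation "𝐂" => (Subgroup.centralizer (((P : Subgroup G)) : Set G))
local notation "𝐍" => (Subgroup.normalizer (((P : Subgroup G)) : Set G))

/-- The value of the character `a` of `P`. -/
noncomputable def xx (a : ((P : Subgroup G)) →* ℂˣ) (y : ((P : Subgroup G))) : ℂ := ((a y : ℂˣ) : ℂ)

/-- The power sums of the character `a`. -/
noncomputable def ss (a : ((P : Subgroup G)) →* ℂˣ) (k : ℤ) : ℂ := ∑ y : 𝐐, xx a y ^ k

/-- The real functions `a ^ j + a ^ (-j)`. -/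
noncomputable def eta (a : ((P : Subgroup G)) →* ℂˣ) (j : ℤ) (y : ((P : Subgroup G))) : ℂ := xx a y ^ j + xx a y ^ (-j)

/-- The absolute square of the character. -/
noncomputable def Fn (ζ : G → ℂ) (g : G) : ℂ := ζ g * conj (ζ g)

theorem xx_ne (a : 𝐐 →* ℂˣ) (y : 𝐐) : xx a y ≠ 0 := (a y).ne_zero

theorem eta_mul (a : 𝐐 →* ℂˣ) (i j : ℤ) (y : 𝐐) :
    eta a i y * eta a j y = xx a y ^ (i + j) + xx a y ^ (i - j) + xx a y ^ (j - i) + xx a y ^ (-i - j) := by
  have hx := xx_ne a y
  simp only [eta]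
  rw [zpow_add₀ hx, zpow_sub₀ hx, zpow_sub₀ hx, zpow_sub₀ hx, zpow_neg, zpow_neg]
  field_simp
  ring

theorem eta_zero (a : 𝐐 →* ℂˣ) (y : 𝐐) : eta a 0 y = 2 := by
  simp only [eta, neg_zero, zpow_zero]
  norm_num

theorem sum_eta (a : 𝐐 →* ℂˣ) (j : ℤ) : ∑ y : 𝐐, eta a j y = ss a j + ss a (-j) := by
  simp only [eta, ss, sum_add_distrib]

theorem sum_eta_mul (a : 𝐐 →* ℂˣ) (i j : ℤ) :
    ∑ y : 𝐐, eta a i y * eta a j y = ss a (i + j) + ss a (i - j) + ss a (j - i) + ss a (-i - j) := by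
  simp only [eta_mul, ss, sum_add_distrib]

theorem eta_one_val (a : 𝐐 →* ℂˣ) (j : ℤ) : eta a j (1 : 𝐐) = 2 := by
  simp only [eta, xx, map_one, Units.val_one, one_zpow]
  norm_num

namespace Core

variable {ζ : G → ℂ} {a : ((P : Subgroup G)) →* ℂˣ} (h : Core ζ a)

include h

theorem norm_xx (y : 𝐐) : ‖xx a y‖ = 1 := h.norm_a y

theorem conj_xx (y : 𝐐) : conj (xx a y) = (xx a y)⁻¹ := by
  exact (Complex.inv_eq_conj (h.norm_xx y)).symm

theorem conj_eta (j : ℤ) (y : 𝐐) : conj (eta a j y) = eta a j y := by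
  simp only [eta, map_add, map_zpow₀, h.conj_xx y]
  rw [inv_zpow', inv_zpow', neg_neg, add_comm]

theorem xx_pow_p (y : 𝐐) : xx a y ^ p = 1 := by
  have h1 : y ^ p = 1 := Subtype.ext (pow_p_of_mem h.card_P y.2)
  have h2 : (a y) ^ p = 1 := by rw [← map_pow, h1, map_one]
  simp only [xx]
  rw [← Units.val_pow_eq_pow_val, h2, Units.val_one]

theorem ss_of_dvd {k : ℤ} (hk : (p : ℤ) ∣ k) : ss a k = p := by
  obtain ⟨m, rfl⟩ := hk
  have h1 : ∀ y : 𝐐, xx a y ^ ((p : ℤ) * m) = 1 := by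
    intro y
    rw [zpow_mul, zpow_natCast, h.xx_pow_p y, one_zpow]
  simp only [ss, h1, sum_const, card_univ, nsmul_eq_mul, mul_one]
  rw [← Nat.card_eq_fintype_card, h.card_P]

theorem ss_of_not_dvd {k : ℤ} (hk : ¬ (p : ℤ) ∣ k) : ss a k = 0 := by
  classical
  have hpp : p.Prime := hp.out
  have hcop : IsCoprime k (p : ℤ) := by
    rw [isCoprime_comm]
    exact (Nat.prime_iff_prime_int.mp hpp).coprime_iff_not_dvd.mpr hk
  obtain ⟨r, s, hrs⟩ := hcop
  -- a nontrivial value of `a ^ k`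
  have hex : ∃ y₀ : 𝐐, xx a y₀ ^ k ≠ 1 := by
    by_contra hne
    push Not at hne
    apply h.a_ne
    ext y
    have h1 : xx a y = 1 := by
      have h2 : xx a y = (xx a y ^ k) ^ r * (xx a y ^ (p : ℤ)) ^ s := by
        rw [← zpow_mul, ← zpow_mul, ← zpow_add₀ (xx_ne a y), mul_comm k, mul_comm (p : ℤ), hrs, zpow_one]
      rw [h2, hne y, zpow_natCast, h.xx_pow_p y, one_zpow, one_zpow, one_mul]
    exact h1
  obtain ⟨y₀, hy₀⟩ := hex
  have h2 : xx a y₀ ^ k * ss a k = ss a k := by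
    simp only [ss]
    rw [mul_sum]
    refine Fintype.sum_equiv (Equiv.mulLeft y₀) _ _ fun y => ?_
    simp only [Equiv.coe_mulLeft, xx, map_mul, Units.val_mul]
    rw [mul_zpow]
  have h3 : (xx a y₀ ^ k - 1) * ss a k = 0 := by
    rw [sub_mul, h2, one_mul, sub_self]
  exact (mul_eq_zero.mp h3).resolve_left (sub_ne_zero.mpr hy₀)

theorem ss_small {k : ℤ} (h0 : k ≠ 0) (hk : |k| < p) : ss a k = 0 :=
  h.ss_of_not_dvd fun hd => h0 (Int.eq_zero_of_abs_lt_dvd hd hk)

theorem ss_zero : ss a 0 = p := h.ss_of_dvd (dvd_zero _)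

theorem sum_eta_sq : ∑ y : 𝐐, eta a 1 y * eta a 1 y = 2 * p := by
  have := h.p_ge
  have h1 : ((7 : ℕ) : ℤ) ≤ p := by exact_mod_cast this
  rw [sum_eta_mul, h.ss_small (k := 1 + 1) (by norm_num) (by rw [abs_of_pos (by norm_num)]; push_cast at h1; linarith),
    h.ss_small (k := -1 - 1) (by norm_num) (by rw [abs_of_neg (by norm_num)]; push_cast at h1; linarith), sub_self, h.ss_zero]
  ring

theorem eta_two (y : 𝐐) : eta a 2 y = eta a 1 y * eta a 1 y - 2 := by
  have h1 := eta_mul a 1 1 y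
  simp only [sub_self, zpow_zero] at h1
  rw [h1]
  simp only [eta]
  norm_num
  ring

theorem sum_eta_two_sq : ∑ y : 𝐐, eta a 2 y * eta a 2 y = 2 * p := by
  have := h.p_ge
  have h1 : ((7 : ℕ) : ℤ) ≤ p := by exact_mod_cast this
  rw [sum_eta_mul, h.ss_small (k := 2 + 2) (by norm_num) (by rw [abs_of_pos (by norm_num)]; push_cast at h1; linarith),
    h.ss_small (k := -2 - 2) (by norm_num) (by rw [abs_of_neg (by norm_num)]; push_cast at h1; linarith), sub_self, h.ss_zero]
  ring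

theorem sum_eta_two : ∑ y : 𝐐, eta a 2 y = 0 := by
  have := h.p_ge
  have h1 : ((7 : ℕ) : ℤ) ≤ p := by exact_mod_cast this
  rw [sum_eta, h.ss_small (k := 2) (by norm_num) (by rw [abs_of_pos (by norm_num)]; push_cast at h1; linarith),
    h.ss_small (k := -2) (by norm_num) (by rw [abs_of_neg (by norm_num)]; push_cast at h1; linarith)]
  ring

theorem sum_eta_fourth : ∑ y : 𝐐, (eta a 1 y * eta a 1 y) * (eta a 1 y * eta a 1 y) = 6 * p := by
  have h1 : ∀ y : 𝐐, (eta a 1 y * eta a 1 y) * (eta a 1 y * eta a 1 y) = eta a 2 y * eta a 2 y + 4 * eta a 2 y + 4 := by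
    intro y
    rw [h.eta_two y]
    ring
  simp only [h1, sum_add_distrib, ← mul_sum, h.sum_eta_two_sq, h.sum_eta_two, sum_const, card_univ, nsmul_eq_mul]
  rw [← Nat.card_eq_fintype_card, h.card_P]
  ring

/-- The central character. -/
theorem mul_center (g : G) {c : G} (hc : c ∈ Subgroup.center G) : ζ (g * c) = ζ c / ζ 1 * ζ g := by
  have h1 := apply_mul_of_mem_center h.irr hc g
  have h2 : ζ 1 ≠ 0 := IsIrrCharacter.apply_one_ne_zero h.irr
  field_simp
  linear_combination h1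

theorem norm_phi {c : G} (hc : c ∈ Subgroup.center G) : ‖ζ c / ζ 1‖ = 1 := by
  have h2 : ζ 1 ≠ 0 := IsIrrCharacter.apply_one_ne_zero h.irr
  rw [norm_div, FT.norm_of_mem_center h.irr hc, div_self (norm_ne_zero_iff.mpr h2)]

theorem Fn_class : IsClassFunction G (Fn ζ) := by
  intro g x
  simp only [Fn]
  rw [IsCharacter.isClassFunction (IsIrrCharacter.isCharacter h.irr) g x]

theorem Fn_center (g : G) {c : G} (hc : c ∈ Subgroup.center G) : Fn ζ (g * c) = Fn ζ g := by
  simp only [Fn]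
  rw [h.mul_center g hc, map_mul]
  have h1 : (ζ c / ζ 1) * conj (ζ c / ζ 1) = 1 := by
    rw [Complex.mul_conj, Complex.normSq_eq_norm_sq, h.norm_phi hc]
    simp
  linear_combination (ζ g * conj (ζ g)) * h1

theorem Fn_one : Fn ζ 1 = ((p - 2 : ℕ) : ℂ) ^ 2 := by
  simp only [Fn]
  rw [h.deg, Complex.conj_natCast, pow_two]

theorem Fn_val (y : 𝐐) (hy : y ≠ 1) : Fn ζ y = eta a 1 y * eta a 1 y := by
  simp only [Fn]
  have h1 : ζ y = - eta a 1 y := by
    rw [h.val y hy]
    simp only [eta, xx, zpow_one, zpow_neg, Units.val_inv_eq_inv_val]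
  rw [h1, map_neg, h.conj_eta]
  ring

theorem sum_Fn_P : ∑ y : 𝐐, Fn ζ y - Fn ζ 1 = 2 * p - 4 := by
  classical
  have h1 : ∑ y : 𝐐, Fn ζ y = Fn ζ ((1 : 𝐐) : G) + ∑ y ∈ (univ : Finset 𝐐).erase 1, Fn ζ y := by
    exact (Finset.add_sum_erase _ (fun y : 𝐐 => Fn ζ y) (mem_univ 1)).symm
  have h2 : ∑ y ∈ (univ : Finset 𝐐).erase 1, Fn ζ y = ∑ y ∈ (univ : Finset 𝐐).erase 1, eta a 1 y * eta a 1 y :=
    sum_congr rfl fun y hy => h.Fn_val y (ne_of_mem_erase hy)
  have h3 : ∑ y ∈ (univ : Finset 𝐐).erase 1, eta a 1 y * eta a 1 y = 2 * p - 4 := by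
    rw [Finset.sum_erase_eq_sub (mem_univ _), h.sum_eta_sq, eta_one_val]
    ring
  rw [h1, h2, h3]
  simp

/-- The sum of the absolute squares over the singular elements. -/
theorem sum_Fn_sing : ∑ g ∈ univ.filter (fun g : G => p ∣ orderOf g), Fn ζ g =
    (Nat.card (Sylow p G) : ℂ) * (Nat.card (Subgroup.center G) : ℂ) * (2 * p - 4) := by
  rw [h.sum_sing (Fn ζ) h.Fn_class (fun g c hc => h.Fn_center g hc), h.sum_Fn_P]

theorem sum_Fn : ∑ g : G, Fn ζ g = (Nat.card (Sylow p G) : ℂ) * (Nat.card (Subgroup.center G) : ℂ) * (2 * p) := by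
  have h1 := classInner_irr_self h.irr
  simp only [classInner] at h1
  have hc : (Nat.card G : ℂ) ≠ 0 := by exact_mod_cast Nat.card_pos.ne'
  have h2 : ∑ g : G, Fn ζ g = (Nat.card G : ℂ) := by
    simp only [Fn]
    field_simp at h1
    exact h1
  rw [h2, h.card_G]
  push_cast
  ring

/-- The sum of the absolute squares over the regular elements. -/
theorem sum_Fn_reg : ∑ g ∈ univ.filter (fun g : G => ¬ p ∣ orderOf g), Fn ζ g =
    (Nat.card (Sylow p G) : ℂ) * (Nat.card (Subgroup.center G) : ℂ) * 4 := by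
  classical
  have h1 := Finset.sum_filter_add_sum_filter_not (univ : Finset G) (fun g : G => p ∣ orderOf g) (Fn ζ)
  rw [h.sum_Fn_sing, h.sum_Fn] at h1
  linear_combination h1

/-- A singular element is the product of a `p`-element and a central element. -/
theorem exists_sing_decomp {g : G} (hg : p ∣ orderOf g) :
    ∃ (S : Sylow p G) (y c : G), y ∈ (S : Subgroup G) ∧ y ≠ 1 ∧ c ∈ Subgroup.center G ∧ g = y * c := by
  classical
  obtain ⟨k, hk⟩ := hg
  have hopos : 0 < orderOf g := orderOf_pos g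
  have hk0 : k ≠ 0 := by
    rintro rfl
    omega
  have h1 : orderOf (g ^ k) = p := by
    rw [orderOf_pow_of_dvd hk0 ⟨p, by rw [hk, mul_comm]⟩, hk]
    exact Nat.mul_div_cancel _ (Nat.pos_of_ne_zero hk0)
  have h2 : IsPGroup p (Subgroup.zpowers (g ^ k)) := by
    apply isPGroup_zpowers (p := p)
    exact ⟨1, by simpa using h1⟩
  obtain ⟨S, hS⟩ := IsPGroup.exists_le_sylow h2
  have h3 : g ^ k ∈ (S : Subgroup G) := hS (Subgroup.mem_zpowers _)
  have hSz := SmallSimple.eq_zpowers_of_card (h.card_sylow S) h3 h1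
  have hgC : g ∈ Subgroup.centralizer (((S : Subgroup G)) : Set G) := by
    rw [Subgroup.mem_centralizer_iff]
    intro s hs
    have hs' : s ∈ Subgroup.zpowers (g ^ k) := by
      rw [← hSz]
      exact hs
    obtain ⟨m, rfl⟩ := hs'
    exact ((Commute.refl g).pow_left k).zpow_left m
  obtain ⟨u, v, huv, hu, hv⟩ := exists_decomp (h.card_sylow S) ⟨g, hgC⟩
  have hv' : ¬ p ∣ orderOf (v : G) := by
    rw [Subgroup.orderOf_coe]
    exact hv
  have hvZ := h.cent_S S v.2 hv'
  have hguv : g = (u : G) * v := congrArg Subtype.val huv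
  have hu1 : (u : G) ≠ 1 := by
    intro e
    rw [e, one_mul] at hguv
    apply hv'
    rw [← hguv, hk]
    exact dvd_mul_right _ _
  exact ⟨S, u, v, hu, hu1, hvZ, hguv⟩

theorem exists_not_mem_cent : ∃ n : 𝐍, (n : G) ∉ 𝐂 := by
  by_contra hne
  push Not at hne
  have h6 : 𝐍 ≤ 𝐂 := fun n hn => hne ⟨n, hn⟩
  have h7 := Subgroup.card_le_of_le h6
  rw [h.idx] at h7
  have h8 : 0 < Nat.card 𝐂 := Nat.card_pos
  omega

/-- A subgroup of index two containing `P` and the center cannot exist. -/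
theorem index_two_absurd (L : Subgroup G) (hL : L.index = 2) (hPL : 𝐐 ≤ L) (hZL : Subgroup.center G ≤ L) : False := by
  classical
  have hpp : p.Prime := hp.out
  have hbig := h.big
  haveI hLn : L.Normal := Subgroup.normal_of_index_eq_two hL
  set n := Nat.card (Sylow p G) with hn
  set z := Nat.card (Subgroup.center G) with hz
  have hnpos : 0 < n := Nat.card_pos
  have hzpos : 0 < z := Nat.card_pos
  -- the singular elements lie in `L`
  have hsing : ∀ g : G, p ∣ orderOf g → g ∈ L := by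
    intro g hg
    obtain ⟨S, y, c, hy, -, hc, rfl⟩ := h.exists_sing_decomp hg
    refine L.mul_mem ?_ (hZL hc)
    obtain ⟨x, rfl⟩ := MulAction.exists_smul_eq G P S
    rw [mem_smul_sylow] at hy
    have h1 := hPL hy
    have h2 : y = x * (x⁻¹ * y * x) * x⁻¹ := by group
    rw [h2]
    exact hLn.conj_mem _ h1 x
  have hCL : 𝐂 ≤ L := by
    intro c hc
    obtain ⟨u, v, huv, hu, hv⟩ := exists_decomp h.card_P ⟨c, hc⟩
    have hv' : ¬ p ∣ orderOf (v : G) := by
      rw [Subgroup.orderOf_coe]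
      exact hv
    have h1 : c = (u : G) * v := congrArg Subtype.val huv
    rw [h1]
    exact L.mul_mem (hPL hu) (hZL (h.cent _ v.2 hv'))
  -- the normalizer is not contained in `L`
  have hNL : ∀ m : 𝐍, (m : G) ∉ 𝐂 → (m : G) ∉ L := by
    intro m hm hmL
    have hCidx : (𝐂.subgroupOf 𝐍).index = 2 := by
      have h1 := Subgroup.card_mul_index (𝐂.subgroupOf 𝐍)
      rw [Nat.card_congr (Subgroup.subgroupOfEquivOfLe (centralizer_le_normalizer_coe _)).toEquiv, h.idx, mul_comm 2] at h1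
      exact Nat.eq_of_mul_eq_mul_left Nat.card_pos h1
    have hN : 𝐍 ≤ L := by
      intro w hw
      by_cases hwC : w ∈ 𝐂
      · exact hCL hwC
      · have h2 := (Subgroup.mul_mem_iff_of_index_two hCidx (a := (⟨w, hw⟩ : 𝐍)) (b := m)).mpr
          ⟨fun h3 => absurd (Subgroup.mem_subgroupOf.mp h3) hwC, fun h3 => absurd (Subgroup.mem_subgroupOf.mp h3) hm⟩
        have h3 : w * m ∈ L := hCL (Subgroup.mem_subgroupOf.mp h2)
        have h4 : w = (w * m) * (m : G)⁻¹ := by group
        rw [h4]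
        exact L.mul_mem h3 (L.inv_mem hmL)
    have h5 : 𝐍 ⊔ L = ⊤ := Sylow.normalizer_sup_eq_top' P hPL
    rw [sup_eq_right.mpr hN] at h5
    rw [h5] at hL
    simp at hL
  -- the sums of the absolute squares inside and outside `L`
  have hFnn : ∀ g : G, Fn ζ g = ((‖ζ g‖ ^ 2 : ℝ) : ℂ) := by
    intro g
    simp only [Fn]
    rw [Complex.mul_conj, Complex.normSq_eq_norm_sq]
  have hcardG : Nat.card G = n * (2 * (p * z)) := h.card_G
  have hcardL : Nat.card L * 2 = Nat.card G := by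
    rw [← hL]
    exact Subgroup.card_mul_index L
  have hLcard : Nat.card L = n * (p * z) := by
    have h1 : 2 * Nat.card L = 2 * (n * (p * z)) := by
      rw [mul_comm, hcardL, hcardG]
      ring
    exact Nat.eq_of_mul_eq_mul_left (by norm_num) h1
  have hres := isCharacter_resFun L (IsIrrCharacter.isCharacter h.irr)
  obtain ⟨ν, hν⟩ := IsCharacter.classInner_nat hres hres
  have hLsum : ∑ g : G, (if g ∈ L then Fn ζ g else 0) = (Nat.card L : ℂ) * ν := by
    rw [sum_subgroup L _ (fun x hx => if_neg hx)]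
    have h1 : ∀ l : L, (if (l : G) ∈ L then Fn ζ l else 0) = (fun l : L => ζ l) l * conj ((fun l : L => ζ l) l) := by
      intro l
      rw [if_pos l.2]
      rfl
    rw [sum_congr rfl (fun l _ => h1 l)]
    have h2 : classInner (fun l : L => ζ l) (fun l : L => ζ l) = ν := hν
    simp only [classInner] at h2
    have hc : (Nat.card L : ℂ) ≠ 0 := by exact_mod_cast Nat.card_pos.ne'
    field_simp at h2
    linear_combination h2
  have hsplit : ∑ g : G, Fn ζ g = ∑ g : G, (if g ∈ L then Fn ζ g else 0) + ∑ g : G, (if g ∈ L then 0 else Fn ζ g) := by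
    rw [← sum_add_distrib]
    refine sum_congr rfl fun g _ => ?_
    by_cases hg : g ∈ L <;> simp [hg]
  -- the sum outside `L`
  set T : ℝ := ∑ g : G, (if g ∈ L then 0 else ‖ζ g‖ ^ 2) with hT
  have hT0 : 0 ≤ T := sum_nonneg fun g _ => by
    split_ifs
    · exact le_rfl
    · positivity
  have hTc : ∑ g : G, (if g ∈ L then 0 else Fn ζ g) = (T : ℂ) := by
    rw [hT]
    push_cast
    refine sum_congr rfl fun g _ => ?_
    by_cases hg : g ∈ L
    · simp [hg]
    · simp only [if_neg hg]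
      rw [hFnn g]
  have hTe : (T : ℂ) = ((n : ℂ) * z * (2 * p)) - ((n * (p * z) : ℕ) : ℂ) * ν := by
    rw [← hTc]
    have := hsplit
    rw [h.sum_Fn, hLsum, hLcard] at this
    rw [this]
    ring
  have hTreg : T ≤ (n : ℝ) * z * 4 := by
    have h1 := h.sum_Fn_reg
    have h2 : ∑ g ∈ univ.filter (fun g : G => ¬ p ∣ orderOf g), ‖ζ g‖ ^ 2 = (n : ℝ) * z * 4 := by
      have h3 : ((∑ g ∈ univ.filter (fun g : G => ¬ p ∣ orderOf g), ‖ζ g‖ ^ 2 : ℝ) : ℂ) = (((n : ℝ) * z * 4 : ℝ) : ℂ) := by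
        push_cast
        rw [← h1]
        refine sum_congr rfl fun g _ => ?_
        rw [hFnn g]
        push_cast
        rfl
      exact_mod_cast h3
    rw [← h2, hT, Finset.sum_filter]
    refine sum_le_sum fun g _ => ?_
    by_cases hg : g ∈ L
    · rw [if_pos hg]
      split_ifs <;> first | positivity | exact le_rfl
    · have h4 : ¬ p ∣ orderOf g := fun h5 => hg (hsing g h5)
      rw [if_neg hg, if_pos h4]
  -- real form of the formula
  have hTr : T = (n : ℝ) * z * (2 * p) - ((n : ℝ) * (p * z)) * ν := by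
    have h1 : (T : ℂ) = (((n : ℝ) * z * (2 * p) - ((n : ℝ) * (p * z)) * ν : ℝ) : ℂ) := by
      rw [hTe]
      push_cast
      ring
    exact_mod_cast h1
  have hnr : (0 : ℝ) < n := by exact_mod_cast hnpos
  have hzr : (0 : ℝ) < z := by exact_mod_cast hzpos
  have hpr : (7 : ℝ) ≤ p := by exact_mod_cast h.p_ge
  have hnzp : (0 : ℝ) < (n : ℝ) * z * p := by positivity
  -- `ν` is one or two
  have hν2 : (ν : ℝ) ≤ 2 := by
    by_contra hne
    push Not at hne
    have h1 : (n : ℝ) * z * (2 * p) < ((n : ℝ) * (p * z)) * ν := by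
      nlinarith
    linarith
  have hν0 : ν ≠ 0 := by
    rintro rfl
    have h1 : T = (n : ℝ) * z * (2 * p) := by
      rw [hTr]
      simp
    rw [h1] at hTreg
    have h2 : (n : ℝ) * z * (2 * p) ≤ n * z * 4 := hTreg
    have h3 : (0 : ℝ) < (n : ℝ) * z := by positivity
    nlinarith
  have hν2' : ν ≤ 2 := by exact_mod_cast hν2
  have hν1 : ν = 1 ∨ ν = 2 := by omega
  rcases hν1 with rfl | rfl
  · -- `ν = 1`
    have h1 : T = (n : ℝ) * z * p := by
      rw [hTr]
      push_cast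
      ring
    rw [h1] at hTreg
    have h3 : (0 : ℝ) < (n : ℝ) * z := by positivity
    nlinarith
  · -- `ν = 2`: the character vanishes outside `L`
    have h1 : T = 0 := by
      rw [hTr]
      push_cast
      ring
    have hvan : ∀ g : G, g ∉ L → Fn ζ g = 0 := by
      intro g hg
      have h2 := (Finset.sum_eq_zero_iff_of_nonneg (fun g _ => by
        split_ifs
        · exact le_rfl
        · positivity)).mp h1 g (mem_univ g)
      rw [if_neg hg] at h2
      rw [hFnn g, h2]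
      simp
    -- the restriction to the normalizer
    have hresN := isCharacter_resFun 𝐍 (IsIrrCharacter.isCharacter h.irr)
    obtain ⟨μ, hμ⟩ := IsCharacter.classInner_nat hresN hresN
    have hμ' : classInner (fun l : 𝐍 => ζ l) (fun l : 𝐍 => ζ l) = μ := hμ
    simp only [classInner] at hμ'
    have hc : (Nat.card 𝐍 : ℂ) ≠ 0 := by exact_mod_cast Nat.card_pos.ne'
    have h2 : ∑ l : 𝐍, Fn ζ l = (Nat.card 𝐍 : ℂ) * μ := by
      field_simp at hμ'
      simp only [Fn]
      linear_combination hμ'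
    have h3 : ∑ l : 𝐍, Fn ζ l = ∑ g : G, (if g ∈ 𝐍 then Fn ζ g else 0) := by
      rw [sum_subgroup 𝐍 _ (fun x hx => if_neg hx)]
      refine sum_congr rfl fun l _ => ?_
      rw [if_pos l.2]
    have h4 : ∑ g : G, (if g ∈ 𝐍 then Fn ζ g else 0) = ∑ g : G, (if g ∈ 𝐂 then Fn ζ g else 0) := by
      refine sum_congr rfl fun g _ => ?_
      by_cases hgN : g ∈ 𝐍
      · rw [if_pos hgN]
        by_cases hgC : g ∈ 𝐂
        · rw [if_pos hgC]
        · rw [if_neg hgC]
          exact hvan g (hNL ⟨g, hgN⟩ hgC)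
      · rw [if_neg hgN, if_neg (fun hgC => hgN (centralizer_le_normalizer_coe _ hgC))]
    have h5 : ∑ g : G, (if g ∈ 𝐂 then Fn ζ g else 0) = ∑ c : 𝐂, Fn ζ c := by
      rw [sum_subgroup 𝐂 _ (fun x hx => if_neg hx)]
      refine sum_congr rfl fun l _ => ?_
      rw [if_pos l.2]
    have hC : ∑ c : 𝐂, Fn ζ c = (z : ℂ) * (p * ((p - 2 : ℕ) : ℂ)) := by
      have hPZ : ∀ w : G, w ∈ 𝐐 → w ∈ Subgroup.center G → w = 1 := fun w => h.mem_center_eq_one
      let f : 𝐐 × Subgroup.center G → 𝐂 := fun x => ⟨(x.1 : G) * x.2, by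
        rw [Subgroup.mem_centralizer_iff]
        intro u hu
        have h1 : (x.1 : G) * u = u * x.1 := Small.BD.comm_of_prime (p := p) 𝐐 h.card_P _ x.1.2 _ hu
        have h2 : u * (x.2 : G) = x.2 * u := (Subgroup.mem_center_iff.mp x.2.2 u)
        calc u * ((x.1 : G) * x.2) = (u * x.1) * x.2 := by group
          _ = ((x.1 : G) * u) * x.2 := by rw [h1]
          _ = (x.1 : G) * (u * x.2) := by group
          _ = (x.1 : G) * (x.2 * u) := by rw [h2]
          _ = _ := by group⟩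
      have hf : Function.Bijective f := by
        constructor
        · rintro ⟨u, c⟩ ⟨u', c'⟩ he
          have h1 : (u : G) * c = u' * c' := congrArg Subtype.val he
          have h2 : (u' : G)⁻¹ * u = c' * (c : G)⁻¹ := by
            calc (u' : G)⁻¹ * u = (u' : G)⁻¹ * (u * c) * (c : G)⁻¹ := by group
              _ = (u' : G)⁻¹ * (u' * c') * (c : G)⁻¹ := by rw [h1]
              _ = _ := by group
          have h3 : (u' : G)⁻¹ * u ∈ 𝐐 := 𝐐.mul_mem (𝐐.inv_mem u'.2) u.2
          have h4 : (u' : G)⁻¹ * u ∈ Subgroup.center G := by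
            rw [h2]
            exact (Subgroup.center G).mul_mem c'.2 ((Subgroup.center G).inv_mem c.2)
          have h5 := hPZ _ h3 h4
          have h6 : (u : G) = u' := (inv_mul_eq_one.mp h5).symm
          have h7 : (c : G) = c' := by
            rw [h5] at h2
            exact (mul_inv_eq_one.mp h2.symm).symm
          exact Prod.ext (Subtype.ext h6) (Subtype.ext h7)
        · intro c
          obtain ⟨u, y, hc, hu, hy⟩ := exists_decomp h.card_P c
          have hy' : ¬ p ∣ orderOf (y : G) := by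
            rw [Subgroup.orderOf_coe]
            exact hy
          exact ⟨(⟨u, hu⟩, ⟨y, h.cent y y.2 hy'⟩), Subtype.ext (by rw [hc]; rfl)⟩
      rw [← Fintype.sum_bijective f hf (fun x => Fn ζ (f x)) _ (fun _ => rfl), Fintype.sum_prod_type]
      have h6 : ∀ u : 𝐐, ∑ c : Subgroup.center G, Fn ζ (f (u, c)) = (z : ℂ) * Fn ζ u := by
        intro u
        have h7 : ∀ c : Subgroup.center G, Fn ζ (f (u, c)) = Fn ζ u := fun c => h.Fn_center _ c.2
        rw [sum_congr rfl (fun c _ => h7 c), sum_const, card_univ, nsmul_eq_mul, hz, Nat.card_eq_fintype_card]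
      rw [sum_congr rfl (fun u _ => h6 u), ← mul_sum]
      congr 1
      have h7 := h.sum_Fn_P
      rw [h.Fn_one] at h7
      have h8 : ∑ y : 𝐐, Fn ζ y = ((p - 2 : ℕ) : ℂ) ^ 2 + (2 * p - 4) := by
        rw [← h7]
        ring
      rw [h8]
      have h9 : (p : ℂ) = ((p - 2 : ℕ) : ℂ) + 2 := by
        have : p = (p - 2) + 2 := by omega
        nth_rewrite 1 [this]
        push_cast
        ring
      generalize ((p - 2 : ℕ) : ℂ) = q at h9 ⊢
      rw [h9]
      ring
    rw [h3, h4, h5, hC, h.idx, h.card_centralizer] at h2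
    have h6 : (z : ℂ) * (p * ((p - 2 : ℕ) : ℂ)) = ((z * (p * (p - 2)) : ℕ) : ℂ) := by
      push_cast
      ring
    have h7 : ((2 * (p * z) : ℕ) : ℂ) * μ = ((2 * (p * z) * μ : ℕ) : ℂ) := by
      push_cast
      ring
    rw [h6, h7] at h2
    have h8 : z * (p * (p - 2)) = 2 * (p * z) * μ := by exact_mod_cast h2
    have h9 : (z * p) * (p - 2) = (z * p) * (2 * μ) := by
      calc (z * p) * (p - 2) = z * (p * (p - 2)) := by ring
        _ = 2 * (p * z) * μ := h8
        _ = _ := by ring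
    have h10 : p - 2 = 2 * μ := Nat.eq_of_mul_eq_mul_left (Nat.mul_pos hzpos hpp.pos) h9
    have h11 : Odd p := hpp.odd_of_ne_two h.odd_p
    obtain ⟨w, hw⟩ := h11
    omega

/-- `P` lies in the commutator subgroup. -/
theorem le_commutator : 𝐐 ≤ commutator G := by
  intro y hy
  obtain ⟨n, hn⟩ := h.exists_not_mem_cent
  have h1 := conj_inv_of_index_two h.card_P h.odd_p h.idx n hn ⟨y, hy⟩
  have h2 : (n : G) * y * (n : G)⁻¹ = y⁻¹ := congrArg Subtype.val h1
  have h3 : y⁻¹ * y⁻¹ ∈ commutator G := by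
    have h4 := Subgroup.commutator_mem_commutator (Subgroup.mem_top (n : G)) (Subgroup.mem_top y)
    rw [commutatorElement_def, h2] at h4
    exact h4
  obtain ⟨k, hk⟩ := hp.out.odd_of_ne_two h.odd_p
  have h5 : y ^ p = 1 := pow_p_of_mem h.card_P hy
  have h6 : (y⁻¹ * y⁻¹) ^ k = y := by
    have h7 : y ^ (2 * k) * y = 1 := by
      rw [← pow_succ, ← hk, h5]
    have h8 : y⁻¹ * y⁻¹ = (y ^ 2)⁻¹ := by
      rw [pow_two, mul_inv_rev]
    rw [h8, inv_pow, ← pow_mul]
    exact inv_eq_of_mul_eq_one_right h7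
  rw [← h6]
  exact Subgroup.pow_mem _ h3 k

/-- `G = G' Z`. -/
theorem sup_center_eq_top : commutator G ⊔ Subgroup.center G = ⊤ := by
  classical
  have hPL : 𝐐 ≤ commutator G ⊔ Subgroup.center G := h.le_commutator.trans le_sup_left
  have hZL : Subgroup.center G ≤ commutator G ⊔ Subgroup.center G := le_sup_right
  set L := commutator G ⊔ Subgroup.center G with hL
  haveI hLn : L.Normal := by
    rw [hL]
    infer_instance
  have hCL : 𝐂 ≤ L := by
    intro c hc
    obtain ⟨u, v, huv, hu, hv⟩ := exists_decomp h.card_P ⟨c, hc⟩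
    have hv' : ¬ p ∣ orderOf (v : G) := by
      rw [Subgroup.orderOf_coe]
      exact hv
    have h1 : c = (u : G) * v := congrArg Subtype.val huv
    rw [h1]
    exact L.mul_mem (hPL hu) (hZL (h.cent _ v.2 hv'))
  have hN : 𝐍 ⊔ L = ⊤ := Sylow.normalizer_sup_eq_top' P hPL
  have hCidx : 𝐂.relIndex 𝐍 = 2 := by
    have h1 := Subgroup.card_mul_index (𝐂.subgroupOf 𝐍)
    rw [Nat.card_congr (Subgroup.subgroupOfEquivOfLe (centralizer_le_normalizer_coe _)).toEquiv, h.idx, mul_comm 2] at h1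
    exact Nat.eq_of_mul_eq_mul_left Nat.card_pos h1
  have hidx : L.index ∣ 2 := by
    have h1 : L.relIndex (𝐍 ⊔ L) = L.relIndex 𝐍 := Subgroup.relIndex_sup_right 𝐍 L
    rw [hN, Subgroup.relIndex_top_right] at h1
    rw [h1, ← hCidx]
    exact Subgroup.relIndex_dvd_of_le_left _ hCL
  rcases (Nat.dvd_prime Nat.prime_two).mp hidx with h1 | h1
  · exact Subgroup.index_eq_one.mp h1
  · exact (h.index_two_absurd L h1 hPL hZL).elim

end Core

end Cfsg.Agent.Lib.BT.PM2
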