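import Cfsg.Agent.Lib.BT.PM2C
import Cfsg.Agent.Lib.BT.Tens
import Cfsg.Agent.Lib.Char.FrobeniusSchur
import Cfsg.Agent.Lib.Char.Galois

/-! Faithful characters of degree `p - 2`: the exterior square in the perfect case. -/

set_option autoImplicit false
set_option linter.unusedSectionVars false
set_option linter.unusedVariables false

namespace Cfsg.Agent.Lib.BT.PM2

open Cfsg Cfsg.Agent.Lib.Char Cfsg.Agent.Lib.Blocks Cfsg.Agent.Lib.DefOne Finset
open scoped ComplexConjugate

universe u

attribute [local instance] fintypeOfSubgroup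

section Idem

variable {G : Type u} [Group G] 

/-- A projection commuting with a representation defines a subrepresentation. -/
theorem isCharacter_of_idempotent {W : Type*} [AddCommGroup W] [Module ℂ W] [FiniteDimensional ℂ W]
    (σ : Representation ℂ G W) (π : W →ₗ[ℂ] W) (hπ : ∀ x, π (π x) = π x) (hc : ∀ g x, π (σ g x) = σ g (π x)) :
    IsCharacter G (fun g => LinearMap.trace ℂ W (π ∘ₗ σ g)) := by
  let U := LinearMap.range π
  have hm : ∀ g, ∀ u ∈ U, σ g u ∈ U := by
    rintro g _ ⟨x, rfl⟩
    exact ⟨σ g x, hc g x⟩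
  let σU : Representation ℂ G U :=
    { toFun := fun g => (σ g).restrict (hm g)
      map_one' := by
        ext u
        simp
      map_mul' := fun g g' => by
        ext u
        simp }
  have := isCharacter_character σU
  convert this using 1
  funext g
  show LinearMap.trace ℂ W (π ∘ₗ σ g) = LinearMap.trace ℂ U (σU g)
  have hfix : ∀ u ∈ U, π u = u := by
    rintro _ ⟨x, rfl⟩
    exact hπ x
  have h1 : π ∘ₗ σ g = U.subtype ∘ₗ (π.rangeRestrict ∘ₗ σ g) := by
    ext x
    rfl
  rw [h1, LinearMap.trace_comp_comm']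
  congr 1
  ext u
  show π (σ g u) = σ g u
  exact hfix _ (hm g _ u.2)

/-- The exterior square of a character. -/
theorem isCharacter_L2 {ζ : G → ℂ} (hζ : IsCharacter G ζ) :
    IsCharacter G (fun g => (ζ g ^ 2 - ζ (g * g)) / 2) := by
  obtain ⟨n, ρ, rfl⟩ := hζ
  have hτ : ∀ X : Matrix (Fin n) (Fin n) ℂ, transposeL (transposeL X) = X := fun X => by simp
  let π : Matrix (Fin n) (Fin n) ℂ →ₗ[ℂ] Matrix (Fin n) (Fin n) ℂ := (1 / 2 : ℂ) • (LinearMap.id - transposeL)
  have hπ : ∀ x, π x = (1 / 2 : ℂ) • (x - transposeL x) := fun x => rfl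
  have h1 := isCharacter_of_idempotent (congRep ρ) π (fun x => by
    rw [hπ, hπ, map_smul, map_sub, hτ, smul_sub, smul_sub, smul_sub, smul_smul]
    ext i j
    simp only [Matrix.sub_apply, Matrix.smul_apply, smul_eq_mul]
    ring) (fun g x => by
    rw [hπ, hπ, map_smul, map_sub, transpose_congRep])
  convert h1 using 1
  funext g
  have h2 : π ∘ₗ congRep ρ g = (1 / 2 : ℂ) • (congRep ρ g - transposeL ∘ₗ congRep ρ g) := by
    ext X
    rfl
  rw [h2, map_smul, map_sub, trace_congRep, trace_transpose_congRep, smul_eq_mul]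
  ring

/-- A homomorphism from a perfect group to an abelian group is trivial. -/
theorem perfect_hom_trivial {A : Type*} [CommGroup A] (hperf : commutator G = ⊤) (f : G →* A) (g : G) : f g = 1 := by
  have hle : commutator G ≤ f.ker := by
    rw [commutator_def, Subgroup.commutator_le]
    intro g₁ _ g₂ _
    rw [MonoidHom.mem_ker, map_commutatorElement, commutatorElement_eq_one_iff_commute]
    exact Commute.all _ _
  have h1 : g ∈ commutator G := by
    rw [hperf]
    exact Subgroup.mem_top g
  exact hle h1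

end Idem

/-- Congruence conditions on the exponents of the Galois conjugates. -/
structure WW (p α m' W j : ℕ) : Prop where
  mod_p : W ≡ j [MOD p]
  mod_two : W ≡ 1 [MOD 2 ^ α]
  mod_odd : W ≡ 2 [MOD m']

theorem exists_WW {p α m' : ℕ} (hm : Odd m') (hcp : Nat.Coprime p (2 ^ α * m')) (j : ℕ) : ∃ W, WW p α m' W j := by
  have h1 : Nat.Coprime (2 ^ α) m' := (Nat.coprime_two_left.mpr hm).pow_left α
  let k1 := Nat.chineseRemainder h1 1 2
  let k2 := Nat.chineseRemainder hcp j k1
  have h2 : (k2 : ℕ) ≡ j [MOD p] := k2.2.1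
  have h3 : (k2 : ℕ) ≡ k1 [MOD 2 ^ α * m'] := k2.2.2
  refine ⟨k2, h2, ?_, ?_⟩
  · exact (Nat.ModEq.of_mul_right m' h3).trans k1.2.1
  · exact (Nat.ModEq.of_mul_left (2 ^ α) h3).trans k1.2.2

variable {G : Type u} [Group G] [Fintype G] {p : ℕ} [hp : Fact p.Prime] {P : Sylow p G}

local notation "𝐐" => ((P : Subgroup G))
local notation "𝐂" => (Subgroup.centralizer (((P : Subgroup G)) : Set G))
local notation "𝐍" => (Subgroup.normalizer (((P : Subgroup G)) : Set G))

namespace Core

variable {ζ : G → ℂ} {a : ((P : Subgroup G)) →* ℂˣ} (h : Core ζ a)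

include h

/-- In a perfect group the center has exponent dividing the degree. -/
theorem center_pow (hperf : commutator G = ⊤) {c : G} (hc : c ∈ Subgroup.center G) : c ^ (p - 2) = 1 := by
  obtain ⟨n, ρ, hρ, hζ⟩ := id h.irr
  have hn : n = p - 2 := by
    have h1 := h.deg
    rw [← hζ, Representation.char_one] at h1
    have h2 : Module.finrank ℂ (Fin n → ℂ) = p - 2 := by exact_mod_cast h1
    simpa using h2
  let δ : G →* ℂ := (LinearMap.det : ((Fin n → ℂ) →ₗ[ℂ] (Fin n → ℂ)) →* ℂ).comp ρ
  have hδ : δ c = 1 := by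
    have h1 := perfect_hom_trivial hperf δ.toHomUnits c
    have h2 := congrArg Units.val h1
    simpa using h2
  have h1 : ‖ρ.character c‖ = (Module.finrank ℂ (Fin n → ℂ) : ℝ) := by
    have h2 := FT.norm_of_mem_center h.irr hc
    rw [← hζ, Representation.char_one] at h2
    rw [h2]
    simp
  obtain ⟨ω, hω⟩ := (norm_character_eq_finrank_iff ρ c).mp h1
  have h2 : ω ^ (p - 2) = 1 := by
    have h3 : δ c = ω ^ Module.finrank ℂ (Fin n → ℂ) := by
      show LinearMap.det (ρ c) = _
      rw [hω, LinearMap.det_smul, LinearMap.det_id, mul_one]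
    rw [hδ] at h3
    simp only [Module.finrank_fintype_fun_eq_card, Fintype.card_fin] at h3
    rw [← hn]
    exact h3.symm
  have h5 : ρ (c ^ (p - 2)) = LinearMap.id := by
    rw [map_pow, hω]
    ext v i
    simp [smul_pow, h2]
  apply h.faith
  rw [← hζ]
  show LinearMap.trace ℂ _ (ρ (c ^ (p - 2))) = LinearMap.trace ℂ _ (ρ 1)
  rw [h5, map_one]
  rfl

end Core

end Cfsg.Agent.Lib.BT.PM2
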