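import Cfsg.Agent.Lib.BT.PM2D

/-! Faithful characters of degree `p - 2`: the decomposition of the exterior square. -/

set_option autoImplicit false
set_option linter.unusedSectionVars false
set_option linter.unusedVariables false

namespace Cfsg.Agent.Lib.BT.PM2

open Cfsg Cfsg.Agent.Lib.Char Cfsg.Agent.Lib.Blocks Cfsg.Agent.Lib.DefOne Finset
open scoped ComplexConjugate

universe u

attribute [local instance] fintypeOfSubgroup

variable {G : Type u} [Group G] [Fintype G] {p : ℕ} [hp : Fact p.Prime] {P : Sylow p G}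

local notation "𝐐" => ((P : Subgroup G))
local notation "𝐂" => (Subgroup.centralizer (((P : Subgroup G)) : Set G))
local notation "𝐍" => (Subgroup.normalizer (((P : Subgroup G)) : Set G))

namespace Core

variable {ζ : G → ℂ} {a : ((P : Subgroup G)) →* ℂˣ} (h : Core ζ a)

include h

theorem odd_p' : Odd p := hp.out.odd_of_ne_two h.odd_p

/-- The value at a power of an element of `P`. -/
theorem zeta_pow (y : 𝐐) (hy : y ≠ 1) {j : ℕ} (h1 : 1 ≤ j) (hj : j < p) : ζ ((y : G) ^ j) = - eta a (j : ℤ) y := by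
  have hy' : (y : G) ≠ 1 := fun e => hy (Subtype.ext e)
  have hord : orderOf (y : G) = p := SmallSimple.orderOf_eq_of_mem_sylow h.card_P y.2 hy'
  have hne : y ^ j ≠ 1 := by
    intro e
    have h2 : (y : G) ^ j = 1 := congrArg Subtype.val e
    have h3 := orderOf_dvd_of_pow_eq_one h2
    rw [hord] at h3
    have := Nat.le_of_dvd (by omega) h3
    omega
  have h2 := h.val (y ^ j) hne
  have h3 : ((y ^ j : 𝐐) : G) = (y : G) ^ j := rfl
  rw [h3] at h2
  rw [h2]
  simp only [eta, xx, map_pow, Units.val_pow_eq_pow_val, Units.val_inv_eq_inv_val, zpow_neg, zpow_natCast, inv_pow]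

theorem zeta_val (y : 𝐐) (hy : y ≠ 1) : ζ (y : G) = - eta a 1 y := by
  have := h.zeta_pow y hy (j := 1) le_rfl (by have := h.big; omega)
  simpa using this

theorem zeta_sq (y : 𝐐) (hy : y ≠ 1) : ζ ((y : G) * y) = - eta a 2 y := by
  have := h.zeta_pow y hy (j := 2) (by norm_num) (by have := h.big; omega)
  rw [pow_two] at this
  simpa using this

/-- The value of the exterior square on `P`. -/
theorem L2_val (y : 𝐐) (hy : y ≠ 1) : (ζ (y : G) ^ 2 - ζ ((y : G) * y)) / 2 = 1 + eta a 2 y := by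
  rw [h.zeta_val y hy, h.zeta_sq y hy, h.eta_two y]
  ring

theorem sum_eta_eta {t i j : ℕ} (hpt : p = 2 * t + 1) (hi : 1 ≤ i) (hit : i ≤ t) (hj : 1 ≤ j) (hjt : j ≤ t) :
    ∑ y : 𝐐, eta a (i : ℤ) y * eta a (j : ℤ) y = if i = j then 2 * (p : ℂ) else 0 := by
  have hpz : (p : ℤ) = 2 * t + 1 := by exact_mod_cast hpt
  rw [sum_eta_mul, h.ss_small (k := (i : ℤ) + j) (by omega) (abs_lt.mpr ⟨by omega, by omega⟩),
    h.ss_small (k := -(i : ℤ) - j) (by omega) (abs_lt.mpr ⟨by omega, by omega⟩)]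
  by_cases hij : i = j
  · subst hij
    rw [if_pos rfl, sub_self, h.ss_zero]
    ring
  · rw [if_neg hij, h.ss_small (k := (i : ℤ) - j) (by omega) (abs_lt.mpr ⟨by omega, by omega⟩),
      h.ss_small (k := (j : ℤ) - i) (by omega) (abs_lt.mpr ⟨by omega, by omega⟩)]
    ring

theorem sum_eta_single {t j : ℕ} (hpt : p = 2 * t + 1) (hj : 1 ≤ j) (hjt : j ≤ t) :
    ∑ y : 𝐐, eta a (j : ℤ) y = 0 := by
  have hpz : (p : ℤ) = 2 * t + 1 := by exact_mod_cast hpt
  rw [sum_eta, h.ss_small (k := (j : ℤ)) (by omega) (abs_lt.mpr ⟨by omega, by omega⟩),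
    h.ss_small (k := -(j : ℤ)) (by omega) (abs_lt.mpr ⟨by omega, by omega⟩)]
  ring

variable {α m' : ℕ} (hN : Nat.card G = p * (2 ^ α * m')) (hm : Odd m')

include hN hm

theorem coprime_rest : Nat.Coprime p (2 ^ α * m') := by
  rw [Nat.Prime.coprime_iff_not_dvd hp.out]
  have h1 := Subgroup.card_mul_index 𝐐
  rw [h.card_P, hN] at h1
  have h2 : (𝐐).index = 2 ^ α * m' := Nat.eq_of_mul_eq_mul_left hp.out.pos h1
  rw [← h2]
  exact P.not_dvd_index

theorem dvd_rest {g : G} (hg : ¬ p ∣ orderOf g) : orderOf g ∣ 2 ^ α * m' := by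
  have h1 : orderOf g ∣ p * (2 ^ α * m') := hN ▸ orderOf_dvd_natCard g
  exact Nat.Coprime.dvd_of_dvd_mul_left ((Nat.Prime.coprime_iff_not_dvd hp.out).mpr hg).symm h1

theorem pow_W_reg {W W' j j' : ℕ} (hW : WW p α m' W j) (hW' : WW p α m' W' j') {g : G} (hg : ¬ p ∣ orderOf g) :
    g ^ W = g ^ W' := by
  have h1 : Nat.Coprime (2 ^ α) m' := (Nat.coprime_two_left.mpr hm).pow_left α
  have h2 : W ≡ W' [MOD 2 ^ α * m'] :=
    (Nat.modEq_and_modEq_iff_modEq_mul h1).mp ⟨hW.mod_two.trans hW'.mod_two.symm, hW.mod_odd.trans hW'.mod_odd.symm⟩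
  exact pow_eq_pow_of_modEq h2 (orderOf_dvd_iff_pow_eq_one.mp (h.dvd_rest hN hm hg))

theorem pow_W_odd {W j : ℕ} (hW : WW p α m' W j) {g : G} (hg : ¬ p ∣ orderOf g) (hodd : Odd (orderOf g)) :
    g ^ W = g ^ 2 := by
  have h1 : orderOf g ∣ 2 ^ α * m' := h.dvd_rest hN hm hg
  have h2 : Nat.Coprime (orderOf g) (2 ^ α) := ((Nat.coprime_two_left.mpr hodd).pow_left α).symm
  have h3 : orderOf g ∣ m' := h2.dvd_of_dvd_mul_left h1
  exact pow_eq_pow_of_modEq hW.mod_odd (orderOf_dvd_iff_pow_eq_one.mp h3)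

theorem pow_W_two {W j k : ℕ} (hW : WW p α m' W j) {g : G} (hk : orderOf g = 2 ^ k) : g ^ W = g := by
  have h1 : orderOf g ∣ p * (2 ^ α * m') := hN ▸ orderOf_dvd_natCard g
  have h2 : p * (2 ^ α * m') = 2 ^ α * (p * m') := by ring
  rw [h2] at h1
  have h3 : Nat.Coprime (orderOf g) (p * m') := by
    rw [hk]
    exact Nat.Coprime.pow_left k (Nat.coprime_two_left.mpr (h.odd_p'.mul hm))
  have h4 : orderOf g ∣ 2 ^ α := h3.dvd_of_dvd_mul_right h1
  have h5 := pow_eq_pow_of_modEq hW.mod_two (orderOf_dvd_iff_pow_eq_one.mp h4)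
  rwa [pow_one] at h5

theorem odd_p_sub_two : Odd (p - 2) := by
  obtain ⟨k, hk⟩ := h.odd_p'
  have := h.big
  exact ⟨k - 1, by omega⟩

theorem pow_W_center (hperf : commutator G = ⊤) {W j : ℕ} (hW : WW p α m' W j) {c : G} (hc : c ∈ Subgroup.center G) :
    c ^ W = c ^ 2 := by
  refine h.pow_W_odd hN hm hW (h.not_dvd_orderOf_center hc) ?_
  exact (h.odd_p_sub_two hN hm).of_dvd_nat (orderOf_dvd_of_pow_eq_one (h.center_pow hperf hc))

theorem coprime_W {W j : ℕ} (hW : WW p α m' W j) (hj : 1 ≤ j) (hjp : j < p) : Nat.Coprime W (Nat.card G) := by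
  rw [hN]
  apply Nat.Coprime.mul_right
  · have h1 : Nat.gcd W p = Nat.gcd j p := hW.mod_p.gcd_eq
    show Nat.gcd W p = 1
    rw [h1]
    exact Nat.Coprime.symm ((Nat.Prime.coprime_iff_not_dvd hp.out).mpr fun h2 => by
      have := Nat.le_of_dvd (by omega) h2
      omega)
  · apply Nat.Coprime.mul_right
    · have h1 : Nat.gcd W (2 ^ α) = Nat.gcd 1 (2 ^ α) := hW.mod_two.gcd_eq
      show Nat.gcd W (2 ^ α) = 1
      rw [h1]
      simp
    · have h1 : Nat.gcd W m' = Nat.gcd 2 m' := hW.mod_odd.gcd_eq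
      show Nat.gcd W m' = 1
      rw [h1]
      exact Nat.coprime_two_left.mpr hm

/-- The singular part of the inner product of the exterior square with a Galois conjugate. -/
theorem sum_F_sing (hperf : commutator G = ⊤) {t W j : ℕ} (hpt : p = 2 * t + 1) (hW : WW p α m' W j) (hj : 1 ≤ j) (hjt : j ≤ t) :
    ∑ g ∈ univ.filter (fun g : G => p ∣ orderOf g), ((ζ g ^ 2 - ζ (g * g)) / 2) * conj (ζ (g ^ W)) =
      (Nat.card (Sylow p G) : ℂ) * (Nat.card (Subgroup.center G) : ℂ) * (6 - if 2 = j then 2 * (p : ℂ) else 0) := by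
  classical
  have hcls := IsCharacter.isClassFunction (IsIrrCharacter.isCharacter h.irr)
  have ht3 : 1 ≤ t := by
    have := h.big
    omega
  rw [h.sum_sing (fun g => ((ζ g ^ 2 - ζ (g * g)) / 2) * conj (ζ (g ^ W))) ?_ ?_]
  · congr 1
    have h1 : ∑ y : 𝐐, ((ζ (y : G) ^ 2 - ζ ((y : G) * y)) / 2) * conj (ζ ((y : G) ^ W)) =
        ((ζ ((1 : 𝐐) : G) ^ 2 - ζ (((1 : 𝐐) : G) * ((1 : 𝐐) : G))) / 2) * conj (ζ (((1 : 𝐐) : G) ^ W)) +
        ∑ y ∈ (univ : Finset 𝐐).erase 1, ((ζ (y : G) ^ 2 - ζ ((y : G) * y)) / 2) * conj (ζ ((y : G) ^ W)) :=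
      (Finset.add_sum_erase _ (fun y : 𝐐 => ((ζ (y : G) ^ 2 - ζ ((y : G) * y)) / 2) * conj (ζ ((y : G) ^ W))) (mem_univ 1)).symm
    have hjp : j < p := by omega
    have h2 : ∀ y ∈ (univ : Finset 𝐐).erase 1, ((ζ (y : G) ^ 2 - ζ ((y : G) * y)) / 2) * conj (ζ ((y : G) ^ W)) =
        -((1 + eta a 2 y) * eta a (j : ℤ) y) := by
      intro y hy
      have hy1 : y ≠ 1 := ne_of_mem_erase hy
      rw [h.L2_val y hy1]
      have hyW : (y : G) ^ W = (y : G) ^ j := pow_eq_pow_of_modEq hW.mod_p (pow_p_of_mem h.card_P y.2)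
      rw [hyW, h.zeta_pow y hy1 hj hjp, map_neg, h.conj_eta]
      ring
    rw [sum_congr rfl h2, Finset.sum_erase_eq_sub (mem_univ _)] at h1
    have h3 : ∑ y : 𝐐, (-((1 + eta a 2 y) * eta a (j : ℤ) y)) = -(if 2 = j then 2 * (p : ℂ) else 0) := by
      have h4 : ∀ y : 𝐐, -((1 + eta a 2 y) * eta a (j : ℤ) y) = -eta a (j : ℤ) y - eta a ((2 : ℕ) : ℤ) y * eta a (j : ℤ) y := by
        intro y
        push_cast
        ring
      simp only [h4]
      rw [sum_sub_distrib, sum_neg_distrib, h.sum_eta_single hpt hj hjt,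
        h.sum_eta_eta hpt (i := 2) (by norm_num) (by have := h.big; omega) hj hjt]
      ring
    rw [h3, eta_one_val, eta_one_val] at h1
    rw [h1]
    simp only [OneMemClass.coe_one, one_pow, mul_one]
    ring
  · intro g x
    beta_reduce
    have h1 : (x * g * x⁻¹) * (x * g * x⁻¹) = x * (g * g) * x⁻¹ := by group
    rw [h1, hcls, hcls, conj_pow, hcls]
  · intro g c hc
    beta_reduce
    have hcomm : Commute g c := (Subgroup.mem_center_iff.mp hc g)
    have h1 : ζ (g * c) = ζ c / ζ 1 * ζ g := h.mul_center g hc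
    have h2 : ζ ((g * c) * (g * c)) = ζ (c * c) / ζ 1 * ζ (g * g) := by
      have h3 : (g * c) * (g * c) = (g * g) * (c * c) := by
        calc (g * c) * (g * c) = g * (c * g) * c := by group
          _ = g * (g * c) * c := by rw [hcomm.eq]
          _ = _ := by group
      rw [h3]
      exact h.mul_center _ ((Subgroup.center G).mul_mem hc hc)
    have h4 : ζ (c * c) = ζ c * ζ c / ζ 1 := by
      have h5 := h.mul_center c hc
      rw [h5]
      ring
    have h6 : ζ ((g * c) ^ W) = ζ (c * c) / ζ 1 * ζ (g ^ W) := by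
      rw [hcomm.mul_pow, h.pow_W_center hN hm hperf hW hc, pow_two]
      exact h.mul_center _ ((Subgroup.center G).mul_mem hc hc)
    have hφ : (ζ c / ζ 1) * conj (ζ c / ζ 1) = 1 := by
      rw [Complex.mul_conj, Complex.normSq_eq_norm_sq, h.norm_phi hc]
      simp
    rw [h1, h2, h6, h4, map_mul]
    have h0 : ζ 1 ≠ 0 := IsIrrCharacter.apply_one_ne_zero h.irr
    have h7 : ζ c * ζ c / ζ 1 / ζ 1 = (ζ c / ζ 1) ^ 2 := by
      field_simp
    rw [h7, map_pow]
    have h8 : (ζ c / ζ 1) ^ 2 * conj (ζ c / ζ 1) ^ 2 = 1 := by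
      rw [← mul_pow, hφ, one_pow]
    generalize ζ c / ζ 1 = φ at *
    generalize conj φ = ψ at *
    linear_combination ((ζ g ^ 2 - ζ (g * g)) / 2 * conj (ζ (g ^ W))) * h8

/-- **(R1)**: the exterior square on the regular elements. -/
theorem R1 (hperf : commutator G = ⊤) {u : ℕ} (hu : WW p α m' u 1) {g : G} (hg : ¬ p ∣ orderOf g) :
    ζ g ^ 2 - ζ (g * g) = ((p : ℂ) - 3) * ζ (g ^ u) := by
  classical
  have hbig := h.big
  obtain ⟨t, hpt⟩ := h.odd_p'
  have ht3 : 3 ≤ t := by omega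
  obtain ⟨s, rfl⟩ : ∃ s, t = s + 1 := ⟨t - 1, by omega⟩
  have hcop := h.coprime_rest hN hm
  choose W hW using fun j : ℕ => exists_WW hm hcop j
  have hirr : ∀ j, 1 ≤ j → j ≤ s + 1 → IsIrrCharacter G (fun g => ζ (g ^ W j)) := fun j h1 h2 =>
    isIrrCharacter_pow h.irr (h.coprime_W hN hm (hW j) h1 (by omega))
  let E : ℕ → IrrCharacter G := fun j => if hj : 1 ≤ j ∧ j ≤ s + 1 then ⟨fun g => ζ (g ^ W j), hirr j hj.1 hj.2⟩ else ⟨ζ, h.irr⟩
  have hE : ∀ j, 1 ≤ j → j ≤ s + 1 → (E j : G → ℂ) = fun g => ζ (g ^ W j) := by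
    intro j h1 h2
    simp only [E]
    rw [dif_pos ⟨h1, h2⟩]
  -- distinctness
  have hEinj : ∀ i j, 1 ≤ i → i ≤ s + 1 → 1 ≤ j → j ≤ s + 1 → E i = E j → i = j := by
    intro i j hi hit hj hjt he
    by_contra hij
    have h1 : (fun g => ζ (g ^ W i)) = fun g => ζ (g ^ W j) := by
      rw [← hE i hi hit, ← hE j hj hjt, he]
    have h2 : ∀ y : 𝐐, eta a (i : ℤ) y = eta a (j : ℤ) y := by
      intro y
      by_cases hy : y = 1
      · rw [hy, eta_one_val, eta_one_val]
      · have h3 := congrFun h1 (y : G)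
        have hyW : ∀ k, (y : G) ^ W k = (y : G) ^ k := fun k =>
          pow_eq_pow_of_modEq (hW k).mod_p (pow_p_of_mem h.card_P y.2)
        rw [hyW, hyW, h.zeta_pow y hy hi (by omega), h.zeta_pow y hy hj (by omega)] at h3
        exact neg_injective h3
    have h3 := h.sum_eta_eta (t := s + 1) hpt hi hit hi hit
    have h4 := h.sum_eta_eta (t := s + 1) hpt hi hit hj hjt
    rw [if_pos rfl] at h3
    rw [if_neg hij] at h4
    simp only [← h2] at h4
    rw [h3] at h4
    have h5 : (p : ℂ) ≠ 0 := by exact_mod_cast hp.out.ne_zero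
    have h6 : (2 : ℂ) * p ≠ 0 := mul_ne_zero two_ne_zero h5
    exact h6 h4
  -- the exterior square
  have hL2 := isCharacter_L2 (IsIrrCharacter.isCharacter h.irr)
  obtain ⟨mm, hd⟩ := exists_dec hL2
  have hcG : (Nat.card G : ℂ) ≠ 0 := by exact_mod_cast Nat.card_pos.ne'
  set n := Nat.card (Sylow p G) with hn
  set z := Nat.card (Subgroup.center G) with hz
  -- the regular part is independent of `j`
  set R : ℂ := ∑ g ∈ univ.filter (fun g : G => ¬ p ∣ orderOf g), ((ζ g ^ 2 - ζ (g * g)) / 2) * conj (ζ (g ^ u)) with hR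
  have hinner : ∀ j, 1 ≤ j → j ≤ s + 1 → (Nat.card G : ℂ) * (mm (E j) : ℂ) = R + (n : ℂ) * z * (6 - if 2 = j then 2 * (p : ℂ) else 0) := by
    intro j hj hjt
    have h1 := hd.inner (E j)
    rw [hE j hj hjt] at h1
    simp only [classInner] at h1
    rw [← h1, mul_inv_cancel_left₀ hcG, ← Finset.sum_filter_add_sum_filter_not univ (fun g : G => p ∣ orderOf g), add_comm]
    congr 1
    · refine sum_congr rfl fun g hg => ?_
      rw [h.pow_W_reg hN hm (hW j) hu (mem_filter.mp hg).2]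
    · exact h.sum_F_sing hN hm hperf hpt (hW j) hj hjt
  have hcardG : (Nat.card G : ℂ) = (n : ℂ) * z * (2 * p) := by
    have := h.card_G
    rw [this]
    push_cast
    ring
  have hmm2 : ∀ j, 1 ≤ j → j ≤ s + 1 → j ≠ 2 → mm (E j) = mm (E 2) + 1 := by
    intro j hj hjt hj2
    have h1 := hinner j hj hjt
    have h2 := hinner 2 (by norm_num) (by omega)
    rw [if_neg (Ne.symm hj2)] at h1
    rw [if_pos rfl] at h2
    have h3 : (Nat.card G : ℂ) * ((mm (E j) : ℂ) - ((mm (E 2) : ℂ) + 1)) = 0 := by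
      rw [mul_sub, mul_add, h1, h2, hcardG]
      ring
    have h4 := (mul_eq_zero.mp h3).resolve_left hcG
    have h5 : (mm (E j) : ℂ) = ((mm (E 2) + 1 : ℕ) : ℂ) := by
      push_cast
      linear_combination h4
    exact_mod_cast h5
  -- the degrees
  have hq : p - 2 = 2 * s + 1 := by omega
  have hdegE : ∀ j, 1 ≤ j → j ≤ s + 1 → charDegree (E j : G → ℂ) = 2 * s + 1 := by
    intro j hj hjt
    have h1 := apply_one_eq_charDegree (IsIrrCharacter.isCharacter (E j).2)
    rw [hE j hj hjt] at h1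
    simp only [one_pow] at h1
    rw [h.deg, hq] at h1
    have h2 : charDegree (fun g => ζ (g ^ W j)) = 2 * s + 1 := by exact_mod_cast h1.symm
    rw [hE j hj hjt]
    exact h2
  have hL1 : ((ζ (1 : G)) ^ 2 - ζ ((1 : G) * 1)) / 2 = (((2 * s + 1) * s : ℕ) : ℂ) := by
    rw [mul_one, h.deg, hq]
    push_cast
    ring
  have hdsum := hd.deg (D₀ := (2 * s + 1) * s) hL1
  -- the characters which occur
  set J : Finset ℕ := (Finset.Icc 1 (s + 1)).erase 2 with hJ
  have hJmem : ∀ j, j ∈ J ↔ (1 ≤ j ∧ j ≤ s + 1) ∧ j ≠ 2 := by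
    intro j
    rw [hJ, mem_erase, mem_Icc]
    tauto
  have hJcard : J.card = s := by
    rw [hJ, card_erase_of_mem (by rw [mem_Icc]; omega), Nat.card_Icc]
    omega
  set T : Finset (IrrCharacter G) := J.image E with hT
  have hinjOn : Set.InjOn E (J : Set ℕ) := by
    intro i hi j hj he
    have hi' := (hJmem i).mp hi
    have hj' := (hJmem j).mp hj
    exact hEinj i j hi'.1.1 hi'.1.2 hj'.1.1 hj'.1.2 he
  have hTcard : T.card = s := by
    rw [hT, card_image_of_injOn hinjOn, hJcard]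
  have hle : ∀ χ ∈ (univ : Finset (IrrCharacter G)), (if χ ∈ T then charDegree (χ : G → ℂ) else 0) ≤ mm χ * charDegree (χ : G → ℂ) := by
    intro χ _
    by_cases hχ : χ ∈ T
    · rw [if_pos hχ]
      obtain ⟨j, hj, rfl⟩ := mem_image.mp hχ
      have hj' := (hJmem j).mp hj
      have := hmm2 j hj'.1.1 hj'.1.2 hj'.2
      rw [this]
      nlinarith [Nat.zero_le (mm (E 2) * charDegree (E j : G → ℂ))]
    · rw [if_neg hχ]
      exact Nat.zero_le _
  have hsum : ∑ χ : IrrCharacter G, (if χ ∈ T then charDegree (χ : G → ℂ) else 0) = (2 * s + 1) * s := by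
    rw [Finset.sum_ite_mem, univ_inter]
    have h1 : ∀ χ ∈ T, charDegree (χ : G → ℂ) = 2 * s + 1 := by
      intro χ hχ
      obtain ⟨j, hj, rfl⟩ := mem_image.mp hχ
      have hj' := (hJmem j).mp hj
      exact hdegE j hj'.1.1 hj'.1.2
    rw [sum_congr rfl h1, sum_const, hTcard, smul_eq_mul, mul_comm]
  have heq := (Finset.sum_eq_sum_iff_of_le hle).mp (by rw [hsum, hdsum])
  have hmmT : ∀ χ : IrrCharacter G, (mm χ : ℂ) = if χ ∈ T then 1 else 0 := by
    intro χ
    have h1 := heq χ (mem_univ χ)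
    have h2 : 0 < charDegree (χ : G → ℂ) := charDegree_pos χ.2
    by_cases hχ : χ ∈ T
    · rw [if_pos hχ] at h1 ⊢
      have h3 : mm χ = 1 := by
        have h4 : 1 * charDegree (χ : G → ℂ) = mm χ * charDegree (χ : G → ℂ) := by rw [one_mul]; exact h1
        exact (Nat.eq_of_mul_eq_mul_right h2 h4).symm
      rw [h3]
      simp
    · rw [if_neg hχ] at h1 ⊢
      have h3 : mm χ = 0 := by
        have h4 := h1.symm
        exact (Nat.mul_eq_zero.mp h4).resolve_right h2.ne'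
      rw [h3]
      simp
  have happ := hd.apply g
  have h1 : ∑ χ : IrrCharacter G, (mm χ : ℂ) * (χ : G → ℂ) g = ∑ χ ∈ T, (χ : G → ℂ) g := by
    rw [← Finset.sum_filter_add_sum_filter_not univ (fun χ : IrrCharacter G => χ ∈ T)]
    have h2 : (univ.filter (fun χ : IrrCharacter G => χ ∈ T)) = T := by
      ext χ
      simp
    rw [h2]
    have h3 : ∑ χ ∈ univ.filter (fun χ : IrrCharacter G => ¬ χ ∈ T), (mm χ : ℂ) * (χ : G → ℂ) g = 0 := by
      refine sum_eq_zero fun χ hχ => ?_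
      rw [hmmT, if_neg (mem_filter.mp hχ).2, zero_mul]
    rw [h3, add_zero]
    refine sum_congr rfl fun χ hχ => ?_
    rw [hmmT, if_pos hχ, one_mul]
  rw [h1, hT, sum_image hinjOn] at happ
  have h2 : ∀ j ∈ J, (E j : G → ℂ) g = ζ (g ^ u) := by
    intro j hj
    have hj' := (hJmem j).mp hj
    rw [hE j hj'.1.1 hj'.1.2]
    show ζ (g ^ W j) = _
    rw [h.pow_W_reg hN hm (hW j) hu hg]
  rw [sum_congr rfl h2, sum_const, hJcard, nsmul_eq_mul] at happ
  have h3 : (p : ℂ) = 2 * s + 3 := by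
    rw [hpt]
    push_cast
    ring
  rw [h3]
  linear_combination 2 * happ

end Core

end Cfsg.Agent.Lib.BT.PM2
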