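import Cfsg.Agent.Lib.BT.PM2E

/-! Faithful characters of degree `p - 2`: the values on the regular elements. -/

set_option autoImplicit false
set_option linter.unusedSectionVars false
set_option linter.unusedVariables false

namespace Cfsg.Agent.Lib.BT.PM2

open Cfsg Cfsg.Agent.Lib.Char Cfsg.Agent.Lib.Blocks Cfsg.Agent.Lib.DefOne Finset
open scoped ComplexConjugate

universe u

attribute [local instance] fintypeOfSubgroup

/-- The sum of the squares of unit complex numbers whose sum is large. -/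
theorem eigen_ineq {ι : Type*} [Fintype ι] (e : ι → ℂ) (he : ∀ i, ‖e i‖ = 1) (hd : 2 ≤ Fintype.card ι)
    (hS : ‖∑ i, e i‖ = (Fintype.card ι : ℝ) - 1) : (Fintype.card ι : ℝ) - 4 ≤ ‖∑ i, (e i) ^ 2‖ := by
  set S := ∑ i, e i with hSdef
  have hd' : (2 : ℝ) ≤ Fintype.card ι := by exact_mod_cast hd
  have hnS : (0 : ℝ) < ‖S‖ := by
    rw [hS]
    linarith
  have hS0 : (‖S‖ : ℂ) ≠ 0 := by exact_mod_cast hnS.ne'
  set w : ℂ := conj S / (‖S‖ : ℂ) with hw
  have hwn : ‖w‖ = 1 := by
    rw [hw, norm_div, Complex.norm_conj, Complex.norm_real, norm_norm, div_self hnS.ne']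
  have hwS : w * S = (‖S‖ : ℂ) := by
    rw [hw]
    have h1 : conj S * S = (‖S‖ : ℂ) ^ 2 := by
      rw [mul_comm, Complex.mul_conj, Complex.normSq_eq_norm_sq]
      push_cast
      rfl
    field_simp
    linear_combination h1
  have hc : ∑ i, (w * e i).re = (Fintype.card ι : ℝ) - 1 := by
    rw [← Complex.re_sum, ← mul_sum, ← hSdef, hwS, Complex.ofReal_re, hS]
  have hv : ∀ i, ‖w * e i‖ = 1 := fun i => by rw [norm_mul, hwn, he, one_mul]
  have hkey : ∀ v : ℂ, ‖v‖ = 1 → 4 * v.re - 3 ≤ (v ^ 2).re := by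
    intro v h3
    have h4 : v.re ^ 2 + v.im ^ 2 = 1 := by
      have h5 := Complex.sq_norm v
      rw [h3, Complex.normSq_apply] at h5
      nlinarith
    rw [pow_two v, Complex.mul_re]
    nlinarith [sq_nonneg (v.re - 1)]
  have h2 : ∀ i, 4 * (w * e i).re - 3 ≤ ((w * e i) ^ 2).re := fun i => hkey _ (hv i)
  have h3 : ∑ i, (4 * (w * e i).re - 3) ≤ ∑ i, ((w * e i) ^ 2).re := sum_le_sum fun i _ => h2 i
  rw [sum_sub_distrib, ← mul_sum, hc, sum_const, card_univ, nsmul_eq_mul, ← Complex.re_sum] at h3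
  have h4 : ∑ i, (w * e i) ^ 2 = w ^ 2 * ∑ i, (e i) ^ 2 := by
    rw [mul_sum]
    refine sum_congr rfl fun i _ => ?_
    ring
  rw [h4] at h3
  have h5 := Complex.re_le_norm (w ^ 2 * ∑ i, (e i) ^ 2)
  rw [norm_mul, norm_pow, hwn, one_pow, one_mul] at h5
  push_cast at h3
  linarith

section Gen

variable {G : Type u} [Group G] [Fintype G]

/-- A dichotomy for functions compatible with squaring. -/
theorem periodic_dichotomy (S : G → Prop) (r : G → ℝ) (hr0 : ∀ g, 0 ≤ r g) (hS : ∀ v, S v → S (v * v))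
    (hr : ∀ v, S v → r v ^ 2 = r (v * v)) {w : G} (hw : S w) (hodd : Odd (orderOf w)) : r w = 0 ∨ r w = 1 := by
  have key : ∀ i : ℕ, S (w ^ (2 ^ i)) ∧ r w ^ (2 ^ i) = r (w ^ (2 ^ i)) := by
    intro i
    induction i with
    | zero => simp [hw]
    | succ i ih =>
      have h1 : w ^ (2 ^ (i + 1)) = w ^ (2 ^ i) * w ^ (2 ^ i) := by
        rw [pow_succ 2 i, mul_two, pow_add]
      rw [h1]
      refine ⟨hS _ ih.1, ?_⟩
      rw [← hr _ ih.1, ← ih.2, pow_succ 2 i, pow_mul]
  have hco : Nat.Coprime 2 (orderOf w) := Nat.coprime_two_left.mpr hodd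
  have hpos : 0 < orderOf w := orderOf_pos w
  set f := Nat.totient (orderOf w) with hf
  have hf0 : 0 < f := Nat.totient_pos.mpr hpos
  have h1 : 2 ^ f ≡ 1 [MOD orderOf w] := Nat.ModEq.pow_totient hco
  have h2 : w ^ (2 ^ f) = w := by
    have := pow_eq_pow_of_modEq h1 (pow_orderOf_eq_one w)
    rwa [pow_one] at this
  have h3 := (key f).2
  rw [h2] at h3
  by_cases h0 : r w = 0
  · exact Or.inl h0
  · right
    have h4 : 2 ≤ 2 ^ f := by
      calc 2 = 2 ^ 1 := rfl
        _ ≤ 2 ^ f := Nat.pow_le_pow_right (by norm_num) hf0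
    obtain ⟨N, hN⟩ : ∃ N, 2 ^ f = N + 1 := ⟨2 ^ f - 1, by omega⟩
    rw [hN, pow_succ] at h3
    have h5 : r w ^ N = 1 := by
      have h6 : (r w ^ N - 1) * r w = 0 := by
        rw [sub_mul, h3, one_mul, sub_self]
      exact sub_eq_zero.mp ((mul_eq_zero.mp h6).resolve_right h0)
    exact (pow_eq_one_iff_of_nonneg (hr0 w) (by omega)).mp h5

theorem sum_zpowers_range (τ : G) (f : G → ℂ) :
    ∑ y : Subgroup.zpowers τ, f y = ∑ i ∈ range (orderOf τ), f (τ ^ i) := by
  classical
  have hfin : IsOfFinOrder τ := isOfFinOrder_of_finite τ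
  rw [Finset.sum_range]
  refine (Fintype.sum_equiv (finEquivZPowers hfin) _ _ fun i => ?_).symm
  simp [finEquivZPowers_apply]

end Gen

variable {G : Type u} [Group G] [Fintype G] {p : ℕ} [hp : Fact p.Prime] {P : Sylow p G}

local notation "𝐐" => ((P : Subgroup G))
local notation "𝐂" => (Subgroup.centralizer (((P : Subgroup G)) : Set G))
local notation "𝐍" => (Subgroup.normalizer (((P : Subgroup G)) : Set G))

namespace Core

variable {ζ : G → ℂ} {a : ((P : Subgroup G)) →* ℂˣ} (h : Core ζ a)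

include h

variable {α m' u : ℕ} (hN : Nat.card G = p * (2 ^ α * m')) (hm : Odd m') (hperf : commutator G = ⊤) (hu : WW p α m' u 1)

include hN hm hperf hu

theorem not_dvd_two_pow {k : ℕ} : ¬ p ∣ 2 ^ k := by
  intro hd
  have h1 := hp.out.dvd_of_dvd_pow hd
  have := Nat.le_of_dvd (by norm_num) h1
  have := h.big
  omega

/-- The value at an involution. -/
theorem val_invol {τ : G} (h1 : τ * τ = 1) (hne : τ ≠ 1) : ζ τ = -1 := by
  have ho : orderOf τ = 2 := orderOf_eq_prime (by rw [pow_two]; exact h1) hne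
  have hr : ¬ p ∣ orderOf τ := by
    rw [ho]
    simpa using h.not_dvd_two_pow hN hm hperf hu (k := 1)
  have h2 := h.R1 hN hm hperf hu hr
  rw [h1, h.pow_W_two hN hm hu (k := 1) (by rw [ho, pow_one]), h.deg] at h2
  have hq : ((p - 2 : ℕ) : ℂ) = (p : ℂ) - 2 := by
    have := h.big
    push_cast [Nat.cast_sub (show 2 ≤ p by omega)]
    ring
  rw [hq] at h2
  have h3 : (ζ τ + 1) * (ζ τ - ((p : ℂ) - 2)) = 0 := by
    linear_combination h2
  rcases mul_eq_zero.mp h3 with h4 | h4
  · linear_combination h4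
  · exfalso
    apply hne
    apply h.faith
    rw [h.deg, hq]
    linear_combination h4

/-- There are no elements of order four. -/
theorem not_order_four {τ : G} (ho : orderOf τ = 4) : False := by
  have hbig := h.big
  have hr : ¬ p ∣ orderOf τ := by
    rw [ho]
    have := h.not_dvd_two_pow hN hm hperf hu (k := 2)
    simpa using this
  have h1 := h.R1 hN hm hperf hu hr
  rw [h.pow_W_two hN hm hu (k := 2) (by rw [ho]; norm_num)] at h1
  have hτ2 : τ * τ ≠ 1 := by
    intro e
    have h2 := orderOf_dvd_of_pow_eq_one (x := τ) (n := 2) (by rw [pow_two]; exact e)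
    rw [ho] at h2
    norm_num at h2
  have hτ4 : τ ^ 4 = 1 := by
    rw [← ho]
    exact pow_orderOf_eq_one τ
  have hτ4' : (τ * τ) * (τ * τ) = 1 := by
    rw [← hτ4]
    simp only [pow_succ, pow_zero, one_mul, mul_assoc]
  rw [h.val_invol hN hm hperf hu hτ4' hτ2] at h1
  have hcls := IsCharacter.isClassFunction (IsIrrCharacter.isCharacter h.irr)
  have hinv := IsCharacter.apply_inv (IsIrrCharacter.isCharacter h.irr) τ
  have hτ3 : τ ^ 3 = τ⁻¹ := by
    rw [eq_inv_iff_mul_eq_one, ← pow_succ]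
    exact hτ4
  set x := ζ τ with hx
  have h2 := T_spec (Subgroup.zpowers τ) (⟨ζ, h.irr⟩ : IrrCharacter G)
  rw [sum_zpowers_range, Nat.card_zpowers, ho] at h2
  simp only [sum_range_succ, range_zero, sum_empty, zero_add, pow_zero, pow_one] at h2
  rw [pow_two τ, hτ3, hinv, h.val_invol hN hm hperf hu hτ4' hτ2, h.deg] at h2
  have hq : ((p - 2 : ℕ) : ℂ) = (p : ℂ) - 2 := by
    push_cast [Nat.cast_sub (show 2 ≤ p by omega)]
    ring
  rw [hq] at h2
  set T₀ := T (Subgroup.zpowers τ) (⟨ζ, h.irr⟩ : IrrCharacter G) with hT₀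
  have hconj : conj x ^ 2 + 1 = ((p : ℂ) - 3) * conj x := by
    have h3 := congrArg conj h1
    simp only [map_sub, map_pow, map_mul, map_neg, map_one, map_natCast, Complex.conj_ofNat] at h3
    rw [← h3]
    ring
  have h3 : (x - conj x) * (x + conj x - ((p : ℂ) - 3)) = 0 := by
    linear_combination h1 - hconj
  rcases mul_eq_zero.mp h3 with h4 | h4
  · -- a real value
    have hxr : conj x = x := (sub_eq_zero.mp h4).symm
    rw [hxr] at h2
    have h5 : 2 * x = ((4 * (T₀ : ℤ) - (p : ℤ) + 3 : ℤ) : ℂ) := by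
      push_cast
      push_cast at h2
      linear_combination -h2
    set k : ℤ := 4 * (T₀ : ℤ) - (p : ℤ) + 3 with hk
    have h6 : (k : ℂ) ^ 2 + 4 = 2 * ((p : ℂ) - 3) * k := by
      rw [← h5]
      linear_combination 4 * h1
    have h7 : k ^ 2 + 4 = 2 * ((p : ℤ) - 3) * k := by exact_mod_cast h6
    have hp7 : (7 : ℤ) ≤ p := by exact_mod_cast h.p_ge
    set s : ℤ := (p : ℤ) - 3 with hs
    set w : ℤ := k - s with hw
    have h8 : w ^ 2 = s ^ 2 - 4 := by
      rw [hw]
      linear_combination h7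
    have hs4 : 4 ≤ s := by omega
    have h9 : |w| ^ 2 = s ^ 2 - 4 := by rw [sq_abs, h8]
    have h10 : 0 ≤ |w| := abs_nonneg w
    rcases le_or_gt s |w| with h11 | h11
    · nlinarith
    · have h12 : |w| ≤ s - 1 := by omega
      nlinarith
  · -- a value of norm one
    have h5 : x * conj x = 1 := by
      linear_combination x * h4 - h1
    have h6 : ‖x‖ = 1 := by
      have h7 := congrArg norm h5
      rw [norm_mul, Complex.norm_conj, norm_one] at h7
      nlinarith [norm_nonneg x]
    have h7 : x + conj x = (p : ℂ) - 3 := by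
      linear_combination h4
    have h8 : ‖x + conj x‖ ≤ 2 := by
      refine (norm_add_le _ _).trans ?_
      rw [Complex.norm_conj, h6]
      norm_num
    rw [h7] at h8
    have h9 : ((p : ℂ) - 3) = (((p : ℝ) - 3 : ℝ) : ℂ) := by
      push_cast
      ring
    rw [h9, Complex.norm_real, Real.norm_eq_abs] at h8
    have hp7 : (7 : ℝ) ≤ p := by exact_mod_cast h.p_ge
    have h10 := le_abs_self ((p : ℝ) - 3)
    linarith

/-- The order of an element is not divisible by four. -/
theorem not_four_dvd (g : G) : ¬ 4 ∣ orderOf g := by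
  rintro ⟨k, hk⟩
  have hopos : 0 < orderOf g := orderOf_pos g
  have hk0 : k ≠ 0 := by
    rintro rfl
    omega
  have h1 : orderOf (g ^ k) = 4 := by
    rw [orderOf_pow_of_dvd hk0 ⟨4, by rw [hk, mul_comm]⟩, hk]
    exact Nat.mul_div_cancel _ (Nat.pos_of_ne_zero hk0)
  exact h.not_order_four hN hm hperf hu h1

omit h hN hm hperf hu in
theorem mem_center_of_sq {w : G} (hodd : Odd (orderOf w)) (hw : w * w ∈ Subgroup.center G) : w ∈ Subgroup.center G := by
  obtain ⟨k, hk⟩ := hodd
  have h1 : (w * w) ^ (k + 1) = w := by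
    have h2 : w ^ (2 * k + 1) = 1 := by
      rw [← hk]
      exact pow_orderOf_eq_one w
    rw [← pow_two, ← pow_mul, show 2 * (k + 1) = (2 * k + 1) + 1 by ring, pow_succ, h2, one_mul]
  rw [← h1]
  exact Subgroup.pow_mem _ hw _

omit h hN hm hperf hu in
theorem odd_sq_order {w : G} (hodd : Odd (orderOf w)) : Odd (orderOf (w * w)) := by
  rw [← pow_two]
  exact hodd.of_dvd_nat (orderOf_pow_dvd 2)

omit h hN hm hperf hu in
theorem reg_sq_order {w : G} (hr : ¬ p ∣ orderOf w) : ¬ p ∣ orderOf (w * w) := by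
  rw [← pow_two]
  exact fun hd => hr (hd.trans (orderOf_pow_dvd 2))

/-- Squares of odd regular elements. -/
theorem odd_sq {w : G} (hr : ¬ p ∣ orderOf w) (hodd : Odd (orderOf w)) :
    ζ w ^ 2 = (((p - 2 : ℕ) : ℝ) : ℂ) * ζ (w * w) := by
  have hbig := h.big
  have h1 := h.R1 hN hm hperf hu hr
  rw [h.pow_W_odd hN hm hu hr hodd, pow_two w] at h1
  push_cast [Nat.cast_sub (show 2 ≤ p by omega)]
  linear_combination h1

/-- The character vanishes on noncentral regular elements of odd order. -/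
theorem val_odd {w : G} (hr : ¬ p ∣ orderOf w) (hodd : Odd (orderOf w)) (hz : w ∉ Subgroup.center G) : ζ w = 0 := by
  have hbig := h.big
  have hq : (0 : ℝ) < ((p - 2 : ℕ) : ℝ) := by
    have : 0 < p - 2 := by omega
    exact_mod_cast this
  have hd := periodic_dichotomy (fun v : G => ¬ p ∣ orderOf v ∧ Odd (orderOf v)) (fun v => ‖ζ v‖ / ((p - 2 : ℕ) : ℝ))
    (fun g => by positivity) (fun v hv => ⟨reg_sq_order hv.1, odd_sq_order hv.2⟩)
    (fun v hv => by
      have h1 := congrArg norm (h.odd_sq hN hm hperf hu hv.1 hv.2)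
      rw [norm_pow, norm_mul, Complex.norm_real, Real.norm_eq_abs, abs_of_pos hq] at h1
      show (‖ζ v‖ / ((p - 2 : ℕ) : ℝ)) ^ 2 = ‖ζ (v * v)‖ / ((p - 2 : ℕ) : ℝ)
      rw [div_pow, h1]
      field_simp) (w := w) ⟨hr, hodd⟩ hodd
  rcases hd with h1 | h1
  · have h2 : ‖ζ w‖ = 0 := by
      have := (div_eq_zero_iff.mp h1).resolve_right hq.ne'
      exact this
    exact norm_eq_zero.mp h2
  · exfalso
    apply hz
    apply RV.mem_center_of_norm_eq h.irr h.faith
    have h2 : ‖ζ w‖ = ((p - 2 : ℕ) : ℝ) := by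
      field_simp at h1
      exact h1
    rw [h2, h.deg, Complex.norm_natCast]

/-- The character vanishes on products of involutions with noncentral regular elements of odd order. -/
theorem val_mixed {τ w : G} (hτ : τ * τ = 1) (hτ1 : τ ≠ 1) (hc : Commute τ w) (hr : ¬ p ∣ orderOf w) (hodd : Odd (orderOf w))
    (hz : w ∉ Subgroup.center G) : ζ (τ * w) = 0 := by
  have hbig := h.big
  have hp7 := h.p_ge
  have hq : (0 : ℝ) < ((p - 3 : ℕ) : ℝ) := by
    have : 0 < p - 3 := by omega
    exact_mod_cast this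
  have hτo : orderOf τ = 2 ^ 1 := by
    rw [pow_one]
    exact orderOf_eq_prime (by rw [pow_two]; exact hτ) hτ1
  have hsq : ∀ v : G, Commute τ v → (τ * v) * (τ * v) = v * v := by
    intro v hv
    calc (τ * v) * (τ * v) = τ * (v * τ) * v := by group
      _ = τ * (τ * v) * v := by rw [hv.eq]
      _ = (τ * τ) * (v * v) := by group
      _ = _ := by rw [hτ, one_mul]
  have hreg : ∀ v : G, Commute τ v → ¬ p ∣ orderOf v → ¬ p ∣ orderOf (τ * v) := by
    intro v hv hvr hd
    have h1 : orderOf (τ * v) ∣ 2 * orderOf v := by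
      apply orderOf_dvd_of_pow_eq_one
      rw [pow_mul, pow_two, hsq v hv, ← pow_two, ← pow_mul, mul_comm, pow_mul, pow_orderOf_eq_one, one_pow]
    have h2 := hd.trans h1
    rcases (Nat.Prime.dvd_mul hp.out).mp h2 with h3 | h3
    · have := Nat.le_of_dvd (by norm_num) h3
      omega
    · exact hvr h3
  have hS : ∀ v : G, (¬ p ∣ orderOf v ∧ Odd (orderOf v) ∧ v ∉ Subgroup.center G ∧ Commute τ v) →
      ζ (τ * v) ^ 2 = (((p - 3 : ℕ) : ℝ) : ℂ) * ζ (τ * (v * v)) := by
    rintro v ⟨hv1, hv2, hv3, hv4⟩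
    have h1 := h.R1 hN hm hperf hu (hreg v hv4 hv1)
    rw [hsq v hv4, hv4.mul_pow, h.pow_W_two hN hm hu hτo, h.pow_W_odd hN hm hu hv1 hv2, pow_two v,
      h.val_odd hN hm hperf hu (reg_sq_order hv1) (odd_sq_order hv2) (fun h2 => hv3 (mem_center_of_sq hv2 h2))] at h1
    push_cast [Nat.cast_sub (show 3 ≤ p by omega)]
    linear_combination h1
  have hd := periodic_dichotomy (fun v : G => ¬ p ∣ orderOf v ∧ Odd (orderOf v) ∧ v ∉ Subgroup.center G ∧ Commute τ v)
    (fun v => ‖ζ (τ * v)‖ / ((p - 3 : ℕ) : ℝ))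
    (fun g => by positivity)
    (fun v hv => ⟨reg_sq_order hv.1, odd_sq_order hv.2.1, fun h2 => hv.2.2.1 (mem_center_of_sq hv.2.1 h2), hv.2.2.2.mul_right hv.2.2.2⟩)
    (fun v hv => by
      have h1 := congrArg norm (hS v hv)
      rw [norm_pow, norm_mul, Complex.norm_real, Real.norm_eq_abs, abs_of_pos hq] at h1
      show (‖ζ (τ * v)‖ / ((p - 3 : ℕ) : ℝ)) ^ 2 = ‖ζ (τ * (v * v))‖ / ((p - 3 : ℕ) : ℝ)
      rw [div_pow, h1]
      field_simp) (w := w) ⟨hr, hodd, hz, hc⟩ hodd
  rcases hd with h1 | h1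
  · have h2 : ‖ζ (τ * w)‖ = 0 := (div_eq_zero_iff.mp h1).resolve_right hq.ne'
    exact norm_eq_zero.mp h2
  · exfalso
    have h2 : ‖ζ (τ * w)‖ = ((p - 3 : ℕ) : ℝ) := by
      field_simp at h1
      exact h1
    -- the eigenvalues
    obtain ⟨n, ρ, hρ, hζ⟩ := id h.irr
    obtain ⟨μ, hμ1, hμ2⟩ := character_pow_eq_sum_eigen ρ (τ * w)
    have hn : Module.finrank ℂ (Fin n → ℂ) = p - 2 := by
      have h3 := h.deg
      rw [← hζ, Representation.char_one] at h3
      exact_mod_cast h3
    have hne : ∀ i, ‖μ i‖ = 1 := fun i => Complex.norm_eq_one_of_pow_eq_one (hμ1 i) (orderOf_pos _).ne'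
    have hcard : Fintype.card (Fin (Module.finrank ℂ (Fin n → ℂ))) = p - 2 := by
      rw [Fintype.card_fin, hn]
    have h3 : ρ.character (τ * w) = ∑ i, μ i := by
      have := hμ2 1
      simpa using this
    have h4 : ρ.character (w * w) = ∑ i, μ i ^ 2 := by
      have := hμ2 2
      rw [pow_two (τ * w), hsq w hc] at this
      exact this
    have h5 := eigen_ineq μ hne (by rw [hcard]; omega) (by
      rw [← h3, hζ, h2, hcard]
      push_cast [Nat.cast_sub (show 3 ≤ p by omega), Nat.cast_sub (show 2 ≤ p by omega)]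
      ring)
    rw [← h4, hζ, h.val_odd hN hm hperf hu (reg_sq_order hr) (odd_sq_order hodd) (fun h6 => hz (mem_center_of_sq hodd h6)),
      norm_zero, hcard] at h5
    have h6 : (7 : ℝ) ≤ p := by exact_mod_cast hp7
    push_cast [Nat.cast_sub (show 2 ≤ p by omega)] at h5
    linarith

/-- The classification of the regular elements. -/
theorem classify {g : G} (hg : ¬ p ∣ orderOf g) :
    g ∈ Subgroup.center G ∨ (g ∉ Subgroup.center G ∧ g * g ∈ Subgroup.center G ∧ Fn ζ g = 1) ∨
      (g * g ∉ Subgroup.center G ∧ ζ g = 0 ∧ ζ (g * g) = 0) := by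
  classical
  rcases Nat.even_or_odd (orderOf g) with hev | hodd
  · -- the even case
    obtain ⟨o, ho⟩ := hev
    have ho' : orderOf g = 2 * o := by omega
    have hoodd : Odd o := by
      rcases Nat.even_or_odd o with ⟨k, hk⟩ | h1
      · exfalso
        apply h.not_four_dvd hN hm hperf hu g
        exact ⟨k, by omega⟩
      · exact h1
    have hopos : 0 < orderOf g := orderOf_pos g
    have hgo : g ^ (2 * o) = 1 := by
      rw [← ho']
      exact pow_orderOf_eq_one g
    set τ := g ^ o with hτdef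
    set w := g ^ (o + 1) with hwdef
    have hτ : τ * τ = 1 := by
      rw [hτdef, ← pow_add, ← two_mul, hgo]
    have hτ1 : τ ≠ 1 := pow_ne_one_of_lt_orderOf (by omega) (by omega)
    have hc : Commute τ w := Commute.pow_pow_self g o (o + 1)
    have hg2 : τ * w = g := by
      rw [hτdef, hwdef, ← pow_add, show o + (o + 1) = 2 * o + 1 by ring, pow_succ, hgo, one_mul]
    have hwo : w ^ o = 1 := by
      obtain ⟨k, hk⟩ := hoodd
      rw [hwdef, ← pow_mul, hk, show (2 * k + 1 + 1) * (2 * k + 1) = (2 * (2 * k + 1)) * (k + 1) by ring, pow_mul, ← hk, hgo, one_pow]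
    have hwd : orderOf w ∣ o := orderOf_dvd_of_pow_eq_one hwo
    have hwodd : Odd (orderOf w) := hoodd.of_dvd_nat hwd
    have hwr : ¬ p ∣ orderOf w := fun hd => hg (by
      rw [ho']
      exact (hd.trans hwd).trans (dvd_mul_left _ _))
    have hgsq : g * g = w * w := by
      rw [← hg2]
      calc (τ * w) * (τ * w) = τ * (w * τ) * w := by group
        _ = τ * (τ * w) * w := by rw [hc.eq]
        _ = (τ * τ) * (w * w) := by group
        _ = _ := by rw [hτ, one_mul]
    by_cases hwz : w ∈ Subgroup.center G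
    · right
      left
      refine ⟨fun hgz => ?_, ?_, ?_⟩
      · -- a central involution
        have h1 : τ ∈ Subgroup.center G := by
          have h2 : τ = g * w⁻¹ := by
            rw [← hg2]
            group
          rw [h2]
          exact (Subgroup.center G).mul_mem hgz ((Subgroup.center G).inv_mem hwz)
        have h2 := h.center_pow hperf h1
        have h3 : orderOf τ = 2 := orderOf_eq_prime (by rw [pow_two]; exact hτ) hτ1
        have h4 := orderOf_dvd_of_pow_eq_one h2
        rw [h3] at h4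
        have h5 := h.odd_p_sub_two hN hm
        obtain ⟨k, hk⟩ := h5
        omega
      · rw [hgsq]
        exact (Subgroup.center G).mul_mem hwz hwz
      · rw [← hg2, h.Fn_center τ hwz]
        simp only [Fn]
        rw [h.val_invol hN hm hperf hu hτ hτ1]
        simp
    · right
      right
      have hww : w * w ∉ Subgroup.center G := fun h1 => hwz (mem_center_of_sq hwodd h1)
      refine ⟨by rwa [hgsq], ?_, ?_⟩
      · rw [← hg2]
        exact h.val_mixed hN hm hperf hu hτ hτ1 hc hwr hwodd hwz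
      · rw [hgsq]
        exact h.val_odd hN hm hperf hu (reg_sq_order hwr) (odd_sq_order hwodd) hww
  · -- the odd case
    by_cases hgz : g ∈ Subgroup.center G
    · exact Or.inl hgz
    · right
      right
      have hww : g * g ∉ Subgroup.center G := fun h1 => hgz (mem_center_of_sq hodd h1)
      exact ⟨hww, h.val_odd hN hm hperf hu hg hodd hgz, h.val_odd hN hm hperf hu (reg_sq_order hg) (odd_sq_order hodd) hww⟩

end Core

end Cfsg.Agent.Lib.BT.PM2
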