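import Cfsg.Agent.Lib.BT.PM2F
import Cfsg.Agent.Lib.Char.FSCount

/-! Faithful characters of degree `p - 2`: moments and the bound on the order. -/

set_option autoImplicit false
set_option linter.unusedSectionVars false
set_option linter.unusedVariables false

namespace Cfsg.Agent.Lib.BT.PM2

open Cfsg Cfsg.Agent.Lib.Char Cfsg.Agent.Lib.Blocks Cfsg.Agent.Lib.DefOne Finset
open scoped ComplexConjugate

universe u

attribute [local instance] fintypeOfSubgroup

section Gen

variable {G : Type u} [Group G] [Fintype G]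

/-- The Frobenius-Schur indicator of a character is at most its norm. -/
theorem fs_le_inner {f : G → ℂ} (hf : IsCharacter G f) : (fsInd f).re ≤ (classInner f f).re := by
  classical
  obtain ⟨mm, hd⟩ := exists_dec hf
  have h1 : classInner f f = ((∑ χ : IrrCharacter G, mm χ * mm χ : ℕ) : ℂ) := hd.inner_dec hd
  have h2 : fsInd f = ∑ χ : IrrCharacter G, (mm χ : ℂ) * fsInd (χ : G → ℂ) := by
    simp only [fsInd, hd.apply]
    rw [Finset.sum_comm, mul_sum]
    refine sum_congr rfl fun χ _ => ?_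
    rw [← mul_sum]
    ring
  rw [h1, h2, Complex.natCast_re, Complex.re_sum]
  push_cast
  refine sum_le_sum fun χ _ => ?_
  rw [show ((mm χ : ℕ) : ℂ) = (((mm χ : ℕ) : ℝ) : ℂ) by push_cast; rfl, Complex.re_ofReal_mul]
  have h3 : (fsInd (χ : G → ℂ)).re ≤ 1 := by
    rcases fsInd_trichotomy χ.2 with h4 | h4 | h4 <;> rw [h4] <;> norm_num
  have h4 : (0 : ℝ) ≤ (mm χ : ℝ) := Nat.cast_nonneg _
  have h5 : (mm χ : ℝ) ≤ (mm χ : ℝ) * (mm χ : ℝ) := by
    rcases Nat.eq_zero_or_pos (mm χ) with h6 | h6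
    · rw [h6]
      simp
    · have h7 : (1 : ℝ) ≤ (mm χ : ℝ) := by exact_mod_cast h6
      nlinarith
  nlinarith

/-- An arithmetic consequence. -/
theorem arith_bound {n z q I : ℝ} (hz : 0 < z) (hq : 1 < q) (hE1 : n * z * 4 = z * q ^ 2 + I)
    (hle : n * z * (2 * q) + (z + I) * q ^ 2 ≤ n * z * (6 * q - 4) + z * q ^ 4 + I) : 2 * n ≤ q * (q + 1) := by
  have hI : I = n * z * 4 - z * q ^ 2 := by linarith
  rw [hI] at hle
  have h1 : z * (2 * n * (q * (q - 1))) ≤ z * ((q * (q + 1)) * (q * (q - 1))) := by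
    nlinarith
  have h2 := le_of_mul_le_mul_left h1 hz
  have h3 : 0 < q * (q - 1) := mul_pos (by linarith) (by linarith)
  exact le_of_mul_le_mul_right h2 h3

end Gen

variable {G : Type u} [Group G] [Fintype G] {p : ℕ} [hp : Fact p.Prime] {P : Sylow p G}

local notation "𝐐" => ((P : Subgroup G))
local notation "𝐂" => (Subgroup.centralizer (((P : Subgroup G)) : Set G))
local notation "𝐍" => (Subgroup.normalizer (((P : Subgroup G)) : Set G))

namespace Core

variable {ζ : G → ℂ} {a : ((P : Subgroup G)) →* ℂˣ} (h : Core ζ a)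

include h

theorem sing_sq {g : G} (hg : p ∣ orderOf g) : g * g ∉ Subgroup.center G := by
  intro hz
  have h1 := h.not_dvd_orderOf_center hz
  apply h1
  have h2 : orderOf g ∣ 2 * orderOf (g * g) := by
    apply orderOf_dvd_of_pow_eq_one
    rw [pow_mul, pow_two, pow_orderOf_eq_one]
  have h3 := hg.trans h2
  rcases (Nat.Prime.dvd_mul hp.out).mp h3 with h4 | h4
  · have := Nat.le_of_dvd (by norm_num) h4
    have := h.big
    omega
  · exact h4

theorem Fn_conj (g : G) : conj (Fn ζ g) = Fn ζ g := by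
  simp only [Fn, map_mul, Complex.conj_conj]
  ring

theorem Fn_central {c : G} (hc : c ∈ Subgroup.center G) : Fn ζ c = ((p - 2 : ℕ) : ℂ) ^ 2 := by
  have h1 := h.Fn_center 1 hc
  rw [one_mul, h.Fn_one] at h1
  exact h1

open scoped _root_.Classical in
theorem card_center_filter : ((univ.filter (fun g : G => g ∈ Subgroup.center G)).card : ℕ) = Nat.card (Subgroup.center G) := by
  rw [Nat.card_eq_fintype_card, Fintype.card_subtype]

variable {α m' u : ℕ} (hN : Nat.card G = p * (2 ^ α * m')) (hm : Odd m') (hperf : commutator G = ⊤) (hu : WW p α m' u 1)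

include hN hm hperf hu

open scoped _root_.Classical in
/-- The sum of a function over the regular elements, if it vanishes where the character does. -/
theorem sum_reg_split (F : G → ℂ) (hF : ∀ g, ¬ p ∣ orderOf g → g * g ∉ Subgroup.center G → ζ g = 0 → ζ (g * g) = 0 → F g = 0) :
    ∑ g ∈ univ.filter (fun g : G => ¬ p ∣ orderOf g), F g =
      ∑ g ∈ univ.filter (fun g : G => g ∈ Subgroup.center G), F g +
      ∑ g ∈ univ.filter (fun g : G => g ∉ Subgroup.center G ∧ g * g ∈ Subgroup.center G), F g := by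
  classical
  rw [Finset.sum_filter, Finset.sum_filter, Finset.sum_filter, ← sum_add_distrib]
  refine sum_congr rfl fun g _ => ?_
  by_cases hg : g ∈ Subgroup.center G
  · rw [if_pos (h.not_dvd_orderOf_center hg), if_pos hg, if_neg (fun h1 => h1.1 hg : ¬ (g ∉ Subgroup.center G ∧ g * g ∈ Subgroup.center G)), add_zero]
  · rw [if_neg hg, zero_add]
    by_cases hgg : g * g ∈ Subgroup.center G
    · rw [if_pos (fun h1 => h.sing_sq h1 hgg : ¬ p ∣ orderOf g), if_pos (⟨hg, hgg⟩ : g ∉ Subgroup.center G ∧ g * g ∈ Subgroup.center G)]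
    · rw [if_neg (fun h1 => hgg h1.2 : ¬ (g ∉ Subgroup.center G ∧ g * g ∈ Subgroup.center G))]
      by_cases hr : p ∣ orderOf g
      · rw [if_neg (not_not.mpr hr)]
      · rw [if_pos hr]
        rcases h.classify hN hm hperf hu hr with h1 | h1 | h1
        · exact absurd h1 hg
        · exact absurd h1.2.1 hgg
        · exact hF g hr hgg h1.2.1 h1.2.2

theorem Fn_A2 {g : G} (hg : g ∉ Subgroup.center G) (hgg : g * g ∈ Subgroup.center G) : Fn ζ g = 1 := by
  have hr : ¬ p ∣ orderOf g := fun h1 => h.sing_sq h1 hgg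
  rcases h.classify hN hm hperf hu hr with h1 | h1 | h1
  · exact absurd h1 hg
  · exact h1.2.2
  · exact absurd hgg h1.1

/-- The bound on the number of Sylow subgroups. -/
theorem moment_bound : 2 * Nat.card (Sylow p G) ≤ (p - 2) * (p - 1) ∧ (p - 2) ^ 2 ≤ 4 * Nat.card (Sylow p G) := by
  classical
  have hbig := h.big
  have hp7 := h.p_ge
  set n := Nat.card (Sylow p G) with hn
  set z := Nat.card (Subgroup.center G) with hz
  set Af := univ.filter (fun g : G => g ∉ Subgroup.center G ∧ g * g ∈ Subgroup.center G) with hAf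
  set I := Af.card with hI
  set q := p - 2 with hq
  have hqp : (p : ℂ) = (q : ℂ) + 2 := by
    have : p = q + 2 := by omega
    nth_rewrite 1 [this]
    push_cast
    ring
  have hzf : ((univ.filter (fun g : G => g ∈ Subgroup.center G)).card : ℂ) = z := by
    rw [h.card_center_filter]
  have hAmem : ∀ g ∈ Af, g ∉ Subgroup.center G ∧ g * g ∈ Subgroup.center G := fun g hg => (mem_filter.mp hg).2
  have hZmem : ∀ g ∈ univ.filter (fun g : G => g ∈ Subgroup.center G), g ∈ Subgroup.center G := fun g hg => (mem_filter.mp hg).2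
  -- the first moment
  have hE1 : (n : ℂ) * z * 4 = z * (q : ℂ) ^ 2 + I := by
    rw [← h.sum_Fn_reg, h.sum_reg_split hN hm hperf hu (Fn ζ) (fun g _ _ h0 _ => by simp [Fn, h0])]
    congr 1
    · rw [sum_congr rfl (fun g hg => h.Fn_central (hZmem g hg)), sum_const, nsmul_eq_mul, hzf]
    · rw [sum_congr rfl (fun g hg => h.Fn_A2 hN hm hperf hu (hAmem g hg).1 (hAmem g hg).2), sum_const, nsmul_eq_mul, mul_one]
  -- the second moment
  have hE2 : ∑ g : G, Fn ζ g * Fn ζ g = (n : ℂ) * z * (6 * q - 4) + z * (q : ℂ) ^ 4 + I := by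
    rw [← Finset.sum_filter_add_sum_filter_not univ (fun g : G => p ∣ orderOf g), add_assoc]
    congr 1
    · rw [h.sum_sing (fun g => Fn ζ g * Fn ζ g)
        (fun g x => by
          beta_reduce
          rw [h.Fn_class g x])
        (fun g c hc => by
          beta_reduce
          rw [h.Fn_center g hc])]
      congr 1
      have h1 : ∑ y : 𝐐, Fn ζ y * Fn ζ y = Fn ζ ((1 : 𝐐) : G) * Fn ζ ((1 : 𝐐) : G) +
          ∑ y ∈ (univ : Finset 𝐐).erase 1, Fn ζ y * Fn ζ y :=
        (Finset.add_sum_erase _ (fun y : 𝐐 => Fn ζ y * Fn ζ y) (mem_univ 1)).symm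
      have h2 : ∑ y ∈ (univ : Finset 𝐐).erase 1, Fn ζ y * Fn ζ y =
          ∑ y ∈ (univ : Finset 𝐐).erase 1, (eta a 1 y * eta a 1 y) * (eta a 1 y * eta a 1 y) :=
        sum_congr rfl fun y hy => by rw [h.Fn_val y (ne_of_mem_erase hy)]
      have h3 : ∑ y ∈ (univ : Finset 𝐐).erase 1, (eta a 1 y * eta a 1 y) * (eta a 1 y * eta a 1 y) = 6 * (p : ℂ) - 16 := by
        rw [Finset.sum_erase_eq_sub (mem_univ _), h.sum_eta_fourth, eta_one_val]
        ring
      rw [h1, h2, h3, hqp]
      simp only [OneMemClass.coe_one]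
      ring
    · rw [h.sum_reg_split hN hm hperf hu (fun g => Fn ζ g * Fn ζ g) (fun g _ _ h0 _ => by simp [Fn, h0])]
      congr 1
      · have h1 : ∀ g ∈ univ.filter (fun g : G => g ∈ Subgroup.center G), Fn ζ g * Fn ζ g = ((q : ℂ) ^ 2) * ((q : ℂ) ^ 2) := fun g hg => by
          rw [h.Fn_central (hZmem g hg)]
        rw [sum_congr rfl h1, sum_const, nsmul_eq_mul, hzf]
        ring
      · have h1 : ∀ g ∈ Af, Fn ζ g * Fn ζ g = 1 := fun g hg => by
          rw [h.Fn_A2 hN hm hperf hu (hAmem g hg).1 (hAmem g hg).2, mul_one]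
        rw [sum_congr rfl h1, sum_const, nsmul_eq_mul, mul_one]
  -- the Frobenius-Schur sum
  have hE3 : ∑ g : G, Fn ζ (g * g) = (n : ℂ) * z * (2 * q) + (z + I) * (q : ℂ) ^ 2 := by
    rw [← Finset.sum_filter_add_sum_filter_not univ (fun g : G => p ∣ orderOf g)]
    congr 1
    · rw [h.sum_sing (fun g => Fn ζ (g * g))
        (fun g x => by
          beta_reduce
          have h1 : (x * g * x⁻¹) * (x * g * x⁻¹) = x * (g * g) * x⁻¹ := by group
          rw [h1, h.Fn_class])
        (fun g c hc => by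
          beta_reduce
          have hcomm : Commute g c := (Subgroup.mem_center_iff.mp hc g)
          have h3 : (g * c) * (g * c) = (g * g) * (c * c) := by
            calc (g * c) * (g * c) = g * (c * g) * c := by group
              _ = g * (g * c) * c := by rw [hcomm.eq]
              _ = _ := by group
          rw [h3, h.Fn_center _ ((Subgroup.center G).mul_mem hc hc)])]
      congr 1
      have h1 : ∑ y : 𝐐, Fn ζ ((y : G) * y) = Fn ζ (((1 : 𝐐) : G) * ((1 : 𝐐) : G)) +
          ∑ y ∈ (univ : Finset 𝐐).erase 1, Fn ζ ((y : G) * y) :=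
        (Finset.add_sum_erase _ (fun y : 𝐐 => Fn ζ ((y : G) * y)) (mem_univ 1)).symm
      have h2 : ∑ y ∈ (univ : Finset 𝐐).erase 1, Fn ζ ((y : G) * y) =
          ∑ y ∈ (univ : Finset 𝐐).erase 1, eta a 2 y * eta a 2 y :=
        sum_congr rfl fun y hy => by
          simp only [Fn]
          rw [h.zeta_sq y (ne_of_mem_erase hy), map_neg, h.conj_eta]
          ring
      have h3 : ∑ y ∈ (univ : Finset 𝐐).erase 1, eta a 2 y * eta a 2 y = 2 * (p : ℂ) - 4 := by
        rw [Finset.sum_erase_eq_sub (mem_univ _), h.sum_eta_two_sq, eta_one_val]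
        ring
      rw [h1, h2, h3, hqp]
      simp only [OneMemClass.coe_one, mul_one]
      ring
    · rw [h.sum_reg_split hN hm hperf hu (fun g => Fn ζ (g * g)) (fun g _ _ _ h0 => by simp [Fn, h0])]
      have h3 : ∀ g ∈ univ.filter (fun g : G => g ∈ Subgroup.center G), Fn ζ (g * g) = (q : ℂ) ^ 2 := fun g hg =>
        h.Fn_central ((Subgroup.center G).mul_mem (hZmem g hg) (hZmem g hg))
      have h4 : ∀ g ∈ Af, Fn ζ (g * g) = (q : ℂ) ^ 2 := fun g hg => h.Fn_central (hAmem g hg).2
      rw [sum_congr rfl h3, sum_congr rfl h4, sum_const, sum_const, nsmul_eq_mul, nsmul_eq_mul, hzf]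
      ring
  -- the comparison
  have hf : IsCharacter G (Fn ζ) := IsCharacter.mul (IsIrrCharacter.isCharacter h.irr) (IsCharacter.conj (IsIrrCharacter.isCharacter h.irr))
  have hle := fs_le_inner hf
  have hA : fsInd (Fn ζ) = (Nat.card G : ℂ)⁻¹ * (((n : ℝ) * z * (2 * q) + (z + I) * (q : ℝ) ^ 2 : ℝ) : ℂ) := by
    simp only [fsInd]
    rw [hE3]
    push_cast
    rfl
  have hB : classInner (Fn ζ) (Fn ζ) = (Nat.card G : ℂ)⁻¹ * (((n : ℝ) * z * (6 * q - 4) + z * (q : ℝ) ^ 4 + I : ℝ) : ℂ) := by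
    simp only [classInner, h.Fn_conj]
    rw [hE2]
    push_cast
    rfl
  have hG0 : (0 : ℝ) < (Nat.card G : ℝ)⁻¹ := by
    have : (0 : ℝ) < Nat.card G := by exact_mod_cast Nat.card_pos
    positivity
  have hcast : (Nat.card G : ℂ)⁻¹ = (((Nat.card G : ℝ)⁻¹ : ℝ) : ℂ) := by
    push_cast
    rfl
  rw [hA, hB, hcast, ← Complex.ofReal_mul, ← Complex.ofReal_mul, Complex.ofReal_re, Complex.ofReal_re] at hle
  have hle' := le_of_mul_le_mul_left hle hG0
  have hzr : (0 : ℝ) < z := by exact_mod_cast (Nat.card_pos : 0 < z)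
  have hqr : (1 : ℝ) < q := by
    have : 1 < q := by omega
    exact_mod_cast this
  have hE1r : (n : ℝ) * z * 4 = z * (q : ℝ) ^ 2 + I := by exact_mod_cast hE1
  have hbound := arith_bound hzr hqr hE1r hle'
  have hq1 : p - 1 = q + 1 := by omega
  rw [hq1]
  constructor
  · have : (2 * n : ℝ) ≤ (q * (q + 1) : ℕ) := by
      push_cast
      exact hbound
    exact_mod_cast this
  · have hI0 : (0 : ℝ) ≤ I := Nat.cast_nonneg _
    have h5 : (z : ℝ) * (q : ℝ) ^ 2 ≤ z * (4 * n) := by
      nlinarith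
    have h6 := le_of_mul_le_mul_left h5 hzr
    have : ((q ^ 2 : ℕ) : ℝ) ≤ ((4 * n : ℕ) : ℝ) := by
      push_cast
      exact h6
    exact_mod_cast this

end Core

end Cfsg.Agent.Lib.BT.PM2
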