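import Cfsg.Agent.Lib.BT.PM2G
import Cfsg.Agent.Lib.Small.BrauerPerf
import Cfsg.Agent.Lib.Classical.SL2Local
import Cfsg.Agent.Lib.Classical.SylowSL2

/-! Faithful characters of degree `p - 2`: the perfect case. -/

set_option autoImplicit false
set_option linter.unusedSectionVars false
set_option linter.unusedVariables false

namespace Cfsg.Agent.Lib.BT.PM2

open Cfsg Cfsg.Agent.Lib.Char Cfsg.Agent.Lib.Blocks Cfsg.Agent.Lib.DefOne Finset
open scoped ComplexConjugate

universe u

attribute [local instance] fintypeOfSubgroup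

section Gen

variable {G : Type u} [Group G]

open scoped IsMulCommutative in
/-- In a perfect group, an element central modulo the center is central. -/
theorem mem_center_of_comm_center (hperf : commutator G = ⊤) {t : G}
    (ht : ∀ x : G, t * x * t⁻¹ * x⁻¹ ∈ Subgroup.center G) : t ∈ Subgroup.center G := by
  have hcomm : ∀ (c : Subgroup.center G) (x : G), (c : G) * x = x * c := fun c x =>
    (Subgroup.mem_center_iff.mp c.2 x).symm
  let f : G →* Subgroup.center G :=
    { toFun := fun x => ⟨t * x * t⁻¹ * x⁻¹, ht x⟩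
      map_one' := by
        apply Subtype.ext
        simp
      map_mul' := fun x y => by
        apply Subtype.ext
        show t * (x * y) * t⁻¹ * (x * y)⁻¹ = (t * x * t⁻¹ * x⁻¹) * (t * y * t⁻¹ * y⁻¹)
        have h1 := hcomm ⟨t * y * t⁻¹ * y⁻¹, ht y⟩ x⁻¹
        simp only at h1
        calc t * (x * y) * t⁻¹ * (x * y)⁻¹ = t * x * t⁻¹ * ((t * y * t⁻¹ * y⁻¹) * x⁻¹) := by group
          _ = t * x * t⁻¹ * (x⁻¹ * (t * y * t⁻¹ * y⁻¹)) := by rw [h1]
          _ = _ := by group }
  rw [Subgroup.mem_center_iff]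
  intro x
  have h1 := perfect_hom_trivial hperf f x
  have h2 : t * x * t⁻¹ * x⁻¹ = 1 := congrArg Subtype.val h1
  have h3 : t * x = x * t := by
    have h4 : t * x * t⁻¹ = x := mul_inv_eq_one.mp h2
    exact (mul_inv_eq_iff_eq_mul.mp h4)
  exact h3.symm

/-- A perfect group modulo its center has no normal subgroup of order two. -/
theorem no_normal_two (hperf : commutator G = ⊤) (D : Subgroup (G ⧸ Subgroup.center G)) (hD : D.Normal) (hc : Nat.card D = 2) : False := by
  classical
  obtain ⟨d, hd, hdu⟩ := (Nat.card_eq_two_iff' (1 : D)).mp hc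
  have hd1 : (d : G ⧸ Subgroup.center G) ≠ 1 := fun e => hd (Subtype.ext e)
  have hconj : ∀ x : G ⧸ Subgroup.center G, x * d * x⁻¹ = d := by
    intro x
    have h1 : x * d * x⁻¹ ∈ D := hD.conj_mem _ d.2 x
    have h2 : (⟨x * d * x⁻¹, h1⟩ : D) ≠ 1 := by
      intro e
      have h3 : x * (d : G ⧸ Subgroup.center G) * x⁻¹ = 1 := congrArg Subtype.val e
      apply hd1
      have h4 : (d : G ⧸ Subgroup.center G) = x⁻¹ * (x * d * x⁻¹) * x := by group
      rw [h4, h3]
      group
    have h3 := hdu _ h2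
    exact congrArg Subtype.val h3
  obtain ⟨t, ht⟩ := QuotientGroup.mk'_surjective (Subgroup.center G) (d : G ⧸ Subgroup.center G)
  have hcent : t ∈ Subgroup.center G := by
    apply mem_center_of_comm_center hperf
    intro x
    apply (QuotientGroup.eq_one_iff _).mp
    show QuotientGroup.mk' (Subgroup.center G) (t * x * t⁻¹ * x⁻¹) = 1
    simp only [map_mul, map_inv, ht]
    have h1 := hconj (QuotientGroup.mk' (Subgroup.center G) x)⁻¹
    rw [inv_inv] at h1
    have h2 : (d : G ⧸ Subgroup.center G) * (QuotientGroup.mk' (Subgroup.center G) x) * (d : G ⧸ Subgroup.center G)⁻¹ =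
        QuotientGroup.mk' (Subgroup.center G) x := by
      have h3 := hconj (QuotientGroup.mk' (Subgroup.center G) x)
      have h4 : (QuotientGroup.mk' (Subgroup.center G) x) * (d : G ⧸ Subgroup.center G) =
          (d : G ⧸ Subgroup.center G) * (QuotientGroup.mk' (Subgroup.center G) x) := mul_inv_eq_iff_eq_mul.mp h3
      rw [← h4]
      group
    rw [h2]
    group
  apply hd1
  rw [← ht]
  exact (QuotientGroup.eq_one_iff t).mpr hcent

end Gen

section Diag

variable (F : Type) [Field F]

/-- The diagonal torus of `SL(2, F)`. -/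
def slDiagHom : Fˣ →* Matrix.SpecialLinearGroup (Fin 2) F where
  toFun t := ⟨!![(t : F), 0; 0, ((t⁻¹ : Fˣ) : F)], by simp [Matrix.det_fin_two]⟩
  map_one' := by
    ext i j
    fin_cases i <;> fin_cases j <;> simp
  map_mul' s t := by
    apply Subtype.ext
    show !![((s * t : Fˣ) : F), 0; 0, (((s * t)⁻¹ : Fˣ) : F)] = !![(s : F), 0; 0, ((s⁻¹ : Fˣ) : F)] * !![(t : F), 0; 0, ((t⁻¹ : Fˣ) : F)]
    simp [Matrix.mul_fin_two, mul_comm]

theorem slDiagHom_injective : Function.Injective (slDiagHom F) := by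
  intro s t h
  have h1 : (slDiagHom F s).1 0 0 = (slDiagHom F t).1 0 0 := by rw [h]
  have h2 : ∀ r : Fˣ, (slDiagHom F r).1 0 0 = r := fun r => rfl
  rw [h2, h2] at h1
  exact Units.ext h1

end Diag

variable {G : Type u} [Group G] [Fintype G] {p : ℕ} [hp : Fact p.Prime] {P : Sylow p G}

local notation "𝐐" => ((P : Subgroup G))
local notation "𝐂" => (Subgroup.centralizer (((P : Subgroup G)) : Set G))
local notation "𝐍" => (Subgroup.normalizer (((P : Subgroup G)) : Set G))

namespace Core

variable {ζ : G → ℂ} {a : ((P : Subgroup G)) →* ℂˣ} (h : Core ζ a)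

include h

open scoped IsMulCommutative in
/-- The center is trivial, by transfer to the preimage of a torus. -/
theorem center_trivial_of_sl2 (hperf : commutator G = ⊤) {F : Type} [Field F] [Fintype F] {k : ℕ}
    (hF : Fintype.card F = 2 ^ k) (hpk : p = 2 ^ k + 1) (φ : G →* Matrix.SpecialLinearGroup (Fin 2) F)
    (hφ : Function.Surjective φ) (hker : φ.ker = Subgroup.center G) : Subgroup.center G = ⊥ := by
  classical
  have hbig := h.big
  set q := 2 ^ k with hq
  obtain ⟨γ, hγ⟩ := IsCyclic.exists_generator (α := Fˣ)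
  have hγo : orderOf γ = q - 1 := by
    rw [orderOf_eq_card_of_forall_mem_zpowers hγ, Nat.card_eq_fintype_card, Fintype.card_units, hF]
  set d := slDiagHom F γ with hd
  have hdo : orderOf d = q - 1 := by
    rw [hd, orderOf_injective (slDiagHom F) (slDiagHom_injective F), hγo]
  set D : Subgroup (Matrix.SpecialLinearGroup (Fin 2) F) := Subgroup.zpowers d with hDdef
  have hDcard : Nat.card D = q - 1 := by
    rw [hDdef, Nat.card_zpowers, hdo]
  have hSL : Nat.card (Matrix.SpecialLinearGroup (Fin 2) F) = q * (q ^ 2 - 1) := by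
    rw [Cfsg.Agent.Lib.Classical.card_SL2_eq, hF]
  have hDidx : D.index = q * (q + 1) := by
    have h1 := Subgroup.index_mul_card D
    rw [hSL, hDcard] at h1
    have hq2 : q ^ 2 - 1 = (q + 1) * (q - 1) := by
      have h2 : 1 ≤ q := by omega
      obtain ⟨r, hr⟩ : ∃ r, q = r + 1 := ⟨q - 1, by omega⟩
      rw [hr]
      simp only [Nat.add_sub_cancel]
      ring_nf
      omega
    rw [hq2, ← mul_assoc] at h1
    exact Nat.eq_of_mul_eq_mul_right (by omega) h1
  set D' : Subgroup G := D.comap φ with hD'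
  have hD'idx : D'.index = q * (q + 1) := by
    rw [hD', Subgroup.index_comap_of_surjective _ hφ, hDidx]
  obtain ⟨d', hd'⟩ := hφ d
  have hform : ∀ x ∈ D', ∃ (i : ℤ) (c : G), c ∈ Subgroup.center G ∧ x = d' ^ i * c := by
    intro x hx
    obtain ⟨i, hi⟩ := (Subgroup.mem_zpowers_iff.mp hx : ∃ i : ℤ, d ^ i = φ x)
    refine ⟨i, (d' ^ i)⁻¹ * x, ?_, by group⟩
    rw [← hker, MonoidHom.mem_ker, map_mul, map_inv, map_zpow, hd', hi, inv_mul_cancel]
  have hcomm : ∀ x ∈ D', ∀ y ∈ D', x * y = y * x := by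
    intro x hx y hy
    obtain ⟨i, c, hc, rfl⟩ := hform x hx
    obtain ⟨j, c', hc', rfl⟩ := hform y hy
    have h1 : Commute (d' ^ i) (d' ^ j) := (Commute.refl d').zpow_zpow i j
    have h2 : Commute c (d' ^ j * c') := (Subgroup.mem_center_iff.mp hc _).symm
    have h3 : Commute (d' ^ i) c' := (Subgroup.mem_center_iff.mp hc' _)
    have h4 : Commute (d' ^ i * c) (d' ^ j * c') := by
      apply Commute.mul_left
      · exact h1.mul_right h3
      · exact h2
    exact h4.eq
  haveI : IsMulCommutative D' := ⟨⟨fun x y => Subtype.ext (hcomm x x.2 y y.2)⟩⟩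
  haveI : D'.FiniteIndex := inferInstance
  rw [Subgroup.eq_bot_iff_forall]
  intro z hz
  have hkey : ∀ (k : ℕ) (g₀ : G), g₀⁻¹ * z ^ k * g₀ ∈ D' → g₀⁻¹ * z ^ k * g₀ = z ^ k := by
    intro k g₀ _
    have h1 : z ^ k ∈ Subgroup.center G := Subgroup.pow_mem _ hz k
    rw [(Subgroup.mem_center_iff.mp h1 g₀⁻¹)]
    group
  have h1 := MonoidHom.transfer_eq_pow (MonoidHom.id D') z hkey
  have h2 := perfect_hom_trivial hperf (MonoidHom.transfer (MonoidHom.id D')) z
  rw [h2] at h1
  have h3 : z ^ D'.index = 1 := (congrArg Subtype.val h1).symm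
  rw [hD'idx] at h3
  have h4 := h.center_pow hperf hz
  have hp2 : p - 2 = q - 1 := by omega
  have hqo : Odd (q - 1) := by
    have h5 : 2 ≤ q := by omega
    have h6 : Even q := by
      rw [hq]
      have h7 : k ≠ 0 := by
        rintro rfl
        simp [hq] at hpk
        omega
      exact (Nat.even_pow.mpr ⟨even_two, h7⟩)
    exact Nat.Even.sub_odd (by omega) h6 odd_one
  have hcop : Nat.Coprime (q * (q + 1)) (q - 1) := by
    obtain ⟨r, hr⟩ : ∃ r, q = r + 1 := ⟨q - 1, by omega⟩
    rw [hr] at hqo ⊢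
    simp only [Nat.add_sub_cancel] at hqo ⊢
    apply Nat.Coprime.mul_left
    · simp
    · have h5 : Nat.Coprime 2 r := Nat.coprime_two_left.mpr hqo
      have h6 : r + 1 + 1 = 2 + r := by ring
      rw [h6]
      simpa using h5
  have h5 : orderOf z ∣ q * (q + 1) := orderOf_dvd_of_pow_eq_one h3
  have h6 : orderOf z ∣ q - 1 := by
    rw [← hp2]
    exact orderOf_dvd_of_pow_eq_one h4
  have h7 := Nat.eq_one_of_dvd_coprimes hcop h5 h6
  exact orderOf_eq_one_iff.mp h7

/-- The perfect case of the theorem. -/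
theorem perfect_case (hperf : commutator G = ⊤) (hnn : ¬ (P : Subgroup G).Normal) :
    Subgroup.center G = ⊥ ∧ ∃ (m : ℕ) (F : Type) (_ : Field F) (_ : Fintype F),
      Fintype.card F = 2 ^ m ∧ p = 2 ^ m + 1 ∧ Nonempty (G ≃* Matrix.SpecialLinearGroup (Fin 2) F) := by
  classical
  have hbig := h.big
  have hp7 := h.p_ge
  have hpp := hp.out
  have hN0 : Nat.card G = p * (P : Subgroup G).index := by
    have h1 := Subgroup.card_mul_index (P : Subgroup G)
    rw [h.card_P] at h1
    exact h1.symm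
  obtain ⟨α, m', hm, hm'⟩ := Nat.exists_eq_two_pow_mul_odd (n := (P : Subgroup G).index) Subgroup.index_ne_zero_of_finite
  have hN : Nat.card G = p * (2 ^ α * m') := by rw [hN0, hm']
  obtain ⟨u, hu⟩ := exists_WW hm (h.coprime_rest hN hm) 1
  obtain ⟨hb1, hb2⟩ := h.moment_bound hN hm hperf hu
  have hcG := h.card_G
  set n := Nat.card (Sylow p G) with hn
  set z := Nat.card (Subgroup.center G) with hz
  have hzpos : 0 < z := Nat.card_pos
  -- the quotient
  let π : G →* G ⧸ Subgroup.center G := QuotientGroup.mk' (Subgroup.center G)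
  have hπ : Function.Surjective π := QuotientGroup.mk'_surjective _
  have hcardH : Nat.card (G ⧸ Subgroup.center G) = n * (2 * p) := by
    have h1 := Subgroup.card_eq_card_quotient_mul_card_subgroup (Subgroup.center G)
    rw [hcG] at h1
    have h2 : (n * (2 * p)) * z = Nat.card (G ⧸ Subgroup.center G) * z := by
      rw [← h1]
      ring
    exact (Nat.eq_of_mul_eq_mul_right hzpos h2).symm
  have hperfH : commutator (G ⧸ Subgroup.center G) = ⊤ := by
    rw [commutator_def, ← Subgroup.map_top_of_surjective π hπ, ← Subgroup.map_commutator, ← commutator_def, hperf,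
      Subgroup.map_top_of_surjective π hπ]
  have hSn : ¬ ((P.mapSurjective hπ : Sylow p (G ⧸ Subgroup.center G)) : Subgroup (G ⧸ Subgroup.center G)).Normal := by
    intro hnS
    rw [Sylow.coe_mapSurjective] at hnS
    apply hnn
    constructor
    intro y hy x
    have h1 : π (x * y * x⁻¹) ∈ (P : Subgroup G).map π := by
      rw [map_mul, map_mul, map_inv]
      exact hnS.conj_mem _ ⟨y, hy, rfl⟩ _
    obtain ⟨y', hy', he⟩ := h1
    have h2 : y'⁻¹ * (x * y * x⁻¹) ∈ Subgroup.center G := QuotientGroup.eq.mp he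
    set c := y'⁻¹ * (x * y * x⁻¹) with hc
    have h3 : x * y * x⁻¹ = y' * c := by
      rw [hc]
      group
    have h4 : (x * y * x⁻¹) ^ p = 1 := by
      rw [conj_pow, pow_p_of_mem h.card_P hy, mul_one, mul_inv_cancel]
    have hcc : Commute y' c := (Subgroup.mem_center_iff.mp h2 y')
    rw [h3, hcc.mul_pow, pow_p_of_mem h.card_P hy', one_mul] at h4
    have h5 : orderOf c ∣ p := orderOf_dvd_of_pow_eq_one h4
    rcases (Nat.dvd_prime hpp).mp h5 with h6 | h6
    · have h7 : c = 1 := orderOf_eq_one_iff.mp h6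
      rw [h3, h7, mul_one]
      exact hy'
    · exact absurd (h6 ▸ dvd_rfl) (h.not_dvd_orderOf_center h2)
  have hcube : Nat.card (G ⧸ Subgroup.center G) < p ^ 3 := by
    rw [hcardH]
    obtain ⟨s, rfl⟩ : ∃ s, p = s + 2 := ⟨p - 2, by omega⟩
    simp only [Nat.add_sub_cancel] at hb1
    have h1 : s + 2 - 1 = s + 1 := by omega
    rw [h1] at hb1
    calc n * (2 * (s + 2)) = (2 * n) * (s + 2) := by ring
      _ ≤ (s * (s + 1)) * (s + 2) := Nat.mul_le_mul_right _ hb1
      _ < (s + 2) ^ 3 := by nlinarith [sq_nonneg s]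
  have hdvdH : p ∣ Nat.card (G ⧸ Subgroup.center G) := by
    rw [hcardH]
    exact ⟨n * 2, by ring⟩
  rcases Small.BD.perfect_cube hperfH p hdvdH hcube (P.mapSurjective hπ) hSn (no_normal_two hperf) with
    ⟨F, _, _, hF, -, ⟨e⟩⟩ | ⟨k, F, _, _, hF, hpk, -, ⟨e⟩⟩
  · -- the projective case is impossible
    exfalso
    have h1 := Cfsg.Agent.Lib.Classical.card_psl2_odd (F := F) hF (hpp.odd_of_ne_two h.odd_p)
    rw [← Nat.card_congr e.toEquiv, hcardH] at h1
    have h2 : p * (4 * n) = p * (p ^ 2 - 1) := by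
      rw [← h1]
      ring
    have h3 : 4 * n = p ^ 2 - 1 := Nat.eq_of_mul_eq_mul_left hpp.pos h2
    have hmod : n ≡ 1 [MOD p] := card_sylow_modEq_one p G
    have h4 : 4 * n + 1 = p ^ 2 := by
      have : 1 ≤ p ^ 2 := Nat.one_le_pow _ _ hpp.pos
      omega
    have h5 : 4 * n + 1 ≡ 4 * 1 + 1 [MOD p] := (hmod.mul_left 4).add_right 1
    rw [h4] at h5
    have h6 : p ^ 2 ≡ 0 [MOD p] := (Nat.modEq_zero_iff_dvd).mpr (dvd_pow_self p (by norm_num))
    have h7 : 5 ≡ 0 [MOD p] := h5.symm.trans h6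
    have h8 : p ∣ 5 := (Nat.modEq_zero_iff_dvd).mp h7
    have := Nat.le_of_dvd (by norm_num) h8
    omega
  · -- the special linear case
    let φ : G →* Matrix.SpecialLinearGroup (Fin 2) F := e.toMonoidHom.comp π
    have hφ : Function.Surjective φ := e.surjective.comp hπ
    have hker : φ.ker = Subgroup.center G := by
      ext x
      rw [MonoidHom.mem_ker]
      show e (π x) = 1 ↔ _
      rw [map_eq_one_iff e e.injective]
      exact QuotientGroup.eq_one_iff x
    have hZ := h.center_trivial_of_sl2 hperf hF hpk φ hφ hker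
    refine ⟨hZ, k, F, inferInstance, inferInstance, hF, hpk, ⟨MulEquiv.ofBijective φ ⟨?_, hφ⟩⟩⟩
    rw [injective_iff_map_eq_one]
    intro x hx
    have h1 : x ∈ φ.ker := hx
    rw [hker, hZ] at h1
    exact Subgroup.mem_bot.mp h1

end Core

end Cfsg.Agent.Lib.BT.PM2
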