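import Cfsg.Agent.Lib.BT.PM2H

/-! Faithful characters of degree `p - 2`: the main theorem. -/

set_option autoImplicit false
set_option linter.unusedSectionVars false
set_option linter.unusedVariables false

namespace Cfsg.Agent.Lib.BT.PM2

open Cfsg Cfsg.Agent.Lib.Char Cfsg.Agent.Lib.Blocks Cfsg.Agent.Lib.DefOne Finset
open scoped ComplexConjugate commutatorElement

universe u

attribute [local instance] fintypeOfSubgroup

/-- The main theorem on faithful characters of degree `p - 2`. -/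
theorem main {G : Type u} [Group G] [Fintype G] (p : ℕ) [hp : Fact p.Prime] (hp5 : 5 < p) (P : Sylow p G) (hP : Nat.card P = p)
    (hnn : ¬ (P : Subgroup G).Normal) (ζ : G → ℂ) (hζ : IsIrrCharacter G ζ) (hfaith : ∀ g : G, ζ g = ζ 1 → g = 1)
    (hdeg : charDegree ζ = p - 2) :
    ∃ (a : ℕ) (F : Type) (_ : Field F) (_ : Fintype F), p = 2 ^ a + 1 ∧ Fintype.card F = 2 ^ a ∧
      Nonempty (G ≃* Matrix.SpecialLinearGroup (Fin 2) F × Subgroup.center G) := by
  classical
  have hP' : Nat.card (P : Subgroup G) = p := hP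
  obtain ⟨a, ha, hval, hcent, hidx⟩ := partI hP' hp5 hnn ⟨ζ, hζ⟩ hfaith hdeg
  have hone : ζ 1 = ((p - 2 : ℕ) : ℂ) := by
    rw [apply_one_eq_charDegree (IsIrrCharacter.isCharacter hζ), hdeg]
  have h : Core ζ a := ⟨hP', hp5, hζ, hfaith, hone, ha, hval, hcent, hidx⟩
  have hsup := h.sup_center_eq_top
  have hPG := h.le_commutator
  obtain ⟨L, hL⟩ : ∃ L : Subgroup G, L = commutator G := ⟨_, rfl⟩
  rw [← hL] at hsup hPG
  have hdec : ∀ g : G, ∃ l ∈ L, ∃ c ∈ Subgroup.center G, l * c = g := by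
    intro g
    have h1 : g ∈ ((L ⊔ Subgroup.center G : Subgroup G) : Set G) := by
      rw [hsup]
      trivial
    rw [Subgroup.mul_normal] at h1
    obtain ⟨l, hl, c, hc, rfl⟩ := Set.mem_mul.mp h1
    exact ⟨l, hl, c, hc, rfl⟩
  -- `L` is perfect
  have hperfL : commutator L = ⊤ := by
    have h1 : commutator G ≤ (commutator L).map L.subtype := by
      rw [commutator_def G, Subgroup.commutator_le]
      intro g₁ _ g₂ _
      obtain ⟨l₁, hl₁, c₁, hc₁, rfl⟩ := hdec g₁
      obtain ⟨l₂, hl₂, c₂, hc₂, rfl⟩ := hdec g₂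
      have h2 : ⁅l₁ * c₁, l₂ * c₂⁆ = ⁅l₁, l₂⁆ := by
        rw [commutatorElement_def, commutatorElement_def]
        have h3 : ∀ x : G, c₁ * x = x * c₁ := fun x => (Subgroup.mem_center_iff.mp hc₁ x).symm
        have h4 : ∀ x : G, c₂ * x = x * c₂ := fun x => (Subgroup.mem_center_iff.mp hc₂ x).symm
        calc l₁ * c₁ * (l₂ * c₂) * (l₁ * c₁)⁻¹ * (l₂ * c₂)⁻¹
            = l₁ * (c₁ * (l₂ * c₂) * c₁⁻¹) * l₁⁻¹ * (l₂ * c₂)⁻¹ := by group
          _ = l₁ * (l₂ * c₂) * l₁⁻¹ * (l₂ * c₂)⁻¹ := by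
              rw [h3 (l₂ * c₂), mul_inv_cancel_right]
          _ = l₁ * l₂ * (c₂ * l₁⁻¹) * c₂⁻¹ * l₂⁻¹ := by group
          _ = l₁ * l₂ * (l₁⁻¹ * c₂) * c₂⁻¹ * l₂⁻¹ := by rw [h4 l₁⁻¹]
          _ = _ := by group
      rw [h2]
      exact ⟨⁅(⟨l₁, hl₁⟩ : L), (⟨l₂, hl₂⟩ : L)⁆, Subgroup.commutator_mem_commutator (Subgroup.mem_top _) (Subgroup.mem_top _), rfl⟩
    rw [eq_top_iff]
    intro l _
    have h2 : (l : G) ∈ commutator G := by
      rw [← hL]
      exact l.2
    obtain ⟨l', hl', he⟩ := h1 h2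
    have h3 : l' = l := Subtype.ext he
    rw [← h3]
    exact hl'
  -- the product map
  let T : L × Subgroup.center G →* G := MonoidHom.noncommCoprod L.subtype (Subgroup.center G).subtype
    (fun l c => (Subgroup.mem_center_iff.mp c.2 l))
  have hTapp : ∀ x : L × Subgroup.center G, T x = (x.1 : G) * x.2 := fun x => rfl
  have hT : Function.Surjective T := by
    intro g
    obtain ⟨l, hl, c, hc, rfl⟩ := hdec g
    exact ⟨(⟨l, hl⟩, ⟨c, hc⟩), rfl⟩
  -- the restriction is irreducible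
  let ζL : L → ℂ := fun l => ζ l
  have hirrL : IsIrrCharacter L ζL := by
    apply isIrrCharacter_of_classInner_self (isCharacter_resFun L (IsIrrCharacter.isCharacter hζ))
    have h1 := classInner_comp_surj T hT ζ ζ
    rw [classInner_irr_self hζ] at h1
    rw [← h1]
    simp only [classInner, Function.comp_apply]
    rw [Fintype.sum_prod_type, Nat.card_prod]
    have h2 : ∀ l : L, ∑ c : Subgroup.center G, ζ (T (l, c)) * conj (ζ (T (l, c))) = (Nat.card (Subgroup.center G) : ℂ) * Fn ζ l := by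
      intro l
      have h3 : ∀ c : Subgroup.center G, ζ (T (l, c)) * conj (ζ (T (l, c))) = Fn ζ l := fun c => h.Fn_center _ c.2
      rw [sum_congr rfl (fun c _ => h3 c), sum_const, card_univ, nsmul_eq_mul, Nat.card_eq_fintype_card]
    rw [sum_congr rfl (fun l _ => h2 l), ← mul_sum]
    have hc1 : (Nat.card L : ℂ) ≠ 0 := by exact_mod_cast Nat.card_pos.ne'
    have hc2 : (Nat.card (Subgroup.center G) : ℂ) ≠ 0 := by exact_mod_cast Nat.card_pos.ne'
    push_cast
    simp only [Fn]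
    field_simp
  -- the Sylow subgroup of `L`
  let PL : Sylow p L := P.subtype hPG
  have hmemPL : ∀ x : L, x ∈ (PL : Subgroup L) ↔ (x : G) ∈ (P : Subgroup G) := by
    intro x
    simp only [PL, Sylow.coe_subtype]
    exact Subgroup.mem_subgroupOf
  have hPL : Nat.card (PL : Subgroup L) = p := by
    have h1 : (PL : Subgroup L) = (P : Subgroup G).subgroupOf L := Sylow.coe_subtype _ _
    rw [h1, Nat.card_congr (Subgroup.subgroupOfEquivOfLe hPG).toEquiv]
    exact hP'
  have hnnL : ¬ (PL : Subgroup L).Normal := by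
    intro hn
    apply hnn
    constructor
    intro y hy g
    obtain ⟨l, hl, c, hc, rfl⟩ := hdec g
    have h1 := hn.conj_mem (⟨y, hPG hy⟩ : L) ((hmemPL _).mpr hy) ⟨l, hl⟩
    have h2 := (hmemPL _).mp h1
    have h3 : (l * c) * y * (l * c)⁻¹ = l * y * l⁻¹ := by
      have h4 : c * y = y * c := (Subgroup.mem_center_iff.mp hc y).symm
      calc (l * c) * y * (l * c)⁻¹ = l * (c * y) * c⁻¹ * l⁻¹ := by group
        _ = l * (y * c) * c⁻¹ * l⁻¹ := by rw [h4]
        _ = _ := by group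
    rw [h3]
    exact h2
  have hfaithL : ∀ l : L, ζL l = ζL 1 → l = 1 := fun l hl => Subtype.ext (hfaith _ hl)
  have hdegL : charDegree ζL = p - 2 := hdeg
  obtain ⟨aL, haL, hvalL, hcentL, hidxL⟩ := partI (P := PL) hPL hp5 hnnL ⟨ζL, hirrL⟩ hfaithL hdegL
  have hcore : Core ζL aL := ⟨hPL, hp5, hirrL, hfaithL, hone, haL, hvalL, hcentL, hidxL⟩
  obtain ⟨hZL, m, F, iF, fF, hF, hpm, ⟨eL⟩⟩ := hcore.perfect_case hperfL hnnL
  have hTinj : Function.Injective T := by
    rw [injective_iff_map_eq_one]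
    rintro ⟨l, c⟩ hx
    have h1 : (l : G) * c = 1 := hx
    have h2 : (l : G) = (c : G)⁻¹ := eq_inv_of_mul_eq_one_left h1
    have h3 : (l : G) ∈ Subgroup.center G := by
      rw [h2]
      exact (Subgroup.center G).inv_mem c.2
    have h4 : l ∈ Subgroup.center L := by
      rw [Subgroup.mem_center_iff]
      intro w
      apply Subtype.ext
      exact Subgroup.mem_center_iff.mp h3 w
    rw [hZL] at h4
    have h5 : l = 1 := Subgroup.mem_bot.mp h4
    subst h5
    have h6 : (c : G) = 1 := by simpa using h1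
    have h7 : c = 1 := Subtype.ext h6
    rw [h7]
    rfl
  refine ⟨m, F, iF, fF, hpm, hF, ⟨?_⟩⟩
  exact (MulEquiv.ofBijective T ⟨hTinj, hT⟩).symm.trans (MulEquiv.prodCongr eL (MulEquiv.refl _))

end Cfsg.Agent.Lib.BT.PM2
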