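import Cfsg.Agent.Lib.BT.Tens
import Cfsg.Agent.Lib.Char.Galois
import Cfsg.Agent.Lib.Char.FSCount

/-! The case `e = 2` with a character of degree `p - 1`: the values and the order of the group. -/

set_option autoImplicit false
set_option linter.unusedSectionVars false
set_option linter.unusedVariables false

namespace Cfsg.Agent.Lib.BT

open Cfsg Cfsg.Agent.Lib.Char Cfsg.Agent.Lib.Blocks Cfsg.Agent.Lib.Small.BD Subgroup MulAction
open scoped ComplexConjugate

universe u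

variable {G : Type u} [Group G] [Fintype G] {p : ℕ} [hp : Fact p.Prime]

/-- The `p`-regular elements. -/
noncomputable abbrev RR (G : Type u) [Group G] [Fintype G] (p : ℕ) : Finset G := Finset.univ.filter (fun g : G => ¬ p ∣ orderOf g)

theorem sum_irr_eq_zero {χ : IrrCharacter G} (hne : χ ≠ oneIrr G) : ∑ g : G, (χ : G → ℂ) g = 0 := by
  have h1 := classInner_irr_of_ne χ.2 isIrrCharacter_one (fun e => hne (Subtype.ext e))
  rw [classInner] at h1
  have hc : (Nat.card G : ℂ)⁻¹ ≠ 0 := inv_ne_zero (by exact_mod_cast Nat.card_pos.ne')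
  have h2 := (mul_eq_zero.mp h1).resolve_left hc
  simpa using h2

theorem sum_Lam_self (χ : IrrCharacter G) : ∑ g : G, Lam χ χ g = (Nat.card G : ℂ) := by
  have h1 := classInner_irr_self χ.2
  rw [classInner] at h1
  have hc : (Nat.card G : ℂ) ≠ 0 := by exact_mod_cast Nat.card_pos.ne'
  field_simp at h1
  exact h1

theorem sum_Lam_ne {χ χ' : IrrCharacter G} (hne : χ ≠ χ') : ∑ g : G, Lam χ χ' g = 0 := by
  have h1 := classInner_irr_of_ne χ.2 χ'.2 (fun e => hne (Subtype.ext e))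
  rw [classInner] at h1
  have hc : (Nat.card G : ℂ)⁻¹ ≠ 0 := inv_ne_zero (by exact_mod_cast Nat.card_pos.ne')
  exact (mul_eq_zero.mp h1).resolve_left hc

variable {P : Sylow p G} {m t : ℕ}

namespace SC

theorem sum_P_sub (h : SC P 2 m t) [Fintype (P : Subgroup G)] (F : G → ℂ) (a : ℂ) (hF : ∀ y ∈ (P : Subgroup G), y ≠ 1 → F y = a) :
    ∑ y : (P : Subgroup G), F y - F 1 = ((p : ℂ) - 1) * a := by
  classical
  rw [← Finset.add_sum_erase Finset.univ (fun y : (P : Subgroup G) => F y) (Finset.mem_univ (1 : (P : Subgroup G)))]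
  have h1 : ∀ y ∈ (Finset.univ : Finset (P : Subgroup G)).erase 1, F (y : G) = a := fun y hy =>
    hF y y.2 (fun e0 => (Finset.ne_of_mem_erase hy) (Subtype.ext e0))
  rw [Finset.sum_congr rfl h1, Finset.sum_const, Finset.card_erase_of_mem (Finset.mem_univ _), Finset.card_univ,
    ← Nat.card_eq_fintype_card, h.card_P, nsmul_eq_mul]
  have hp1 : 1 ≤ p := hp.out.one_lt.le
  push_cast [Nat.cast_sub hp1]
  simp

end SC

/-- The hypotheses: `e = 2`, and a negative character of degree `p - 1`. -/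
structure Two (h : SC P 2 m t) (D : Dat P 2 t) (χ₁ : IrrCharacter G) : Prop where
  mem : χ₁ ∈ D.B
  deg : charDegree (χ₁ : G → ℂ) = p - 1

namespace Two

variable {h : SC P 2 m t} {D : Dat P 2 t} {χ₁ : IrrCharacter G} (H : Two h D χ₁)

include H

theorem p_ge : 5 ≤ p := by
  have h1 := h.te
  have h2 := h.t_ge
  omega

theorem A_empty : D.A = ∅ := by
  have h1 := D.card_AB
  have h2 : 0 < D.B.card := Finset.card_pos.mpr ⟨_, H.mem⟩
  have h3 : D.A.card = 0 := by omega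
  exact Finset.card_eq_zero.mp h3

theorem B_eq : D.B = {χ₁} := by
  have h1 := D.card_AB
  have h2 : 0 < D.B.card := Finset.card_pos.mpr ⟨_, H.mem⟩
  have h3 : D.B.card = 1 := by omega
  obtain ⟨a, ha⟩ := Finset.card_eq_one.mp h3
  have h4 := H.mem
  rw [ha, Finset.mem_singleton] at h4
  rw [ha, h4]

theorem rel₂ {θ : IrrCharacter G} (hθ : θ ∈ D.Y) {g : G} (hg : ¬ p ∣ orderOf g) :
    (D.ε : ℂ) * (θ : G → ℂ) g = 1 - (χ₁ : G → ℂ) g := by
  have h1 := D.rel θ hθ g hg
  rw [H.A_empty, H.B_eq] at h1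
  simpa using h1

theorem one_val : (χ₁ : G → ℂ) 1 = (p : ℂ) - 1 := by
  rw [apply_one_eq_charDegree (IsIrrCharacter.isCharacter χ₁.2), H.deg]
  have hp1 : 1 ≤ p := hp.out.one_lt.le
  push_cast [Nat.cast_sub hp1]
  rfl

theorem not_one : ¬ p ∣ orderOf (1 : G) := by simpa using hp.out.ne_one

theorem eps_deg {θ : IrrCharacter G} (hθ : θ ∈ D.Y) : D.ε = -1 ∧ (charDegree (θ : G → ℂ) : ℤ) = p - 2 := by
  have h1 := H.rel₂ hθ H.not_one
  rw [H.one_val, apply_one_eq_charDegree (IsIrrCharacter.isCharacter θ.2)] at h1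
  have h2 : (D.ε * (charDegree (θ : G → ℂ) : ℤ) : ℤ) = 2 - (p : ℤ) := by
    have h3 : (((D.ε * (charDegree (θ : G → ℂ) : ℤ) : ℤ)) : ℂ) = ((2 - (p : ℤ) : ℤ) : ℂ) := by
      push_cast
      linear_combination h1
    exact_mod_cast h3
  have hd := h.deg_ne_zero θ
  have hd' : (0 : ℤ) < charDegree (θ : G → ℂ) := by
    exact_mod_cast Nat.pos_of_ne_zero hd
  have hp5 : (5 : ℤ) ≤ p := by exact_mod_cast H.p_ge
  rcases D.ε_sign with e0 | e0
  · rw [e0] at h2
    exfalso
    linarith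
  · rw [e0] at h2
    exact ⟨e0, by linarith⟩

theorem exists_Y : ∃ θ, θ ∈ D.Y := by
  have h1 := D.card_Y
  have h2 := h.t_ge
  exact Finset.card_pos.mp (by omega)

theorem eps : D.ε = -1 := by
  obtain ⟨θ, hθ⟩ := H.exists_Y
  exact (H.eps_deg hθ).1

theorem Y_reg' {θ : IrrCharacter G} (hθ : θ ∈ D.Y) {g : G} (hg : ¬ p ∣ orderOf g) :
    (θ : G → ℂ) g = (χ₁ : G → ℂ) g - 1 := by
  have h1 := H.rel₂ hθ hg
  rw [H.eps] at h1
  push_cast at h1
  linear_combination -h1

theorem Y_deg {θ : IrrCharacter G} (hθ : θ ∈ D.Y) : charDegree (θ : G → ℂ) = p - 2 := by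
  have h1 := (H.eps_deg hθ).2
  have hp5 := H.p_ge
  omega

theorem Y_T' [Fintype (P : Subgroup G)] {θ : IrrCharacter G} (hθ : θ ∈ D.Y) : T (P : Subgroup G) θ = 1 := by
  have h1 := h.Y_T D hθ
  rw [H.eps, (H.eps_deg hθ).2] at h1
  push_cast at h1
  have hpos : (0 : ℤ) < p := by exact_mod_cast hp.out.pos
  have h2 : ((T (P : Subgroup G) θ : ℤ) - 1) * p = 0 := by linear_combination h1
  have h3 : (T (P : Subgroup G) θ : ℤ) = 1 := by
    rcases mul_eq_zero.mp h2 with h4 | h4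
    · linarith
    · exfalso; linarith
  exact_mod_cast h3

theorem T_one [Fintype (P : Subgroup G)] : T (P : Subgroup G) χ₁ = 0 := by
  have h1 := h.B_T D H.mem
  have hp1 : 1 ≤ p := hp.out.one_lt.le
  rw [H.deg] at h1
  push_cast [Nat.cast_sub hp1] at h1
  have hpos : (p : ℤ) ≠ 0 := by exact_mod_cast hp.out.ne_zero
  have h2 : (T (P : Subgroup G) χ₁ : ℤ) * p = 0 := by linear_combination h1
  have h3 := (mul_eq_zero.mp h2).resolve_right hpos
  exact_mod_cast h3

theorem ne_one : χ₁ ≠ oneIrr G := by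
  intro h0
  exact D.oB (h0 ▸ H.mem)

theorem val_P {y : G} (hy : y ∈ (P : Subgroup G)) (hy1 : y ≠ 1) : (χ₁ : G → ℂ) y = -1 := D.B_val χ₁ H.mem y hy hy1

theorem val_sing {g : G} (hg : p ∣ orderOf g) : (χ₁ : G → ℂ) g = -1 := by
  obtain ⟨ho, S, hS⟩ := h.singular g hg
  obtain ⟨a, rfl⟩ := MulAction.exists_smul_eq G P S
  rw [mem_smul_sylow] at hS
  have hg1 : a⁻¹ * g * a ≠ 1 := by
    intro h0
    have h1 : g = 1 := by
      have h2 : g = a * (a⁻¹ * g * a) * a⁻¹ := by group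
      rw [h2, h0]
      group
    rw [h1, orderOf_one] at ho
    exact hp.out.ne_one ho.symm
  have h1 := H.val_P hS hg1
  have h2 := irr_isClassFunction χ₁ g a⁻¹
  rw [inv_inv] at h2
  rw [← h2, h1]

/-- Galois conjugates. -/
theorem pow_eq {k : ℕ} (hk : k.Coprime (Nat.card G)) (g : G) : (χ₁ : G → ℂ) (g ^ k) = (χ₁ : G → ℂ) g := by
  classical
  let χ' : IrrCharacter G := ⟨fun g => (χ₁ : G → ℂ) (g ^ k), isIrrCharacter_pow χ₁.2 hk⟩
  have hχ' : ∀ g, (χ' : G → ℂ) g = (χ₁ : G → ℂ) (g ^ k) := fun _ => rfl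
  obtain ⟨y, hy, hy1⟩ := h.exists_ne_one_mem
  have hco : k.Coprime p := by
    have h1 : p ∣ Nat.card G := by
      rw [h.card_G]
      exact Dvd.dvd.mul_left (Dvd.intro _ rfl) _
    exact Nat.Coprime.coprime_dvd_right h1 hk
  have hyk : y ^ k ∈ (P : Subgroup G) := pow_mem hy k
  have hy1k : y ^ k ≠ 1 := by
    intro h0
    have h1 : orderOf y ∣ k := orderOf_dvd_of_pow_eq_one h0
    have h2 : orderOf y = p := h.orderOf_of_mem P hy hy1
    rw [h2] at h1
    have h3 := Nat.Coprime.eq_one_of_dvd hco.symm h1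
    exact hp.out.ne_one h3
  have hv : (χ' : G → ℂ) y = -1 := by
    rw [hχ']
    exact H.val_P hyk hy1k
  have hB : χ' ∈ D.B := by
    by_contra hB
    have hne : χ' ≠ oneIrr G := by
      intro h0
      rw [h0] at hv
      have h1 : ((oneIrr G : IrrCharacter G) : G → ℂ) y = 1 := rfl
      rw [h1] at hv
      norm_num at hv
    have hA : χ' ∉ D.A := by
      rw [H.A_empty]
      simp
    have hY : χ' ∉ D.Y := by
      intro hY
      have h1 := H.Y_deg hY
      have h2 : (χ' : G → ℂ) 1 = (χ₁ : G → ℂ) 1 := by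
        rw [hχ', one_pow]
      rw [apply_one_eq_charDegree (IsIrrCharacter.isCharacter χ'.2), apply_one_eq_charDegree (IsIrrCharacter.isCharacter χ₁.2), h1, H.deg] at h2
      have h3 : p - 2 = p - 1 := by exact_mod_cast h2
      have := H.p_ge
      omega
    have h1 := D.Z_val χ' hne hA hB hY y hy hy1
    rw [hv] at h1
    norm_num at h1
  rw [H.B_eq, Finset.mem_singleton] at hB
  have h1 : (χ' : G → ℂ) g = (χ₁ : G → ℂ) g := by rw [hB]
  exact h1

theorem exists_int (g : G) : ∃ c : ℤ, (χ₁ : G → ℂ) g = c := by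
  haveI : NeZero (Nat.card G) := ⟨Nat.card_pos.ne'⟩
  have hχ := IsIrrCharacter.isCharacter χ₁.2
  apply int_of_isIntegral_of_rat (IsCharacter.isIntegral hχ g)
  apply rat_of_forall_sigma (n := Nat.card G) (character_mem_cycField hχ g)
  intro σ k hk hσ
  rw [sigma_character hχ σ k hσ g, H.pow_eq hk]

/-- The integer values. -/
noncomputable def c (H : Two h D χ₁) (g : G) : ℤ := (H.exists_int g).choose

theorem c_spec (g : G) : (χ₁ : G → ℂ) g = (H.c g : ℂ) := (H.exists_int g).choose_spec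

theorem c_le (g : G) : H.c g ≤ (p : ℤ) - 1 := by
  have h1 := IsCharacter.norm_le (IsIrrCharacter.isCharacter χ₁.2) g
  rw [H.c_spec, H.one_val] at h1
  have hp1 : (1 : ℝ) ≤ p := by exact_mod_cast hp.out.one_lt.le
  have h2 : ‖(p : ℂ) - 1‖ = (p : ℝ) - 1 := by
    have h3 : ((p : ℂ) - 1) = (((p : ℝ) - 1 : ℝ) : ℂ) := by push_cast; rfl
    rw [h3, Complex.norm_real, Real.norm_eq_abs, abs_of_nonneg (by linarith)]
  rw [h2, Complex.norm_intCast] at h1
  have h4 : (H.c g : ℝ) ≤ (p : ℝ) - 1 := le_trans (le_abs_self _) h1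
  exact_mod_cast h4

theorem c_one : H.c 1 = (p : ℤ) - 1 := by
  have h1 := H.c_spec 1
  rw [H.one_val] at h1
  have h2 : (((p : ℤ) - 1 : ℤ) : ℂ) = (H.c 1 : ℂ) := by
    push_cast
    exact h1
  exact_mod_cast h2.symm

theorem c_sing {g : G} (hg : p ∣ orderOf g) : H.c g = -1 := by
  have h1 := H.c_spec g
  rw [H.val_sing hg] at h1
  have h2 : ((-1 : ℤ) : ℂ) = (H.c g : ℂ) := by
    push_cast
    exact h1
  exact_mod_cast h2.symm

theorem Y_val {θ : IrrCharacter G} (hθ : θ ∈ D.Y) {g : G} (hg : ¬ p ∣ orderOf g) : (θ : G → ℂ) g = ((H.c g - 1 : ℤ) : ℂ) := by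
  rw [H.Y_reg' hθ hg, H.c_spec]
  push_cast
  rfl

end Two

end Cfsg.Agent.Lib.BT
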