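import Cfsg.Agent.Lib.BT.TwoA

/-! The case `e = 2` with a character of degree `p - 1`: the moment identity. -/

set_option autoImplicit false
set_option linter.unusedSectionVars false
set_option linter.unusedVariables false

namespace Cfsg.Agent.Lib.BT

open Cfsg Cfsg.Agent.Lib.Char Cfsg.Agent.Lib.Blocks Cfsg.Agent.Lib.Small.BD Subgroup MulAction
open scoped ComplexConjugate

universe u

variable {G : Type u} [Group G] [Fintype G] {p : ℕ} [hp : Fact p.Prime]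
variable {P : Sylow p G} {m t : ℕ}

namespace Two

variable {h : SC P 2 m t} {D : Dat P 2 t} {χ₁ : IrrCharacter G} (H : Two h D χ₁)

include H

theorem n_ne : ((1 + m * p : ℕ) : ℂ) ≠ 0 := by
  exact_mod_cast (by omega : 1 + m * p ≠ 0)

theorem card_G_int : (Nat.card G : ℤ) = (1 + m * p) * (p * 2) := by
  rw [h.card_G]
  push_cast
  ring

variable [Fintype (P : Subgroup G)]

/-- The first moment. -/
theorem sum_c : ∑ g ∈ RR G p, H.c g = (1 + m * p : ℤ) * ((p : ℤ) - 1) := by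
  have h1 := h.sum_split (χ₁ : G → ℂ) (irr_isClassFunction χ₁)
  rw [sum_irr_eq_zero H.ne_one, h.sum_P_sub (χ₁ : G → ℂ) (-1) (fun y hy hy1 => H.val_P hy hy1)] at h1
  have h3 : ∑ g ∈ RR G p, (χ₁ : G → ℂ) g = ((∑ g ∈ RR G p, H.c g : ℤ) : ℂ) := by
    push_cast
    exact Finset.sum_congr rfl (fun g _ => H.c_spec g)
  rw [h3] at h1
  have h4 : ((∑ g ∈ RR G p, H.c g : ℤ) : ℂ) = (((1 + m * p : ℤ) * ((p : ℤ) - 1) : ℤ) : ℂ) := by
    rw [Int.cast_mul]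
    push_cast at h1 ⊢
    linear_combination -h1
  exact_mod_cast h4

/-- The second moment. -/
theorem sum_c2 : ∑ g ∈ RR G p, (H.c g) ^ 2 = (Nat.card G : ℤ) - (1 + m * p : ℤ) * ((p : ℤ) - 1) := by
  have h1 := h.sum_split (Lam χ₁ χ₁) (isClassFunction_Lam χ₁ χ₁)
  rw [sum_Lam_self, h.sum_P_sub (Lam χ₁ χ₁) 1 (fun y hy hy1 => by
    simp only [Lam]
    rw [H.val_P hy hy1]
    simp)] at h1
  have h3 : ∑ g ∈ RR G p, Lam χ₁ χ₁ g = ((∑ g ∈ RR G p, (H.c g) ^ 2 : ℤ) : ℂ) := by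
    push_cast
    refine Finset.sum_congr rfl (fun g _ => ?_)
    simp only [Lam]
    rw [H.c_spec g, map_intCast]
    ring
  rw [h3] at h1
  have h4 : ((∑ g ∈ RR G p, (H.c g) ^ 2 : ℤ) : ℂ) = (((Nat.card G : ℤ) - (1 + m * p : ℤ) * ((p : ℤ) - 1) : ℤ) : ℂ) := by
    rw [Int.cast_sub, Int.cast_mul]
    push_cast at h1 ⊢
    linear_combination -h1
  exact_mod_cast h4

omit H in
theorem card_RR (h : SC P 2 m t) : ((RR G p).card : ℤ) = (Nat.card G : ℤ) - (1 + m * p : ℤ) * ((p : ℤ) - 1) := by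
  have h1 := h.sum_split (fun _ => (1 : ℂ)) (fun _ _ => rfl)
  rw [h.sum_P_sub (fun _ => (1 : ℂ)) 1 (fun y hy hy1 => rfl)] at h1
  simp only [Finset.sum_const, nsmul_eq_mul, mul_one, Finset.card_univ, ← Nat.card_eq_fintype_card] at h1
  have h4 : (((RR G p).card : ℤ) : ℂ) = (((Nat.card G : ℤ) - (1 + m * p : ℤ) * ((p : ℤ) - 1) : ℤ) : ℂ) := by
    rw [Int.cast_sub, Int.cast_mul]
    push_cast at h1 ⊢
    linear_combination -h1
  exact_mod_cast h4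

theorem Lam_val {θ₁ θ₂ : IrrCharacter G} (h₁ : θ₁ ∈ D.Y) (h₂ : θ₂ ∈ D.Y) {g : G} (hg : ¬ p ∣ orderOf g) :
    Lam θ₁ θ₂ g = (((H.c g - 1) ^ 2 : ℤ) : ℂ) := by
  simp only [Lam]
  rw [H.Y_val h₁ hg, H.Y_val h₂ hg, map_intCast]
  push_cast
  ring

/-- The sum of `θ₁ θ̄₂` over the nonidentity elements of `P`. -/
theorem X_eq {θ₁ θ₂ : IrrCharacter G} (h₁ : θ₁ ∈ D.Y) (h₂ : θ₂ ∈ D.Y) (hne : θ₁ ≠ θ₂) :
    ∑ y : (P : Subgroup G), Lam θ₁ θ₂ y - Lam θ₁ θ₂ 1 = -4 := by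
  have e1 := h.sum_split (Lam θ₁ θ₂) (isClassFunction_Lam θ₁ θ₂)
  have e2 := h.sum_split (Lam θ₁ θ₁) (isClassFunction_Lam θ₁ θ₁)
  rw [sum_Lam_ne hne] at e1
  rw [sum_Lam_self] at e2
  have e3 := h.Y_norm_P D h₁
  have e4 : ∑ y : (P : Subgroup G), Lam θ₁ θ₁ y - Lam θ₁ θ₁ 1 = (2 : ℂ) * ((p : ℂ) - 2) := by
    simp only [Lam]
    simpa using e3
  rw [e4] at e2
  have e5 : ∑ g ∈ RR G p, Lam θ₁ θ₂ g = ∑ g ∈ RR G p, Lam θ₁ θ₁ g := by
    refine Finset.sum_congr rfl (fun g hg => ?_)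
    have hg' := (Finset.mem_filter.mp hg).2
    rw [H.Lam_val h₁ h₂ hg', H.Lam_val h₁ h₁ hg']
  rw [e5] at e1
  have e6 : (Nat.card G : ℂ) = ((1 + m * p : ℕ) : ℂ) * ((p : ℂ) * 2) := by
    rw [h.card_G]
    push_cast
    ring
  rw [e6] at e2
  apply mul_left_cancel₀ H.n_ne
  linear_combination e2 - e1

/-- The multiplicity of `χ₁` in `θ₁ θ̄₂`. -/
theorem mm_chi {θ₁ θ₂ : IrrCharacter G} (h₁ : θ₁ ∈ D.Y) (h₂ : θ₂ ∈ D.Y) (hne : θ₁ ≠ θ₂) {mm : IrrCharacter G → ℕ}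
    (hd : Dec (Lam θ₁ θ₂) mm) : mm χ₁ = 1 := by
  classical
  have hp5 := H.p_ge
  have hm1 : mm (oneIrr G) = 0 := Dec.one_ne hne hd
  have hdeg₁ := H.Y_deg h₁
  have hdeg₂ := H.Y_deg h₂
  have hL1 : Lam θ₁ θ₂ 1 = (((p - 2) * (p - 2) : ℕ) : ℂ) := by
    rw [Lam_one, hdeg₁, hdeg₂]
  have hs : ∑ y : (P : Subgroup G), Lam θ₁ θ₂ y = ((p - 4 : ℕ) : ℂ) * (Nat.card (P : Subgroup G) : ℂ) := by
    have h1 := H.X_eq h₁ h₂ hne
    rw [hL1] at h1
    rw [h.card_P]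
    have h2 : ((p - 2 : ℕ) : ℂ) = (p : ℂ) - 2 := by
      rw [Nat.cast_sub (by omega)]; rfl
    have h3 : ((p - 4 : ℕ) : ℂ) = (p : ℂ) - 4 := by
      rw [Nat.cast_sub (by omega)]; rfl
    rw [Nat.cast_mul, h2] at h1
    rw [h3]
    linear_combination h1
  have h1 := hd.deg hL1
  have h2 := hd.T_sum (P : Subgroup G) hs
  obtain ⟨t1, t2⟩ := h.tens D mm h1 h2 (fun θ hθ => H.Y_T' hθ) (fun θ hθ => H.Y_deg hθ)
  rw [H.A_empty, H.B_eq] at t1 t2
  simp only [Finset.sum_empty, Finset.sum_singleton, hm1, H.T_one] at t1 t2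
  set n := ∑ χ ∈ D.Y, mm χ with hn
  set z := ∑ χ ∈ D.Z, mm χ * T (P : Subgroup G) χ with hz
  set k := mm χ₁ with hk
  have t3 : p - 4 = n + z := by
    simp only [mul_zero, mul_one, zero_add] at t1
    exact t1
  have hP : (5 : ℤ) ≤ p := by exact_mod_cast hp5
  have t3' : (p : ℤ) - 4 = n + z := by
    have : ((p - 4 : ℕ) : ℤ) = (n + z : ℕ) := by rw [t3]
    push_cast [Nat.cast_sub (by omega : 4 ≤ p)] at this
    exact this
  have t4 : (((p - 2) * (p - 2) : ℕ) : ℤ) = (p - 2 : ℤ) * (p - 2) := by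
    push_cast [Nat.cast_sub (by omega : 2 ≤ p)]
    ring
  have t5 : ((p - 2 : ℕ) : ℤ) = (p : ℤ) - 2 := by
    push_cast [Nat.cast_sub (by omega : 2 ≤ p)]
    ring
  rw [t4, t5] at t2
  simp only [Nat.cast_zero, mul_zero, sub_zero, zero_add, Nat.cast_mul] at t2
  have key : ((p : ℤ) - 1) * k = 4 + 2 * n := by
    have hz' : (z : ℤ) = (p : ℤ) - 4 - n := by linarith
    rw [hz'] at t2
    linarith
  have hn' : (0 : ℤ) ≤ n := by positivity
  have hz' : (0 : ℤ) ≤ z := by positivity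
  rcases k with _ | _ | k
  · exfalso
    simp only [Nat.cast_zero, mul_zero] at key
    linarith
  · rfl
  · exfalso
    push_cast at key
    nlinarith

/-- The third moment. -/
theorem sum_c3 : ∑ g ∈ RR G p, (H.c g - 1) ^ 2 * H.c g = (Nat.card G : ℤ) - 4 * (1 + m * p : ℤ) := by
  classical
  obtain ⟨θ₁, h₁, θ₂, h₂, hne⟩ := Finset.one_lt_card.mp (by rw [D.card_Y]; exact h.t_ge)
  obtain ⟨mm, hd⟩ := exists_dec (isCharacter_Lam θ₁ θ₂)
  have h1 := hd.inner χ₁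
  rw [H.mm_chi h₁ h₂ hne hd, classInner] at h1
  have hc : (Nat.card G : ℂ) ≠ 0 := by exact_mod_cast Nat.card_pos.ne'
  have h2 : ∑ g : G, Lam θ₁ θ₂ g * conj ((χ₁ : G → ℂ) g) = (Nat.card G : ℂ) := by
    field_simp at h1
    simpa using h1
  have hcl : IsClassFunction G (fun g => Lam θ₁ θ₂ g * conj ((χ₁ : G → ℂ) g)) :=
    IsCharacter.isClassFunction (IsCharacter.mul (isCharacter_Lam θ₁ θ₂) (IsCharacter.conj (IsIrrCharacter.isCharacter χ₁.2)))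
  have e1 := h.sum_split _ hcl
  rw [h2] at e1
  have hX := H.X_eq h₁ h₂ hne
  have e2 : ∑ y : (P : Subgroup G), Lam θ₁ θ₂ y * conj ((χ₁ : G → ℂ) y) - Lam θ₁ θ₂ 1 * conj ((χ₁ : G → ℂ) 1) = 4 := by
    rw [← Finset.add_sum_erase Finset.univ (fun y : (P : Subgroup G) => Lam θ₁ θ₂ y * conj ((χ₁ : G → ℂ) y)) (Finset.mem_univ (1 : (P : Subgroup G)))]
    rw [← Finset.add_sum_erase Finset.univ (fun y : (P : Subgroup G) => Lam θ₁ θ₂ y) (Finset.mem_univ (1 : (P : Subgroup G)))] at hX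
    have h3 : ∀ y ∈ (Finset.univ : Finset (P : Subgroup G)).erase 1, Lam θ₁ θ₂ (y : G) * conj ((χ₁ : G → ℂ) y) = - Lam θ₁ θ₂ (y : G) := by
      intro y hy
      rw [H.val_P y.2 (fun e0 => (Finset.ne_of_mem_erase hy) (Subtype.ext e0))]
      simp
    rw [Finset.sum_congr rfl h3, Finset.sum_neg_distrib]
    simp only [OneMemClass.coe_one] at hX ⊢
    linear_combination -hX
  rw [e2] at e1
  have h3 : ∑ g ∈ RR G p, Lam θ₁ θ₂ g * conj ((χ₁ : G → ℂ) g) = ((∑ g ∈ RR G p, (H.c g - 1) ^ 2 * H.c g : ℤ) : ℂ) := by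
    rw [Int.cast_sum]
    refine Finset.sum_congr rfl (fun g hg => ?_)
    have hg' := (Finset.mem_filter.mp hg).2
    rw [H.Lam_val h₁ h₂ hg', H.c_spec g, map_intCast]
    push_cast
    ring
  rw [h3] at e1
  have h4 : ((∑ g ∈ RR G p, (H.c g - 1) ^ 2 * H.c g : ℤ) : ℂ) = (((Nat.card G : ℤ) - 4 * (1 + m * p : ℤ) : ℤ) : ℂ) := by
    rw [Int.cast_sub, Int.cast_mul]
    push_cast at e1 ⊢
    linear_combination -e1
  exact_mod_cast h4

/-- The polynomial sum vanishes. -/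
theorem sum_w : ∑ g ∈ RR G p, H.c g * (H.c g - 1) * (H.c g - ((p : ℤ) - 1)) = 0 := by
  have e1 := H.sum_c
  have e2 := H.sum_c2
  have e3 := H.sum_c3
  have e4 := H.card_G_int
  have h1 : ∀ g : G, H.c g * (H.c g - 1) * (H.c g - ((p : ℤ) - 1)) =
      (H.c g - 1) ^ 2 * H.c g - ((p : ℤ) - 2) * ((H.c g) ^ 2 - H.c g) := fun g => by ring
  simp only [h1]
  rw [Finset.sum_sub_distrib, ← Finset.mul_sum, Finset.sum_sub_distrib, e1, e2, e3, e4]
  ring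

theorem w_nonpos (g : G) : H.c g * (H.c g - 1) * (H.c g - ((p : ℤ) - 1)) ≤ 0 := by
  have h1 := H.c_le g
  have h2 : 0 ≤ H.c g * (H.c g - 1) := by
    rcases le_or_gt (H.c g) 0 with h3 | h3
    · exact mul_nonneg_of_nonpos_of_nonpos h3 (by linarith)
    · exact mul_nonneg (by linarith) (by linarith)
  exact mul_nonpos_of_nonneg_of_nonpos h2 (by linarith)

/-- The values of `χ₁` on the regular elements. -/
theorem c_cases {g : G} (hg : ¬ p ∣ orderOf g) : H.c g = 0 ∨ H.c g = 1 ∨ H.c g = (p : ℤ) - 1 := by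
  have h1 := (Finset.sum_eq_zero_iff_of_nonpos (fun g _ => H.w_nonpos g)).mp H.sum_w g (Finset.mem_filter.mpr ⟨Finset.mem_univ _, hg⟩)
  rcases mul_eq_zero.mp h1 with h2 | h2
  · rcases mul_eq_zero.mp h2 with h3 | h3
    · exact Or.inl h3
    · exact Or.inr (Or.inl (by linarith))
  · exact Or.inr (Or.inr (by linarith))

end Two

end Cfsg.Agent.Lib.BT
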