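import Cfsg.Agent.Lib.BT.TwoB
import Cfsg.Agent.Lib.SmallSimple.Sylow

/-! The case `e = 2` with a faithful character of degree `p - 1`: the order of the group and the involutions. -/

set_option autoImplicit false
set_option linter.unusedSectionVars false
set_option linter.unusedVariables false

namespace Cfsg.Agent.Lib.BT

open Cfsg Cfsg.Agent.Lib.Char Cfsg.Agent.Lib.Blocks Cfsg.Agent.Lib.Small.BD Subgroup MulAction
open scoped ComplexConjugate

universe u

variable {G : Type u} [Group G] [Fintype G] {p : ℕ} [hp : Fact p.Prime]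
variable {P : Sylow p G} {m t : ℕ}

namespace Two

variable {h : SC P 2 m t} {D : Dat P 2 t} {χ₁ : IrrCharacter G} (H : Two h D χ₁)

include H

variable [Fintype (P : Subgroup G)]

variable (hf : ∀ g : G, (χ₁ : G → ℂ) g = (χ₁ : G → ℂ) 1 → g = 1)

include hf

theorem c01 {g : G} (hg : ¬ p ∣ orderOf g) (hg1 : g ≠ 1) : H.c g = 0 ∨ H.c g = 1 := by
  rcases H.c_cases hg with h1 | h1 | h1
  · exact Or.inl h1
  · exact Or.inr h1
  · exfalso
    apply hg1
    apply hf
    rw [H.c_spec g, h1, H.one_val]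
    push_cast
    rfl

theorem two_n : 2 * (1 + m * p : ℤ) = ((p : ℤ) - 1) * ((p : ℤ) - 2) := by
  classical
  have e1 := H.sum_c
  have e2 := H.sum_c2
  have e4 := H.card_G_int
  have h1 : ∑ g ∈ RR G p, H.c g * (H.c g - 1) = ((p : ℤ) - 1) * ((p : ℤ) - 2) := by
    rw [Finset.sum_eq_single (1 : G)]
    · rw [H.c_one]
      ring
    · intro g hg hg1
      rcases H.c01 hf (Finset.mem_filter.mp hg).2 hg1 with h2 | h2 <;> rw [h2] <;> simp
    · intro h0
      exact absurd (show (1 : G) ∈ RR G p from Finset.mem_filter.mpr ⟨Finset.mem_univ _, H.not_one⟩) h0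
  have h2 : ∀ g : G, H.c g * (H.c g - 1) = (H.c g) ^ 2 - H.c g := fun g => by ring
  simp only [h2] at h1
  rw [Finset.sum_sub_distrib, e1, e2, e4] at h1
  linarith

/-- The order of the group. -/
theorem card_G_eq : (Nat.card G : ℤ) = p * ((p : ℤ) - 1) * ((p : ℤ) - 2) := by
  have e1 := H.two_n hf
  have e4 := H.card_G_int
  rw [e4]
  linear_combination (p : ℤ) * e1

theorem card_G_nat : Nat.card G = p * ((p - 1) * (p - 2)) := by
  have h1 := H.card_G_eq hf
  have hp5 := H.p_ge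
  zify [show 1 ≤ p by omega, show 2 ≤ p by omega]
  rw [h1]
  ring

omit hf in
/-- The nonidentity regular elements with value zero. -/
noncomputable def D0 (H : Two h D χ₁) : Finset G := by
  classical
  exact (RR G p).filter (fun g => g ≠ 1 ∧ H.c g = 0)

omit hf in
theorem mem_D0 {g : G} : g ∈ H.D0 ↔ ¬ p ∣ orderOf g ∧ g ≠ 1 ∧ H.c g = 0 := by
  classical
  simp [D0]

/-- The number of nonidentity regular elements with value zero. -/
theorem card_D0 : (H.D0.card : ℤ) = p * ((p : ℤ) - 2) := by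
  classical
  have e1 := H.sum_c
  have e2 := card_RR h
  have e3 := H.two_n hf
  have e4 := H.card_G_int
  have h1 : ∑ g ∈ RR G p, (1 - H.c g) = (H.D0.card : ℤ) + (2 - (p : ℤ)) := by
    have h2 : ∀ g ∈ RR G p, 1 - H.c g = (if g ≠ 1 ∧ H.c g = 0 then (1 : ℤ) else 0) + (if g = 1 then 2 - (p : ℤ) else 0) := by
      intro g hg
      by_cases hg1 : g = 1
      · subst hg1
        simp [H.c_one]
        ring
      · rw [if_neg hg1, add_zero]
        rcases H.c01 hf (Finset.mem_filter.mp hg).2 hg1 with h3 | h3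
        · rw [if_pos ⟨hg1, h3⟩, h3]
          simp
        · have : ¬ (g ≠ 1 ∧ H.c g = 0) := fun h4 => by omega
          rw [if_neg this, h3]
          simp
    rw [Finset.sum_congr rfl h2, Finset.sum_add_distrib, Finset.sum_boole, Finset.sum_ite_eq', if_pos]
    · congr 2
    · exact Finset.mem_filter.mpr ⟨Finset.mem_univ _, H.not_one⟩
  rw [Finset.sum_sub_distrib, e1] at h1
  simp only [Finset.sum_const, nsmul_eq_mul, mul_one] at h1
  rw [e2, e4] at h1
  linear_combination -h1 + e3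

/-- The multiplicity over a subgroup gives divisibility. -/
theorem dvd_sum (Q : Subgroup G) [Fintype Q] : (Nat.card Q : ℤ) ∣ ∑ y : Q, H.c y := by
  have h1 := T_spec Q χ₁
  have h2 : ∑ y : Q, (χ₁ : G → ℂ) y = ((∑ y : Q, H.c y : ℤ) : ℂ) := by
    push_cast
    exact Finset.sum_congr rfl (fun y _ => H.c_spec y)
  rw [h2] at h1
  have h3 : ((T Q χ₁ : ℤ) * (Nat.card Q : ℤ) : ℤ) = ∑ y : Q, H.c y := by
    have h4 : (((T Q χ₁ : ℤ) * (Nat.card Q : ℤ) : ℤ) : ℂ) = ((∑ y : Q, H.c y : ℤ) : ℂ) := by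
      rw [← h1]
      push_cast
      rfl
    exact_mod_cast h4
  exact ⟨T Q χ₁, by rw [← h3]; ring⟩

/-- The values vanish on a regular subgroup whose order divides `p - 1`. -/
theorem zero_of_dvd (Q : Subgroup G) [Fintype Q] (hQ : ∀ y ∈ Q, ¬ p ∣ orderOf y) (hd : (Nat.card Q : ℤ) ∣ (p : ℤ) - 1) :
    ∀ y ∈ Q, y ≠ 1 → H.c y = 0 := by
  classical
  have h1 := H.dvd_sum hf Q
  rw [← Finset.add_sum_erase Finset.univ (fun y : Q => H.c y) (Finset.mem_univ (1 : Q))] at h1
  simp only [OneMemClass.coe_one, H.c_one] at h1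
  have h2 : (Nat.card Q : ℤ) ∣ ∑ y ∈ (Finset.univ : Finset Q).erase 1, H.c y := (dvd_add_right hd).mp h1
  have hnn : ∀ y ∈ (Finset.univ : Finset Q).erase 1, 0 ≤ H.c y := by
    intro y hy
    rcases H.c01 hf (hQ y y.2) (fun e0 => (Finset.ne_of_mem_erase hy) (Subtype.ext e0)) with h3 | h3 <;> rw [h3] <;> simp
  have hle : ∑ y ∈ (Finset.univ : Finset Q).erase 1, H.c y ≤ (Nat.card Q : ℤ) - 1 := by
    have h3 : ∑ y ∈ (Finset.univ : Finset Q).erase 1, H.c y ≤ ∑ y ∈ (Finset.univ : Finset Q).erase 1, (1 : ℤ) := by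
      refine Finset.sum_le_sum fun y hy => ?_
      rcases H.c01 hf (hQ y y.2) (fun e0 => (Finset.ne_of_mem_erase hy) (Subtype.ext e0)) with h3 | h3 <;> rw [h3] <;> simp
    rw [Finset.sum_const, Finset.card_erase_of_mem (Finset.mem_univ _), Finset.card_univ, ← Nat.card_eq_fintype_card] at h3
    have h4 : 1 ≤ Nat.card Q := Nat.card_pos
    simp only [nsmul_eq_mul, mul_one] at h3
    push_cast [Nat.cast_sub h4] at h3
    exact h3
  have h0 : ∑ y ∈ (Finset.univ : Finset Q).erase 1, H.c y = 0 := by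
    apply Int.eq_zero_of_dvd_of_nonneg_of_lt (Finset.sum_nonneg hnn) _ h2
    linarith
  have h3 := (Finset.sum_eq_zero_iff_of_nonneg hnn).mp h0
  intro y hy hy1
  exact h3 ⟨y, hy⟩ (Finset.mem_erase.mpr ⟨fun e0 => hy1 (congrArg Subtype.val e0), Finset.mem_univ _⟩)

omit hf in
theorem reg_zpowers {x y : G} (hx : ¬ p ∣ orderOf x) (hy : y ∈ zpowers x) : ¬ p ∣ orderOf y :=
  fun h1 => hx (h1.trans (orderOf_dvd_of_mem_zpowers hy))

theorem two_dvd : (2 : ℤ) ∣ (p : ℤ) - 1 := by
  have hp5 := H.p_ge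
  have h1 := h.te
  refine ⟨t, ?_⟩
  omega

/-- The involutions have value zero. -/
theorem c_invol {τ : G} (h1 : τ * τ = 1) (h2 : τ ≠ 1) : H.c τ = 0 := by
  classical
  have hp5 := H.p_ge
  have ho : orderOf τ = 2 := orderOf_eq_prime (by rw [sq, h1]) h2
  have hreg : ¬ p ∣ orderOf τ := by
    rw [ho]
    intro h3
    have := Nat.le_of_dvd (by norm_num) h3
    omega
  letI : Fintype (zpowers τ) := Fintype.ofFinite _
  exact H.zero_of_dvd hf (zpowers τ) (fun y hy => reg_zpowers H hreg hy)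
    (by rw [Nat.card_zpowers, ho]; exact_mod_cast H.two_dvd hf) τ (mem_zpowers τ) h2

end Two

end Cfsg.Agent.Lib.BT
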