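import Cfsg.Agent.Lib.BT.TwoC

/-! The case `e = 2` with a faithful character of degree `p - 1`: the involutions. -/

set_option autoImplicit false
set_option linter.unusedSectionVars false
set_option linter.unusedVariables false

namespace Cfsg.Agent.Lib.BT

open Cfsg Cfsg.Agent.Lib.Char Cfsg.Agent.Lib.Blocks Cfsg.Agent.Lib.Small.BD Subgroup MulAction
open scoped ComplexConjugate

universe u

variable {G : Type u} [Group G] [Fintype G] {p : ℕ} [hp : Fact p.Prime]
variable {P : Sylow p G} {m t : ℕ}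

theorem reg_sq {g : G} (hg : ¬ p ∣ orderOf g) : ¬ p ∣ orderOf (g * g) := by
  rw [← sq]
  exact fun h1 => hg (h1.trans (orderOf_pow_dvd 2))

namespace Two

variable {h : SC P 2 m t} {D : Dat P 2 t} {χ₁ : IrrCharacter G} (H : Two h D χ₁)

include H

theorem sing_sq {g : G} (hg : p ∣ orderOf g) : p ∣ orderOf (g * g) := by
  obtain ⟨ho, -⟩ := h.singular g hg
  have hp5 := H.p_ge
  rw [← sq]
  have h1 : Nat.Coprime (orderOf g) 2 := by
    rw [ho]
    exact (Nat.coprime_primes hp.out Nat.prime_two).mpr (by omega)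
  rw [h1.orderOf_pow, ho]

/-- The indicator of `χ₁`. -/
theorem fs_one : (Nat.card G : ℂ)⁻¹ * ∑ s : G, (χ₁ : G → ℂ) (s * s) = 1 ∨ (Nat.card G : ℂ)⁻¹ * ∑ s : G, (χ₁ : G → ℂ) (s * s) = -1 := by
  have h1 := fsInd_trichotomy χ₁.2
  have h2 : fsInd (χ₁ : G → ℂ) ≠ 0 := by
    intro h0
    obtain ⟨s, hs⟩ := (fsInd_eq_zero_iff χ₁.2).mp h0
    rw [H.c_spec s] at hs
    simp at hs
  rcases h1 with h1 | h1 | h1
  · exact absurd h1 h2
  · exact Or.inl h1
  · exact Or.inr h1

variable [Fintype (P : Subgroup G)]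

variable (hf : ∀ g : G, (χ₁ : G → ℂ) g = (χ₁ : G → ℂ) 1 → g = 1)

include hf

theorem c_nonneg {g : G} (hg : ¬ p ∣ orderOf g) : 0 ≤ H.c g := by
  by_cases hg1 : g = 1
  · rw [hg1, H.c_one]
    have := H.p_ge
    have h1 : (5 : ℤ) ≤ p := by exact_mod_cast this
    linarith
  · rcases H.c01 hf hg hg1 with h1 | h1 <;> rw [h1] <;> simp

omit H hf in
/-- The regular square roots of the identity. -/
noncomputable def SQ (G : Type u) [Group G] [Fintype G] (p : ℕ) : Finset G := by
  classical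
  exact (RR G p).filter (fun g => g * g = 1)

omit H hf in
theorem mem_SQ {g : G} : g ∈ SQ G p ↔ ¬ p ∣ orderOf g ∧ g * g = 1 := by
  classical
  simp [SQ]

/-- The number of square roots of the identity. -/
theorem card_sq : ((p : ℤ) - 1) ^ 2 ≤ (SQ G p).card := by
  classical
  have hp5 := H.p_ge
  have hP : (5 : ℤ) ≤ p := by exact_mod_cast hp5
  have e2 := card_RR h
  have e3 := H.two_n hf
  have e4 := H.card_G_int
  -- the sum over the group
  set S : ℤ := ∑ g : G, H.c (g * g) with hS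
  have hSc : ∑ s : G, (χ₁ : G → ℂ) (s * s) = (S : ℂ) := by
    rw [hS]
    push_cast
    exact Finset.sum_congr rfl (fun s _ => H.c_spec _)
  have hcG : (Nat.card G : ℂ) ≠ 0 := by exact_mod_cast Nat.card_pos.ne'
  -- split
  have hsplit := Finset.sum_filter_add_sum_filter_not (Finset.univ : Finset G) (fun g : G => ¬ p ∣ orderOf g) (fun g => H.c (g * g))
  have hsing : ∑ g ∈ Finset.univ.filter (fun g : G => ¬ ¬ p ∣ orderOf g), H.c (g * g) = -((1 + m * p : ℤ) * ((p : ℤ) - 1)) := by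
    have h1 : ∀ g ∈ Finset.univ.filter (fun g : G => ¬ ¬ p ∣ orderOf g), H.c (g * g) = -1 := by
      intro g hg
      have h2 : p ∣ orderOf g := not_not.mp (Finset.mem_filter.mp hg).2
      exact H.c_sing (H.sing_sq h2)
    rw [Finset.sum_congr rfl h1, Finset.sum_const, nsmul_eq_mul]
    have h3 := Finset.card_filter_add_card_filter_not (s := (Finset.univ : Finset G)) (fun g : G => ¬ p ∣ orderOf g)
    have h4 : ((Finset.univ.filter (fun g : G => ¬ p ∣ orderOf g)).card : ℤ) + ((Finset.univ.filter (fun g : G => ¬ ¬ p ∣ orderOf g)).card : ℤ) = Nat.card G := by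
      rw [Nat.card_eq_fintype_card, ← Finset.card_univ]
      exact_mod_cast h3
    have h5 : ((Finset.univ.filter (fun g : G => ¬ ¬ p ∣ orderOf g)).card : ℤ) = (1 + m * p : ℤ) * ((p : ℤ) - 1) := by
      have h6 : ((RR G p).card : ℤ) = ((Finset.univ.filter (fun g : G => ¬ p ∣ orderOf g)).card : ℤ) := rfl
      rw [h6] at e2
      linarith
    rw [h5]
    ring
  rw [hsing] at hsplit
  have hSR : ∑ g ∈ RR G p, H.c (g * g) = S + (1 + m * p : ℤ) * ((p : ℤ) - 1) := by
    have : ∑ g ∈ RR G p, H.c (g * g) = ∑ g ∈ Finset.univ.filter (fun g : G => ¬ p ∣ orderOf g), H.c (g * g) := rfl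
    rw [this]
    linarith
  have hnn : 0 ≤ ∑ g ∈ RR G p, H.c (g * g) :=
    Finset.sum_nonneg fun g hg => H.c_nonneg hf (reg_sq (Finset.mem_filter.mp hg).2)
  have hn0 : (0 : ℤ) < 1 + m * p := by positivity
  -- the indicator is one
  have hS1 : S = Nat.card G := by
    rcases H.fs_one with h1 | h1
    · rw [hSc] at h1
      field_simp at h1
      exact_mod_cast h1
    · exfalso
      rw [hSc] at h1
      have h2 : (S : ℂ) = -(Nat.card G : ℂ) := by
        field_simp at h1
        exact h1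
      have h3 : S = -(Nat.card G : ℤ) := by exact_mod_cast h2
      rw [hSR, h3, e4] at hnn
      nlinarith
  -- the bound
  have hb : ∑ g ∈ RR G p, H.c (g * g) ≤ ∑ g ∈ RR G p, (1 + if g * g = 1 then (p : ℤ) - 2 else 0) := by
    refine Finset.sum_le_sum fun g hg => ?_
    by_cases h1 : g * g = 1
    · rw [if_pos h1, h1, H.c_one]
      linarith
    · rw [if_neg h1]
      rcases H.c01 hf (reg_sq (Finset.mem_filter.mp hg).2) h1 with h2 | h2 <;> rw [h2] <;> simp
  rw [Finset.sum_add_distrib, ← Finset.sum_filter, Finset.sum_const, Finset.sum_const, hSR, hS1] at hb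
  simp only [nsmul_eq_mul, mul_one] at hb
  rw [e2] at hb
  have hSQ : (RR G p).filter (fun g => g * g = 1) = SQ G p := by
    ext g
    rw [mem_SQ, Finset.mem_filter]
    simp
  rw [hSQ] at hb
  set J : ℤ := ((SQ G p).card : ℤ) with hJ
  have h7 : ((1 + m * p : ℤ)) * ((p : ℤ) - 1) * 2 ≤ J * ((p : ℤ) - 2) := by linarith
  have h8 : ((p : ℤ) - 1) ^ 2 * ((p : ℤ) - 2) ≤ J * ((p : ℤ) - 2) := by
    calc ((p : ℤ) - 1) ^ 2 * ((p : ℤ) - 2) = ((1 + m * p : ℤ)) * ((p : ℤ) - 1) * 2 := by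
          linear_combination (-((p : ℤ) - 1)) * e3
      _ ≤ _ := h7
  exact le_of_mul_le_mul_right h8 (by linarith)

/-- The elements of value zero are the involutions. -/
theorem sq_of_zero {g : G} (hg : ¬ p ∣ orderOf g) (hg1 : g ≠ 1) (h0 : H.c g = 0) : g * g = 1 := by
  classical
  have hp5 := H.p_ge
  have hP : (5 : ℤ) ≤ p := by exact_mod_cast hp5
  have h1 := H.card_sq hf
  have h2 := H.card_D0 hf
  have hsub : (SQ G p).erase 1 ⊆ H.D0 := by
    intro x hx
    obtain ⟨hx1, hx2⟩ := Finset.mem_erase.mp hx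
    obtain ⟨hx3, hx4⟩ := mem_SQ.mp hx2
    exact (H.mem_D0).mpr ⟨hx3, hx1, H.c_invol hf hx4 hx1⟩
  have hone : (1 : G) ∈ SQ G p := mem_SQ.mpr ⟨H.not_one, by simp⟩
  have hcard : H.D0.card ≤ ((SQ G p).erase 1).card := by
    rw [Finset.card_erase_of_mem hone]
    have h3 : 1 ≤ (SQ G p).card := Finset.card_pos.mpr ⟨1, hone⟩
    zify [h3]
    rw [h2]
    nlinarith
  have heq := Finset.eq_of_subset_of_card_le hsub hcard
  have hgD : g ∈ H.D0 := (H.mem_D0).mpr ⟨hg, hg1, h0⟩
  rw [← heq] at hgD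
  exact (mem_SQ.mp (Finset.mem_erase.mp hgD).2).2

/-- Non-involutions have value one. -/
theorem c_one_of_not_sq {g : G} (hg : ¬ p ∣ orderOf g) (hg1 : g * g ≠ 1) : H.c g = 1 := by
  have hne : g ≠ 1 := by
    rintro rfl
    simp at hg1
  rcases H.c01 hf hg hne with h1 | h1
  · exact absurd (H.sq_of_zero hf hg hne h1) hg1
  · exact h1

/-- `p - 1` is a power of two. -/
theorem exists_pow : ∃ a : ℕ, p - 1 = 2 ^ a := by
  classical
  have hp5 := H.p_ge
  have hG := H.card_G_nat hf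
  refine ⟨_, Nat.eq_prime_pow_of_unique_prime_dvd (by omega) (fun {q} hq hqd => ?_)⟩
  by_contra hq2
  haveI : Fact q.Prime := ⟨hq⟩
  have hqG : q ∣ Nat.card G := by
    rw [hG]
    exact Dvd.dvd.mul_left (Dvd.dvd.mul_right hqd _) _
  obtain ⟨x, hx⟩ := exists_prime_orderOf_dvd_card' q hqG
  have hqp : q ≠ p := by
    intro h0
    rw [h0] at hqd
    have := Nat.le_of_dvd (by omega) hqd
    omega
  have hreg : ¬ p ∣ orderOf x := by
    rw [hx]
    intro h1
    exact hqp ((Nat.prime_dvd_prime_iff_eq hp.out hq).mp h1).symm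
  have hx1 : x ≠ 1 := by
    rintro rfl
    rw [orderOf_one] at hx
    exact hq.ne_one hx.symm
  letI : Fintype (zpowers x) := Fintype.ofFinite _
  have h0 := H.zero_of_dvd hf (zpowers x) (fun y hy => reg_zpowers H hreg hy)
    (by
      rw [Nat.card_zpowers, hx]
      have : ((q : ℕ) : ℤ) ∣ ((p - 1 : ℕ) : ℤ) := by exact_mod_cast hqd
      push_cast [Nat.cast_sub (by omega : 1 ≤ p)] at this
      exact this) x (mem_zpowers x) hx1
  have h1 := H.sq_of_zero hf hreg hx1 h0
  have h2 : orderOf x ∣ 2 := orderOf_dvd_of_pow_eq_one (by rw [sq, h1])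
  rw [hx] at h2
  exact hq2 ((Nat.prime_dvd_prime_iff_eq hq Nat.prime_two).mp h2)

end Two

end Cfsg.Agent.Lib.BT
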