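import Cfsg.Agent.Lib.BT.TwoD

/-! The case `e = 2` with a faithful character of degree `p - 1`: the Sylow 2-subgroups and the class of involutions. -/

set_option autoImplicit false
set_option linter.unusedSectionVars false
set_option linter.unusedVariables false

namespace Cfsg.Agent.Lib.BT

open Cfsg Cfsg.Agent.Lib.Char Cfsg.Agent.Lib.Blocks Cfsg.Agent.Lib.Small.BD Subgroup MulAction
open scoped ComplexConjugate

universe u

variable {G : Type u} [Group G] [Fintype G] {p : ℕ} [hp : Fact p.Prime]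
variable {P : Sylow p G} {m t : ℕ}

namespace Two

variable {h : SC P 2 m t} {D : Dat P 2 t} {χ₁ : IrrCharacter G} (H : Two h D χ₁)

include H

variable [Fintype (P : Subgroup G)]

variable (hf : ∀ g : G, (χ₁ : G → ℂ) g = (χ₁ : G → ℂ) 1 → g = 1)

include hf

/-- Counting the involutions of a regular subgroup. -/
theorem dvd_inv (Q : Subgroup G) [Fintype Q] (hQ : ∀ y ∈ Q, ¬ p ∣ orderOf y) (s : Finset Q)
    (hs : ∀ y : Q, y ∈ s ↔ y ≠ 1 ∧ (y : G) * y = 1) : (Nat.card Q : ℤ) ∣ (p : ℤ) - 2 - s.card := by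
  classical
  have h1 := H.dvd_sum hf Q
  have hval : ∀ y : Q, y ≠ 1 → H.c y = 1 - (if y ∈ s then 1 else 0) := by
    intro y hy
    have hy' : (y : G) ≠ 1 := fun e0 => hy (Subtype.ext e0)
    by_cases hy2 : (y : G) * y = 1
    · rw [if_pos ((hs y).mpr ⟨hy, hy2⟩), H.c_invol hf hy2 hy']
      simp
    · rw [if_neg (fun h2 => hy2 ((hs y).mp h2).2), H.c_one_of_not_sq hf (hQ y y.2) hy2]
      simp
  have h2 : ∑ y : Q, H.c y = (p : ℤ) - 1 + ((Nat.card Q : ℤ) - 1 - s.card) := by
    rw [← Finset.add_sum_erase Finset.univ (fun y : Q => H.c y) (Finset.mem_univ (1 : Q))]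
    simp only [OneMemClass.coe_one, H.c_one]
    rw [Finset.sum_congr rfl (fun y hy => hval y (Finset.ne_of_mem_erase hy)), Finset.sum_sub_distrib]
    have h3 : s ⊆ (Finset.univ : Finset Q).erase 1 := by
      intro y hy
      exact Finset.mem_erase.mpr ⟨((hs y).mp hy).1, Finset.mem_univ _⟩
    have h4 : ∑ y ∈ (Finset.univ : Finset Q).erase 1, (if y ∈ s then (1 : ℤ) else 0) = s.card := by
      rw [Finset.sum_ite_mem, Finset.inter_eq_right.mpr h3]
      simp
    rw [h4]
    simp only [Finset.sum_const, nsmul_eq_mul, mul_one]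
    rw [Finset.card_erase_of_mem (Finset.mem_univ _), Finset.card_univ, ← Nat.card_eq_fintype_card]
    have h5 : 1 ≤ Nat.card Q := Nat.card_pos
    push_cast [Nat.cast_sub h5]
    ring
  rw [h2] at h1
  have h3 : (p : ℤ) - 1 + ((Nat.card Q : ℤ) - 1 - s.card) = ((p : ℤ) - 2 - s.card) + (Nat.card Q : ℤ) := by ring
  rw [h3] at h1
  exact (dvd_add_left (dvd_refl _)).mp h1

/-- The order of a Sylow 2-subgroup. -/
theorem S2_card (S : Sylow 2 G) : Nat.card (S : Subgroup G) = p - 1 := by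
  haveI : Fact (Nat.Prime 2) := ⟨Nat.prime_two⟩
  obtain ⟨a, ha⟩ := H.exists_pow hf
  have hp5 := H.p_ge
  have hG := H.card_G_nat hf
  have hodd : ¬ 2 ∣ p * (p - 2) := by
    have h1 : Odd p := hp.out.odd_of_ne_two (by
      intro h0
      omega)
    have h2 : Odd (p - 2) := by
      obtain ⟨k, hk⟩ := h1
      exact ⟨k - 1, by omega⟩
    rw [← even_iff_two_dvd, Nat.not_even_iff_odd]
    exact h1.mul h2
  have h1 := Cfsg.Agent.Lib.SmallSimple.sylow_card_of_eq S (a := a) (m := p * (p - 2)) (by rw [hG, ha]; ring) hodd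
  rw [h1, ha]

theorem reg_of_S2 (S : Sylow 2 G) {y : G} (hy : y ∈ (S : Subgroup G)) : ¬ p ∣ orderOf y := by
  intro h1
  have hp5 := H.p_ge
  obtain ⟨a, ha⟩ := H.exists_pow hf
  have h2 : orderOf y ∣ Nat.card (S : Subgroup G) := Subgroup.orderOf_dvd_natCard _ hy
  rw [H.S2_card hf S, ha] at h2
  have h3 : p ∣ 2 ^ a := h1.trans h2
  have h4 := Nat.Prime.dvd_of_dvd_pow hp.out h3
  have := Nat.le_of_dvd (by norm_num) h4
  omega

/-- The Sylow 2-subgroups have exponent two. -/
theorem S2_sq (S : Sylow 2 G) {y : G} (hy : y ∈ (S : Subgroup G)) : y * y = 1 := by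
  classical
  by_cases hy1 : y = 1
  · rw [hy1]; simp
  letI : Fintype (S : Subgroup G) := Fintype.ofFinite _
  have h0 := H.zero_of_dvd hf (S : Subgroup G) (fun y hy => H.reg_of_S2 hf S hy) (by
    rw [H.S2_card hf S]
    have hp1 : 1 ≤ p := hp.out.one_lt.le
    push_cast [Nat.cast_sub hp1]
    exact dvd_refl _) y hy hy1
  exact H.sq_of_zero hf (H.reg_of_S2 hf S hy) hy1 h0

theorem S2_comm (S : Sylow 2 G) {x y : G} (hx : x ∈ (S : Subgroup G)) (hy : y ∈ (S : Subgroup G)) : x * y = y * x := by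
  have h1 := H.S2_sq hf S hx
  have h2 := H.S2_sq hf S hy
  have h3 := H.S2_sq hf S (mul_mem hx hy)
  calc x * y = x * (x * y * (x * y)) * y := by rw [h3]; group
    _ = (x * x) * y * x * (y * y) := by group
    _ = y * x := by rw [h1, h2]; group

/-- No element of odd prime order centralizes an involution. -/
theorem cent_prime {τ a : G} (h1 : τ * τ = 1) (h2 : τ ≠ 1) {r : ℕ} (hr : r.Prime) (hr2 : r ≠ 2) (ha : orderOf a = r)
    (hc : a * τ = τ * a) : False := by
  classical
  have hp5 := H.p_ge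
  have hoτ : orderOf τ = 2 := orderOf_eq_prime (by rw [sq, h1]) h2
  have hodd : Odd r := hr.odd_of_ne_two hr2
  have ha1 : a ≠ 1 := by
    rintro rfl
    rw [orderOf_one] at ha
    exact hr.ne_one ha.symm
  by_cases hrp : r = p
  · obtain ⟨-, S, hS⟩ := h.singular a (by rw [ha, hrp])
    have h3 := h.cent_all S a hS ha1
    have h4 : τ ∈ centralizer ({a} : Set G) := by
      rw [mem_centralizer_singleton_iff]
      exact hc.symm
    rw [h3] at h4
    have h5 := h.orderOf_of_mem S h4 h2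
    omega
  have hcomm : Commute a τ := hc
  have hcop : Nat.Coprime (orderOf a) (orderOf τ) := by
    rw [ha, hoτ]
    exact (Nat.coprime_primes hr Nat.prime_two).mpr hr2
  have hob : orderOf (a * τ) = r * 2 := by
    rw [hcomm.orderOf_mul_eq_mul_orderOf_of_coprime hcop, ha, hoτ]
  have hpr : ¬ p ∣ r := fun h3 => hrp ((Nat.prime_dvd_prime_iff_eq hp.out hr).mp h3).symm
  have hreg1 : ¬ p ∣ orderOf a := by rwa [ha]
  have hreg2 : ¬ p ∣ orderOf (a * τ) := by
    rw [hob]
    intro h3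
    rcases (Nat.Prime.dvd_mul hp.out).mp h3 with h4 | h4
    · exact hpr h4
    · have := Nat.le_of_dvd (by norm_num) h4
      omega
  -- the first subgroup
  letI : Fintype (zpowers a) := Fintype.ofFinite _
  have d1 := H.dvd_inv hf (zpowers a) (fun y hy => reg_zpowers H hreg1 hy) ∅ (by
    intro y
    simp only [Finset.notMem_empty, false_iff, not_and]
    intro hy hy2
    apply hy
    apply Subtype.ext
    have h3 : orderOf (y : G) ∣ 2 := orderOf_dvd_of_pow_eq_one (by rw [sq, hy2])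
    have h4 : orderOf (y : G) ∣ r := by
      rw [← ha]
      exact orderOf_dvd_of_mem_zpowers y.2
    have h5 : orderOf (y : G) = 1 := by
      have h6 : Nat.Coprime 2 r := (Nat.coprime_primes Nat.prime_two hr).mpr (Ne.symm hr2)
      exact Nat.eq_one_of_dvd_coprimes h6 h3 h4
    simpa using h5)
  rw [Nat.card_zpowers, ha] at d1
  simp only [Finset.card_empty, Nat.cast_zero, sub_zero] at d1
  -- the second subgroup
  have hpowr : (a * τ) ^ r = τ := by
    rw [hcomm.mul_pow, ← ha, pow_orderOf_eq_one, one_mul, ha]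
    obtain ⟨k, hk⟩ := hodd
    rw [hk, pow_succ, pow_mul, sq, h1, one_pow, one_mul]
  have hτmem : τ ∈ zpowers (a * τ) := by
    have h3 := pow_mem (mem_zpowers (a * τ)) r
    rwa [hpowr] at h3
  letI : Fintype (zpowers (a * τ)) := Fintype.ofFinite _
  have d2 := H.dvd_inv hf (zpowers (a * τ)) (fun y hy => reg_zpowers H hreg2 hy) {⟨τ, hτmem⟩} (by
    intro y
    rw [Finset.mem_singleton]
    constructor
    · rintro rfl
      refine ⟨fun e0 => h2 (congrArg Subtype.val e0), h1⟩
    · rintro ⟨hy1, hy2⟩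
      obtain ⟨y, hy⟩ := y
      apply Subtype.ext
      obtain ⟨k, rfl⟩ := hy
      simp only at hy1 hy2 ⊢
      -- `r` divides `k`
      have hτ2 : ∀ l : ℤ, τ ^ (2 * l) = 1 := by
        intro l
        rw [zpow_mul]
        have : τ ^ (2 : ℤ) = 1 := by
          rw [show (2 : ℤ) = ((2 : ℕ) : ℤ) from rfl, zpow_natCast, sq, h1]
        rw [this, one_zpow]
      have h3 : a ^ (2 * k) = 1 := by
        have h4 : ((a * τ) ^ k) * ((a * τ) ^ k) = (a * τ) ^ (2 * k) := by
          rw [two_mul, zpow_add]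
        rw [h4, hcomm.mul_zpow, hτ2, mul_one] at hy2
        exact hy2
      have h4 : (r : ℤ) ∣ 2 * k := by
        rw [← ha]
        exact orderOf_dvd_iff_zpow_eq_one.mpr h3
      have h5 : (r : ℤ) ∣ k := by
        have h6 : IsCoprime (r : ℤ) 2 := by
          have := (Nat.coprime_primes hr Nat.prime_two).mpr hr2
          exact_mod_cast Nat.isCoprime_iff_coprime.mpr this
        exact h6.dvd_of_dvd_mul_left h4
      obtain ⟨l, rfl⟩ := h5
      have hy1' : (a * τ) ^ ((r : ℤ) * l) ≠ 1 := fun e0 => hy1 (Subtype.ext e0)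
      have e5 : (a * τ) ^ ((r : ℤ) * l) = τ ^ l := by rw [zpow_mul, zpow_natCast, hpowr]
      rw [e5] at hy1' ⊢
      rcases Int.even_or_odd' l with ⟨n, rfl | rfl⟩
      · exact absurd (hτ2 n) hy1'
      · rw [zpow_add, zpow_one, hτ2, one_mul])
  rw [Nat.card_zpowers, hob] at d2
  simp only [Finset.card_singleton, Nat.cast_one] at d2
  -- conclusion
  have d3 : (r : ℤ) ∣ (p : ℤ) - 2 - 1 := by
    refine dvd_trans ?_ d2
    push_cast
    exact Dvd.intro _ rfl
  have d4 : (r : ℤ) ∣ 1 := by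
    have h3 := dvd_sub d1 d3
    have h4 : (p : ℤ) - 2 - ((p : ℤ) - 2 - 1) = 1 := by ring
    rwa [h4] at h3
  have h5 : r ∣ 1 := by exact_mod_cast d4
  exact hr.ne_one (Nat.dvd_one.mp h5)

/-- The centralizer of an involution. -/
theorem cent_card {τ : G} (h1 : τ * τ = 1) (h2 : τ ≠ 1) : Nat.card (centralizer ({τ} : Set G)) = p - 1 := by
  classical
  haveI : Fact (Nat.Prime 2) := ⟨Nat.prime_two⟩
  have hp5 := H.p_ge
  set C := centralizer ({τ} : Set G) with hC
  have hprimes : ∀ {r : ℕ}, r.Prime → r ∣ Nat.card C → r = 2 := by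
    intro r hr hd
    by_contra hr2
    haveI : Fact r.Prime := ⟨hr⟩
    obtain ⟨a, ha⟩ := exists_prime_orderOf_dvd_card' r hd
    have ha' : orderOf (a : G) = r := by rw [← ha]; exact Subgroup.orderOf_coe a
    have hc : (a : G) * τ = τ * a := mem_centralizer_singleton_iff.mp a.2
    exact H.cent_prime hf h1 h2 hr hr2 ha' hc
  have hcard := Nat.eq_prime_pow_of_unique_prime_dvd (Nat.card_pos (α := C)).ne' hprimes
  have hpg : IsPGroup 2 C := IsPGroup.of_card hcard
  obtain ⟨S', hS'⟩ := hpg.exists_le_sylow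
  have hle1 : Nat.card C ≤ p - 1 := by
    rw [← H.S2_card hf S']
    exact Subgroup.card_le_of_le hS'
  have hoτ : orderOf τ = 2 := orderOf_eq_prime (by rw [sq, h1]) h2
  have hzp : IsPGroup 2 (zpowers τ) := IsPGroup.of_card (n := 1) (by rw [Nat.card_zpowers, hoτ, pow_one])
  obtain ⟨S, hS⟩ := hzp.exists_le_sylow
  have hτS : τ ∈ (S : Subgroup G) := hS (mem_zpowers τ)
  have hle2 : (S : Subgroup G) ≤ C := by
    intro x hx
    exact mem_centralizer_singleton_iff.mpr (H.S2_comm hf S hx hτS)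
  have hle3 : p - 1 ≤ Nat.card C := by
    rw [← H.S2_card hf S]
    exact Subgroup.card_le_of_le hle2
  omega

/-- All involutions are conjugate. -/
theorem invol_conj {τ σ : G} (h1 : τ * τ = 1) (h2 : τ ≠ 1) (h3 : σ * σ = 1) (h4 : σ ≠ 1) : IsConj τ σ := by
  classical
  have hp5 := H.p_ge
  have hc := card_conj_mul_card_centralizer τ
  rw [H.cent_card hf h1 h2, H.card_G_nat hf] at hc
  have hcl : Nat.card {x : G // IsConj τ x} = p * (p - 2) := by
    have h5 : 0 < p - 1 := by omega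
    apply Nat.eq_of_mul_eq_mul_right h5
    rw [hc]
    ring
  let cls : Finset G := Finset.univ.filter (fun x => IsConj τ x)
  have hcls : cls.card = p * (p - 2) := by
    rw [← hcl, Nat.card_eq_fintype_card, Fintype.card_subtype]
  have hinv : ∀ {x : G}, x * x = 1 → x ≠ 1 → ¬ p ∣ orderOf x := by
    intro x hx1 hx2 hd
    have h5 : orderOf x = 2 := orderOf_eq_prime (by rw [sq, hx1]) hx2
    rw [h5] at hd
    have := Nat.le_of_dvd (by norm_num) hd
    omega
  have hsub : cls ⊆ H.D0 := by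
    intro x hx
    have hx' : IsConj τ x := (Finset.mem_filter.mp hx).2
    obtain ⟨c, rfl⟩ := isConj_iff.mp hx'
    have h5 : c * τ * c⁻¹ * (c * τ * c⁻¹) = 1 := by
      calc c * τ * c⁻¹ * (c * τ * c⁻¹) = c * (τ * τ) * c⁻¹ := by group
        _ = 1 := by rw [h1]; group
    have h6 : c * τ * c⁻¹ ≠ 1 := by
      intro h7
      apply h2
      have h8 : τ = c⁻¹ * (c * τ * c⁻¹) * c := by group
      rw [h8, h7]
      group
    exact (H.mem_D0).mpr ⟨hinv h5 h6, h6, H.c_invol hf h5 h6⟩
  have hcard : H.D0.card ≤ cls.card := by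
    have h5 := H.card_D0 hf
    rw [hcls]
    zify [show 2 ≤ p by omega]
    rw [h5]
  have heq := Finset.eq_of_subset_of_card_le hsub hcard
  have hσ : σ ∈ H.D0 := (H.mem_D0).mpr ⟨hinv h3 h4, h4, H.c_invol hf h3 h4⟩
  rw [← heq] at hσ
  exact (Finset.mem_filter.mp hσ).2

end Two

end Cfsg.Agent.Lib.BT
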